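/-
helper54 library (BG11-T, for helper63): B&G 11.2(a), `M_σ ∩ g M g⁻¹ = 1` for an exceptional
maximal subgroup `M`, `g ∉ M` and `A ≤ g M g⁻¹`, from the core statement `StExcCore`.
-/
import Mathlib
import Cfsg.Agent.H63.BG11Defs
import Cfsg.Agent.H14.BG10RK2
import Cfsg.Agent.Lib.Helper30.CoprimeIface

set_option autoImplicit false

namespace Cfsg.Agent.H54.BG11

open Cfsg Subgroup Cfsg.Agent.H58.BG10 Cfsg.Agent.H63.BG11

universe u

variable {G : Type u} [Group G]

/-- `M` normalizes `M_σ`. -/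
theorem le_normalizer_sigmaCore (M : Subgroup G) : M ≤ normalizer (sigmaCore M : Set G) := by
  have hle : sigmaCore M ≤ M := Subgroup.map_subtype_le _
  rw [← Subgroup.normal_subgroupOf_iff_le_normalizer hle]
  have h1 : (sigmaCore M).subgroupOf M = piCore (sigma M) M :=
    Subgroup.comap_map_eq_self_of_injective M.subtype_injective _
  rw [h1]
  exact piCore_normal _ _

/-- **BG11-T** (B&G 11.2(a)). -/
theorem excTI [Finite G] (hG : IsMinSimpleOddOrder G) (h350 : St1350 G) (hC : StExcCore G) :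
    StExcTI G := by
  intro M A A₀ p _ hE g hg hA
  by_contra hY
  have hp : p.Prime := Fact.out
  obtain ⟨hHallM, -, -⟩ := h350 M hE.coatom
  obtain ⟨hSM, hSprime, hSidx⟩ := hHallM
  -- `A` normalizes `Y = M_σ ⊓ M^g`
  have hAS : A ≤ normalizer (sigmaCore M : Set G) := hE.le.trans (le_normalizer_sigmaCore M)
  have hAMg : A ≤ normalizer ((M.map (MulAut.conj g).toMonoidHom : Subgroup G) : Set G) :=
    hA.trans Subgroup.le_normalizer
  have hAY : A ≤ normalizer
      ((sigmaCore M ⊓ M.map (MulAut.conj g).toMonoidHom : Subgroup G) : Set G) := by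
    intro a ha
    have h1 := hAS ha
    have h2 := hAMg ha
    rw [Subgroup.mem_normalizer_iff] at h1 h2 ⊢
    intro x
    exact ⟨fun hx => ⟨(h1 x).mp hx.1, (h2 x).mp hx.2⟩,
      fun hx => ⟨(h1 x).mpr hx.1, (h2 x).mpr hx.2⟩⟩
  -- coprimality
  have hYS : sigmaCore M ⊓ M.map (MulAut.conj g).toMonoidHom ≤ sigmaCore M := inf_le_left
  have hcardY : Nat.card ↥(sigmaCore M ⊓ M.map (MulAut.conj g).toMonoidHom) ∣
      Nat.card (sigmaCore M) := Subgroup.card_dvd_of_le hYS
  have hpY : ¬ p ∣ Nat.card ↥(sigmaCore M ⊓ M.map (MulAut.conj g).toMonoidHom) :=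
    fun h => hE.nsig (hSprime p hp (h.trans hcardY))
  have hcop : (Nat.card A).Coprime
      (Nat.card ↥(sigmaCore M ⊓ M.map (MulAut.conj g).toMonoidHom)) := by
    rw [hE.card]
    exact Nat.Coprime.pow_left 2 ((Nat.Prime.coprime_iff_not_dvd hp).mpr hpY)
  have hsolvA : Group.IsSolvable A := by
    have hpg : IsPGroup p A := IsPGroup.of_card hE.card
    have := hpg.isNilpotent
    infer_instance
  -- a prime `q` dividing `|Y|` and an `A`-invariant Sylow `q`-subgroup of `Y`
  have hcard1 : Nat.card ↥(sigmaCore M ⊓ M.map (MulAut.conj g).toMonoidHom) ≠ 1 :=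
    fun h1 => hY (Subgroup.eq_bot_of_card_eq _ h1)
  obtain ⟨q, hq, hqY⟩ := Nat.exists_prime_and_dvd hcard1
  have : Fact q.Prime := ⟨hq⟩
  obtain ⟨Q, hQ⟩ := Cfsg.Agent.Lib.Helper30.coprime_exists_invariant_sylow A
    (sigmaCore M ⊓ M.map (MulAut.conj g).toMonoidHom) hAY hcop (Or.inl hsolvA) q
  have hUY : (Q : Subgroup ↥(sigmaCore M ⊓ M.map (MulAut.conj g).toMonoidHom)).map
      (sigmaCore M ⊓ M.map (MulAut.conj g).toMonoidHom).subtype ≤
      sigmaCore M ⊓ M.map (MulAut.conj g).toMonoidHom := Subgroup.map_subtype_le _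
  have hUp : IsPGroup q ↥((Q : Subgroup ↥(sigmaCore M ⊓ M.map (MulAut.conj g).toMonoidHom)).map
      (sigmaCore M ⊓ M.map (MulAut.conj g).toMonoidHom).subtype) := Q.isPGroup'.map _
  have hU1 : (Q : Subgroup ↥(sigmaCore M ⊓ M.map (MulAut.conj g).toMonoidHom)).map
      (sigmaCore M ⊓ M.map (MulAut.conj g).toMonoidHom).subtype ≠ ⊥ := by
    intro h
    rw [Subgroup.map_eq_bot_iff_of_injective _ (Subgroup.subtype_injective _)] at h
    exact Q.ne_bot_of_dvd_card hqY h
  have hqσ : q ∈ sigma M := hSprime q hq (hqY.trans hcardY)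
  generalize (Q : Subgroup ↥(sigmaCore M ⊓ M.map (MulAut.conj g).toMonoidHom)).map
      (sigmaCore M ⊓ M.map (MulAut.conj g).toMonoidHom).subtype = U at hQ hUY hUp hU1
  -- `U ≤ (M_σ)^g`
  have hSgn : M.map (MulAut.conj g).toMonoidHom ≤
      normalizer (((sigmaCore M).map (MulAut.conj g).toMonoidHom : Subgroup G) : Set G) :=
    (Subgroup.map_mono (le_normalizer_sigmaCore M)).trans (Subgroup.le_normalizer_map _)
  have hUSg : U ≤ (sigmaCore M).map (MulAut.conj g).toMonoidHom := by
    have : (((sigmaCore M).map (MulAut.conj g).toMonoidHom).subgroupOf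
        (M.map (MulAut.conj g).toMonoidHom)).Normal :=
      Subgroup.normal_subgroupOf_of_le_normalizer hSgn
    have hidx : (((sigmaCore M).map (MulAut.conj g).toMonoidHom).subgroupOf
        (M.map (MulAut.conj g).toMonoidHom)).index.Coprime q := by
      show (((sigmaCore M).map (MulAut.conj g).toMonoidHom).relIndex
        (M.map (MulAut.conj g).toMonoidHom)).Coprime q
      rw [Subgroup.relIndex_map_map_of_injective (sigmaCore M) M (MulAut.conj g).injective]
      exact Nat.Coprime.symm ((Nat.Prime.coprime_iff_not_dvd hq).mpr (hSidx q hq hqσ))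
    have hUp' : IsPGroup q ↥(U.subgroupOf (M.map (MulAut.conj g).toMonoidHom)) :=
      hUp.comap_subtype
    have hle := Cfsg.Agent.H14.BG10.le_of_index_coprime _ _ hUp' hidx
    intro x hx
    have hxM : x ∈ M.map (MulAut.conj g).toMonoidHom := (hUY hx).2
    exact hle (show (⟨x, hxM⟩ : M.map (MulAut.conj g).toMonoidHom) ∈
      U.subgroupOf (M.map (MulAut.conj g).toMonoidHom) from hx)
  -- the normalizer of `U` is proper
  have hH : normalizer (U : Set G) ≠ ⊤ := by
    intro htop
    have hUn : U.Normal := Subgroup.normalizer_eq_top_iff.mp htop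
    have := hG.2.1
    rcases hUn.eq_bot_or_eq_top with h | h
    · exact hU1 h
    · have hMtop : M = ⊤ := top_le_iff.mp (h ▸ (hUY.trans (hYS.trans hSM)))
      exact hE.coatom.1 hMtop
  exact hC M A A₀ p hE g hg hA q U U (normalizer (U : Set G)) (hUY.trans hYS) hUSg hUp hUp
    hU1 hU1 hQ hQ hH hQ Subgroup.le_normalizer Subgroup.le_normalizer

end Cfsg.Agent.H54.BG11

section Check

open Cfsg Subgroup Cfsg.Agent.H58.BG10 Cfsg.Agent.H63.BG11

universe u

variable {G : Type u} [Group G]

example [Finite G] (hG : IsMinSimpleOddOrder G) (h350 : St1350 G) (hC : StExcCore G) :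
    StExcTI G :=
  Cfsg.Agent.H54.BG11.excTI hG h350 hC

end Check
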