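import Mathlib

/-!
# S2943 team project (lead: helper52), piece SO-UNIQ: the linear-algebra core

Two commuting additive maps `φ, θ` of order dividing 3 on an elementary abelian 2-group whose
"commutators" `W₁ = (1 + φ) A`, `W₂ = (1 + θ) A` both have 4 elements and meet nontrivially
satisfy `φ = θ` or `φ = θ²`.
-/

set_option autoImplicit false

namespace Cfsg.Agent.H54.Sn

section core

variable {A : Type*} [AddCommGroup A]

/-- the four elements of `W = (1 + φ) A` -/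
theorem four_elts (h2 : ∀ a : A, a + a = 0) (φ : A → A)
    (hφa : ∀ a b, φ (a + b) = φ a + φ b) (hφ : ∀ a, φ (φ (φ a)) = a)
    (W : Set A) (hW : ∀ w, w ∈ W ↔ ∃ v, w = v + φ v) (hc : W.ncard = 4)
    (z : A) (hz : z ≠ 0) (hzW : z ∈ W) :
    φ 0 = 0 ∧ (∀ w ∈ W, w + φ w + φ (φ w) = 0) ∧ (∀ w ∈ W, φ w ∈ W) ∧
      (∀ w ∈ W, ∀ w' ∈ W, w + w' ∈ W) ∧ φ z ≠ 0 ∧ φ z ≠ z ∧
      (∀ w ∈ W, w = 0 ∨ w = z ∨ w = φ z ∨ w = z + φ z) := by
  classical
  have h0 : φ 0 = 0 := by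
    have := hφa 0 0
    rw [add_zero] at this
    exact (add_eq_left.mp this.symm)
  have hA : ∀ w ∈ W, w + φ w + φ (φ w) = 0 := by
    intro w hw
    obtain ⟨v, rfl⟩ := (hW w).mp hw
    rw [hφa, hφa, hφ]
    have e : v + φ v + (φ v + φ (φ v)) + (φ (φ v) + v)
        = (v + v) + (φ v + φ v) + (φ (φ v) + φ (φ v)) := by abel
    rw [e, h2 v, h2 (φ v), h2 (φ (φ v))]; simp
  have hinv : ∀ w ∈ W, φ w ∈ W := by
    intro w hw
    obtain ⟨v, rfl⟩ := (hW w).mp hw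
    exact (hW _).mpr ⟨φ v, hφa _ _⟩
  have hadd : ∀ w ∈ W, ∀ w' ∈ W, w + w' ∈ W := by
    intro w hw w' hw'
    obtain ⟨v, rfl⟩ := (hW w).mp hw
    obtain ⟨v', rfl⟩ := (hW w').mp hw'
    refine (hW _).mpr ⟨v + v', ?_⟩
    rw [hφa]; abel
  have hz0 : φ z ≠ 0 := by
    intro h
    apply hz
    have := hφ z
    rw [h, h0, h0] at this
    exact this.symm
  have hzz : φ z ≠ z := by
    intro h
    apply hz
    have := hA z hzW
    rw [h, h, h2, zero_add] at this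
    exact this
  have hs1 : z + φ z ≠ 0 := by
    intro h
    apply hzz
    have e : φ z = (z + φ z) + z := by
      have := h2 z
      calc φ z = (z + z) + φ z := by rw [this, zero_add]
        _ = (z + φ z) + z := by abel
    rw [e, h, zero_add]
  have hs2 : z + φ z ≠ z := by
    intro h
    exact hz0 (add_eq_left.mp h)
  have hs3 : z + φ z ≠ φ z := by
    intro h
    exact hz (add_eq_right.mp h)
  have hS : ({0, z, φ z, z + φ z} : Finset A).card = 4 := by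
    rw [Finset.card_insert_of_notMem, Finset.card_insert_of_notMem, Finset.card_pair hs3.symm]
    · intro h
      simp only [Finset.mem_insert, Finset.mem_singleton] at h
      rcases h with h | h
      · exact hzz h.symm
      · exact hs2 h.symm
    · intro h
      simp only [Finset.mem_insert, Finset.mem_singleton] at h
      rcases h with h | h | h
      · exact hz h.symm
      · exact hz0 h.symm
      · exact hs1 h.symm
  have hsub : (↑({0, z, φ z, z + φ z} : Finset A) : Set A) ⊆ W := by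
    intro w hw
    simp only [Finset.coe_insert, Finset.coe_singleton, Set.mem_insert_iff,
      Set.mem_singleton_iff] at hw
    rcases hw with rfl | rfl | rfl | rfl
    · exact (hW _).mpr ⟨0, by rw [h0, add_zero]⟩
    · exact hzW
    · exact hinv _ hzW
    · exact hadd _ hzW _ (hinv _ hzW)
  have hfin : W.Finite := Set.finite_of_ncard_ne_zero (by rw [hc]; norm_num)
  have heq := Set.eq_of_subset_of_ncard_le hsub
    (by rw [Set.ncard_coe_finset, hS, hc]) hfin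
  refine ⟨h0, hA, hinv, hadd, hz0, hzz, ?_⟩
  intro w hw
  rw [← heq] at hw
  simpa only [Finset.coe_insert, Finset.coe_singleton, Set.mem_insert_iff,
    Set.mem_singleton_iff] using hw

/-- the case `φ z = θ z` -/
theorem core1 (h2 : ∀ a : A, a + a = 0) (φ θ : A → A)
    (hφa : ∀ a b, φ (a + b) = φ a + φ b) (hθa : ∀ a b, θ (a + b) = θ a + θ b)
    (hφ : ∀ a, φ (φ (φ a)) = a) (hθ : ∀ a, θ (θ (θ a)) = a) (hc : ∀ a, θ (φ a) = φ (θ a))
    (W₁ W₂ : Set A) (hW1 : ∀ w, w ∈ W₁ ↔ ∃ v, w = v + φ v)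
    (hW2 : ∀ w, w ∈ W₂ ↔ ∃ v, w = v + θ v)
    (hc1 : W₁.ncard = 4) (hc2 : W₂.ncard = 4)
    (z : A) (hz : z ≠ 0) (hz1 : z ∈ W₁) (hz2 : z ∈ W₂) (hzz : φ z = θ z) :
    ∀ a, φ a = θ a := by
  obtain ⟨h0, hA, hinv, hadd, hz0, hzne, hel⟩ := four_elts h2 φ hφa hφ W₁ hW1 hc1 z hz hz1
  obtain ⟨h0', hA', hinv', hadd', hz0', hzne', hel'⟩ :=
    four_elts h2 θ hθa hθ W₂ hW2 hc2 z hz hz2
  -- `θ = φ` on `W₁`
  have hon : ∀ w ∈ W₁, θ w = φ w := by
    intro w hw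
    rcases hel w hw with rfl | rfl | rfl | rfl
    · rw [h0, h0']
    · exact hzz.symm
    · rw [hc, hzz]
    · rw [hθa, hφa, hc, ← hzz]
  -- `W₂ ⊆ W₁`
  have h21 : ∀ w ∈ W₂, w ∈ W₁ := by
    intro w hw
    rcases hel' w hw with rfl | rfl | rfl | rfl
    · exact (hW1 _).mpr ⟨0, by rw [h0, add_zero]⟩
    · exact hz1
    · rw [← hzz]; exact hinv _ hz1
    · rw [← hzz]; exact hadd _ hz1 _ (hinv _ hz1)
  have hd1 : ∀ v, φ (θ (θ v)) + v ∈ W₁ := by
    intro v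
    have e1 : θ (θ v) + v ∈ W₁ := by
      apply h21
      refine (hW2 _).mpr ⟨θ (θ v), ?_⟩
      rw [hθ]
    have e2 : v + φ v ∈ W₁ := (hW1 _).mpr ⟨v, rfl⟩
    have e3 := hadd _ (hinv _ e1) _ e2
    have e4 : φ (θ (θ v) + v) + (v + φ v) = φ (θ (θ v)) + v := by
      rw [hφa]
      calc φ (θ (θ v)) + φ v + (v + φ v) = φ (θ (θ v)) + v + (φ v + φ v) := by abel
        _ = φ (θ (θ v)) + v := by rw [h2, add_zero]
    rw [e4] at e3
    exact e3
  have hd2 : ∀ u ∈ W₁, φ (θ (θ u)) = u := by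
    intro u hu
    rw [hon u hu, hon _ (hinv u hu), hφ]
  have hd3 : ∀ v, φ (θ (θ (φ (θ (θ v))))) = v := by
    intro v
    have e := hd2 _ (hd1 v)
    rw [hθa, hθa, hφa] at e
    exact add_right_cancel (e.trans (add_comm _ _))
  have hd4 : ∀ v, φ (θ (θ (φ (θ (θ (φ (θ (θ v)))))))) = v := by
    intro v
    simp only [hc, hφ, hθ]
  have hd5 : ∀ v, φ (θ (θ v)) = v := by
    intro v
    have e := hd4 v
    rw [hd3] at e
    exact e
  intro a
  have e := hd5 (θ a)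
  rw [hθ] at e
  exact e

/-- the linear-algebra core of SO-UNIQ -/
theorem core2 (h2 : ∀ a : A, a + a = 0) (φ θ : A → A)
    (hφa : ∀ a b, φ (a + b) = φ a + φ b) (hθa : ∀ a b, θ (a + b) = θ a + θ b)
    (hφ : ∀ a, φ (φ (φ a)) = a) (hθ : ∀ a, θ (θ (θ a)) = a) (hc : ∀ a, θ (φ a) = φ (θ a))
    (W₁ W₂ : Set A) (hW1 : ∀ w, w ∈ W₁ ↔ ∃ v, w = v + φ v)
    (hW2 : ∀ w, w ∈ W₂ ↔ ∃ v, w = v + θ v)
    (hc1 : W₁.ncard = 4) (hc2 : W₂.ncard = 4)
    (z : A) (hz : z ≠ 0) (hz1 : z ∈ W₁) (hz2 : z ∈ W₂) :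
    (∀ a, φ a = θ a) ∨ (∀ a, φ a = θ (θ a)) := by
  obtain ⟨h0, hA, hinv, hadd, hz0, hzne, hel⟩ := four_elts h2 φ hφa hφ W₁ hW1 hc1 z hz hz1
  obtain ⟨h0', hA', hinv', hadd', hz0', hzne', hel'⟩ :=
    four_elts h2 θ hθa hθ W₂ hW2 hc2 z hz hz2
  have hφz : φ z ∈ W₂ := by
    obtain ⟨v, hv⟩ := (hW2 z).mp hz2
    refine (hW2 _).mpr ⟨φ v, ?_⟩
    rw [hv, hφa, hc]
  rcases hel' _ hφz with h | h | h | h
  · exact absurd h hz0
  · exact absurd h hzne
  · exact Or.inl (core1 h2 φ θ hφa hθa hφ hθ hc W₁ W₂ hW1 hW2 hc1 hc2 z hz hz1 hz2 h)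
  · right
    have hθθ : θ (θ z) = z + θ z := by
      have e := hA' z hz2
      have e2 : θ (θ z) = (z + θ z + θ (θ z)) + (z + θ z) := by
        calc θ (θ z) = (z + z) + (θ z + θ z) + θ (θ z) := by rw [h2, h2, zero_add, zero_add]
          _ = (z + θ z + θ (θ z)) + (z + θ z) := by abel
      rw [e2, e, zero_add]
    have hW2' : ∀ w, w ∈ W₂ ↔ ∃ v, w = v + θ (θ v) := by
      intro w
      rw [hW2]
      constructor
      · rintro ⟨v, rfl⟩
        exact ⟨θ v, by rw [hθ]; abel⟩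
      · rintro ⟨v, rfl⟩
        exact ⟨θ (θ v), by rw [hθ]; abel⟩
    exact core1 h2 φ (fun a => θ (θ a)) hφa (fun a b => by simp only [hθa]) hφ
      (fun a => by simp only [hθ]) (fun a => by simp only [hc]) W₁ W₂ hW1 hW2' hc1 hc2 z hz hz1
      hz2 (by rw [h, hθθ])

end core

end Cfsg.Agent.H54.Sn
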