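import Cfsg.Agent.H52.SoDefs
import Cfsg.Agent.H54.SoUniqCore

/-!
# S2943 team project (lead: helper52), piece SO-UNIQ

Two subgroups whose images in `X / C_X(V)` are commuting subgroups of order 3, with commutators on
`V` of order 4 meeting nontrivially, have the same image.
-/

set_option autoImplicit false

namespace Cfsg.Agent.H54.Sn

open Cfsg Cfsg.Agent.H52.Sn
open scoped commutatorElement

universe u

section glue

variable {X : Type u} [Group X] (V : Subgroup X) [V.Normal]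

/-- the conjugation action on `V` is trivial exactly for the elements of the centralizer -/
theorem conj_eq_one_iff (k : X) :
    (MulAut.conjNormal k : MulAut ↥V) = 1 ↔ k ∈ Subgroup.centralizer (V : Set X) := by
  rw [Subgroup.mem_centralizer_iff]
  constructor
  · intro h v hv
    have e := congrArg (fun f : MulAut ↥V => ((f ⟨v, hv⟩ : ↥V) : X)) h
    simp only [MulAut.conjNormal_apply, MulAut.one_apply] at e
    calc v * k = (k * v * k⁻¹) * k := by rw [e]
      _ = k * v := by group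
  · intro h
    ext v
    rw [MulAut.conjNormal_apply, MulAut.one_apply, ← h v v.2, mul_inv_cancel_right]

/-- a subgroup with a subgroup of index 3 inside the centralizer of `V` acts on `V` through the
powers of one automorphism of order 3 -/
theorem tri [Finite X] (K O : Subgroup X) (hOC : O ≤ Subgroup.centralizer (V : Set X))
    (h3 : O.relIndex K = 3) (hKC : ¬ K ≤ Subgroup.centralizer (V : Set X)) :
    ∃ k₀ ∈ K, (MulAut.conjNormal k₀ : MulAut ↥V) ^ 3 = 1 ∧
      ∀ k ∈ K, ∃ r : ℕ,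
        (MulAut.conjNormal k : MulAut ↥V) = (MulAut.conjNormal k₀ : MulAut ↥V) ^ r := by
  classical
  let ψ : X →* MulAut ↥V := MulAut.conjNormal
  have hker : ψ.ker = Subgroup.centralizer (V : Set X) := by
    ext k
    rw [MonoidHom.mem_ker]
    exact conj_eq_one_iff V k
  have hrel : (Subgroup.centralizer (V : Set X)).relIndex K = 3 := by
    have hd := Subgroup.relIndex_dvd_of_le_left K hOC
    rw [h3] at hd
    rcases (Nat.dvd_prime Nat.prime_three).mp hd with h | h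
    · exact absurd (Subgroup.relIndex_eq_one.mp h) hKC
    · exact h
  have hcard : Nat.card (K.map ψ) = 3 := by rw [← Subgroup.relIndex_ker, hker, hrel]
  obtain ⟨k₀, hk₀, hk₀C⟩ := SetLike.not_le_iff_exists.mp hKC
  have hne : ψ k₀ ≠ 1 := fun h => hk₀C ((conj_eq_one_iff V k₀).mp h)
  have hp : Fact (Nat.Prime 3) := ⟨Nat.prime_three⟩
  have hg : (⟨ψ k₀, Subgroup.mem_map_of_mem ψ hk₀⟩ : K.map ψ) ≠ 1 :=
    fun h => hne (congrArg Subtype.val h)
  have htop := zpowers_eq_top_of_prime_card hcard hg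
  have hpow : (⟨ψ k₀, Subgroup.mem_map_of_mem ψ hk₀⟩ : K.map ψ) ^ 3 = 1 := by
    rw [← hcard]; exact pow_card_eq_one'
  refine ⟨k₀, hk₀, ?_, ?_⟩
  · have e := congrArg Subtype.val hpow
    rwa [Subgroup.coe_pow] at e
  · intro k hk
    have hmem : (⟨ψ k, Subgroup.mem_map_of_mem ψ hk⟩ : K.map ψ) ∈
        Subgroup.zpowers (⟨ψ k₀, Subgroup.mem_map_of_mem ψ hk₀⟩ : K.map ψ) := by
      rw [htop]; exact Subgroup.mem_top _
    rw [← mem_powers_iff_mem_zpowers, Submonoid.mem_powers_iff] at hmem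
    obtain ⟨r, hr⟩ := hmem
    refine ⟨r, ?_⟩
    have e := congrArg Subtype.val hr
    rw [Subgroup.coe_pow] at e
    exact e.symm

/-- the commutator `[V, K]` is the image of `v ↦ v * φ v` -/
theorem comm_set (hVc : ∀ a b : ↥V, a * b = b * a) (hV2 : ∀ a : ↥V, a * a = 1)
    (K : Subgroup X) (k₀ : X) (hk₀ : k₀ ∈ K)
    (htri : ∀ k ∈ K, ∃ r : ℕ,
      (MulAut.conjNormal k : MulAut ↥V) = (MulAut.conjNormal k₀ : MulAut ↥V) ^ r)
    (w : ↥V) :
    (w : X) ∈ ⁅V, K⁆ ↔ ∃ v : ↥V, w = v * (MulAut.conjNormal k₀ : MulAut ↥V) v := by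
  have hinv : ∀ a : ↥V, a⁻¹ = a := fun a => inv_eq_of_mul_eq_one_right (hV2 a)
  have hcomm : ∀ (v : ↥V) (k : X),
      ⁅(v : X), k⁆ = ((v * (MulAut.conjNormal k : MulAut ↥V) v : ↥V) : X) := by
    intro v k
    rw [Subgroup.coe_mul, MulAut.conjNormal_apply, commutatorElement_def]
    have e : (v : X)⁻¹ = v := by
      have e1 := congrArg Subtype.val (hinv v)
      rwa [Subgroup.coe_inv] at e1
    have e2 : (v : X) * k * (v : X)⁻¹ * k⁻¹ = v * (k * (v : X)⁻¹ * k⁻¹) := by group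
    rw [e2, e]
  constructor
  · intro hw
    let f : ↥V →* ↥V := MonoidHom.mk' (fun v => v * (MulAut.conjNormal k₀ : MulAut ↥V) v) (by
      intro a b
      rw [map_mul, mul_assoc, mul_assoc, ← mul_assoc b, hVc b, mul_assoc])
    have key : ∀ (r : ℕ) (v : ↥V), ∃ v' : ↥V,
        v * ((MulAut.conjNormal k₀ : MulAut ↥V) ^ r) v = f v' := by
      intro r
      induction r with
      | zero =>
        intro v
        refine ⟨1, ?_⟩
        rw [pow_zero, MulAut.one_apply, hV2, map_one]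
      | succ r ih =>
        intro v
        obtain ⟨v₁, h₁⟩ := ih v
        refine ⟨v₁ * ((MulAut.conjNormal k₀ : MulAut ↥V) ^ r) v, ?_⟩
        rw [map_mul, ← h₁, pow_succ', MulAut.mul_apply]
        show _ = v * ((MulAut.conjNormal k₀ : MulAut ↥V) ^ r) v *
          (((MulAut.conjNormal k₀ : MulAut ↥V) ^ r) v *
            (MulAut.conjNormal k₀ : MulAut ↥V) (((MulAut.conjNormal k₀ : MulAut ↥V) ^ r) v))
        rw [mul_assoc, ← mul_assoc (((MulAut.conjNormal k₀ : MulAut ↥V) ^ r) v), hV2, one_mul]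
    have hle : ⁅V, K⁆ ≤ (f.range).map V.subtype := by
      rw [Subgroup.commutator_le]
      intro g₁ hg₁ g₂ hg₂
      obtain ⟨r, hr⟩ := htri g₂ hg₂
      obtain ⟨v', hv'⟩ := key r ⟨g₁, hg₁⟩
      refine ⟨f v', ⟨v', rfl⟩, ?_⟩
      rw [← hv', ← hr]
      exact (hcomm ⟨g₁, hg₁⟩ g₂).symm
    obtain ⟨y, ⟨v, rfl⟩, hy⟩ := hle hw
    exact ⟨v, Subtype.ext hy.symm⟩
  · rintro ⟨v, rfl⟩
    rw [← hcomm]
    exact Subgroup.commutator_mem_commutator v.2 hk₀

end glue

/-- SO-UNIQ. -/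
theorem uniq : StUniq.{u} := by
  intro X _ _ V K₁ K₂ O₁ O₂ _ hV hO1 hO1C h31 hO2 hO2C h32 hK hc1 hc2 hz
  obtain ⟨hVc, hV2⟩ := hV
  have hVc' : ∀ a b : ↥V, a * b = b * a := fun a b => mul_comm' a b
  have hV2' : ∀ a : ↥V, a * a = 1 := by
    intro a
    apply Subtype.ext
    rw [Subgroup.coe_mul, ← pow_two, hV2 a a.2]
    rfl
  have hnc : ∀ K : Subgroup X, Nat.card ↥⁅V, K⁆ = 4 →
      ¬ K ≤ Subgroup.centralizer (V : Set X) := by
    intro K hcard hle
    have hbot : ⁅V, K⁆ = ⊥ := by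
      rw [eq_bot_iff, Subgroup.commutator_le]
      intro g₁ hg₁ g₂ hg₂
      rw [Subgroup.mem_bot, commutatorElement_eq_one_iff_commute]
      exact Subgroup.mem_centralizer_iff.mp (hle hg₂) g₁ hg₁
    rw [hbot, Subgroup.card_bot] at hcard
    norm_num at hcard
  obtain ⟨k₁, hk₁, hφ3, htri1⟩ := tri V K₁ O₁ hO1C h31 (hnc K₁ hc1)
  obtain ⟨k₂, hk₂, hθ3, htri2⟩ := tri V K₂ O₂ hO2C h32 (hnc K₂ hc2)
  have hcomm : (MulAut.conjNormal k₂ : MulAut ↥V) * MulAut.conjNormal k₁ =
      MulAut.conjNormal k₁ * MulAut.conjNormal k₂ := by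
    have h1 : ⁅k₁, k₂⁆ ∈ Subgroup.centralizer (V : Set X) :=
      hK (Subgroup.commutator_mem_commutator hk₁ hk₂)
    have h2 := (conj_eq_one_iff V _).mpr h1
    rw [map_commutatorElement, commutatorElement_eq_one_iff_commute] at h2
    exact h2.eq.symm
  obtain ⟨⟨z, hzm⟩, hz1⟩ := (Subgroup.ne_bot_iff_exists_ne_one).mp hz
  have hzV : z ∈ V := Subgroup.commutator_le_left V K₁ hzm.1
  have hz1' : z ≠ 1 := fun h => hz1 (Subtype.ext h)
  have hzne : (⟨z, hzV⟩ : ↥V) ≠ 1 := fun h => hz1' (Subtype.ext_iff.mp h)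
  have hφ3' : ∀ v : ↥V, (MulAut.conjNormal k₁ : MulAut ↥V) ((MulAut.conjNormal k₁ : MulAut ↥V)
      ((MulAut.conjNormal k₁ : MulAut ↥V) v)) = v := by
    intro v
    have e := DFunLike.congr_fun hφ3 v
    simpa [pow_succ, MulAut.mul_apply] using e
  have hθ3' : ∀ v : ↥V, (MulAut.conjNormal k₂ : MulAut ↥V) ((MulAut.conjNormal k₂ : MulAut ↥V)
      ((MulAut.conjNormal k₂ : MulAut ↥V) v)) = v := by
    intro v
    have e := DFunLike.congr_fun hθ3 v
    simpa [pow_succ, MulAut.mul_apply] using e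
  have hcomm' : ∀ v : ↥V, (MulAut.conjNormal k₂ : MulAut ↥V) ((MulAut.conjNormal k₁ : MulAut ↥V) v)
      = (MulAut.conjNormal k₁ : MulAut ↥V) ((MulAut.conjNormal k₂ : MulAut ↥V) v) := by
    intro v
    have e := DFunLike.congr_fun hcomm v
    simpa [MulAut.mul_apply] using e
  -- the key dichotomy, through the additive core
  have hdich : (MulAut.conjNormal k₁ : MulAut ↥V) = MulAut.conjNormal k₂ ∨
      (MulAut.conjNormal k₁ : MulAut ↥V) = (MulAut.conjNormal k₂ : MulAut ↥V) ^ 2 := by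
    let _i : CommGroup ↥V := { (inferInstance : Group ↥V) with mul_comm := hVc' }
    let ι : Additive ↥V → X := fun a => ((Additive.toMul a : ↥V) : X)
    have hι : Function.Injective ι := fun a b h => Subtype.ext h
    have hcardW : ∀ K : Subgroup X, Nat.card ↥⁅V, K⁆ = 4 →
        (ι ⁻¹' ((⁅V, K⁆ : Subgroup X) : Set X)).ncard = 4 := by
      intro K hcard
      rw [Set.ncard_preimage_of_injective_subset_range hι, ← Nat.card_coe_set_eq]
      · exact hcard
      · intro x hx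
        exact ⟨Additive.ofMul ⟨x, Subgroup.commutator_le_left V K hx⟩, rfl⟩
    have hcore := core2 (A := Additive ↥V) (fun a => hV2' (Additive.toMul a))
      (fun a => Additive.ofMul ((MulAut.conjNormal k₁ : MulAut ↥V) (Additive.toMul a)))
      (fun a => Additive.ofMul ((MulAut.conjNormal k₂ : MulAut ↥V) (Additive.toMul a)))
      (fun a b => map_mul (MulAut.conjNormal k₁ : MulAut ↥V) _ _)
      (fun a b => map_mul (MulAut.conjNormal k₂ : MulAut ↥V) _ _)
      (fun a => hφ3' (Additive.toMul a)) (fun a => hθ3' (Additive.toMul a))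
      (fun a => hcomm' (Additive.toMul a))
      (ι ⁻¹' ((⁅V, K₁⁆ : Subgroup X) : Set X)) (ι ⁻¹' ((⁅V, K₂⁆ : Subgroup X) : Set X))
      (fun w => comm_set V hVc' hV2' K₁ k₁ hk₁ htri1 (Additive.toMul w))
      (fun w => comm_set V hVc' hV2' K₂ k₂ hk₂ htri2 (Additive.toMul w))
      (hcardW K₁ hc1) (hcardW K₂ hc2)
      (Additive.ofMul ⟨z, hzV⟩) hzne hzm.1 hzm.2
    rcases hcore with h | h
    · left
      exact MulEquiv.ext (fun v => h (Additive.ofMul v))
    · right
      apply MulEquiv.ext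
      intro v
      rw [pow_two, MulAut.mul_apply]
      exact h (Additive.ofMul v)
  -- conclusion
  have hle : ∀ (K K' : Subgroup X),
      (∀ k ∈ K, ∃ k' ∈ K', (MulAut.conjNormal k : MulAut ↥V) = MulAut.conjNormal k') →
      K ⊔ Subgroup.centralizer (V : Set X) ≤ K' ⊔ Subgroup.centralizer (V : Set X) := by
    intro K K' h
    refine sup_le ?_ le_sup_right
    intro k hk
    obtain ⟨k', hk', e⟩ := h k hk
    have hc : k'⁻¹ * k ∈ Subgroup.centralizer (V : Set X) := by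
      rw [← conj_eq_one_iff V, map_mul, map_inv, e, inv_mul_cancel]
    have e2 : k = k' * (k'⁻¹ * k) := by group
    rw [e2]
    exact Subgroup.mul_mem_sup hk' hc
  have hθφ : ∃ e e' : ℕ, (MulAut.conjNormal k₁ : MulAut ↥V) = (MulAut.conjNormal k₂ : MulAut ↥V) ^ e ∧
      (MulAut.conjNormal k₂ : MulAut ↥V) = (MulAut.conjNormal k₁ : MulAut ↥V) ^ e' := by
    rcases hdich with h | h
    · exact ⟨1, 1, by rw [pow_one]; exact h, by rw [pow_one]; exact h.symm⟩
    · refine ⟨2, 2, h, ?_⟩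
      rw [h, ← pow_mul]
      have e4 : (MulAut.conjNormal k₂ : MulAut ↥V) ^ (2 * 2) =
          (MulAut.conjNormal k₂ : MulAut ↥V) ^ 3 * MulAut.conjNormal k₂ := by
        rw [← pow_succ]
      rw [e4, hθ3, one_mul]
  obtain ⟨e, e', he, he'⟩ := hθφ
  apply le_antisymm
  · apply hle
    intro k hk
    obtain ⟨r, hr⟩ := htri1 k hk
    refine ⟨k₂ ^ (e * r), Subgroup.pow_mem _ hk₂ _, ?_⟩
    rw [hr, he, ← pow_mul, map_pow]
  · apply hle
    intro k hk
    obtain ⟨r, hr⟩ := htri2 k hk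
    refine ⟨k₁ ^ (e' * r), Subgroup.pow_mem _ hk₁ _, ?_⟩
    rw [hr, he', ← pow_mul, map_pow]

end Cfsg.Agent.H54.Sn

universe u in
example : Cfsg.Agent.H52.Sn.StUniq.{u} := Cfsg.Agent.H54.Sn.uniq
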