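import Mathlib
import Cfsg.Agent.H58.UqDefs
import Cfsg.Agent.H37.QTLf

/-!
# UQ-O2SN: the 2-core of a subnormal subgroup lies in the 2-core
-/

set_option autoImplicit false

namespace Cfsg.Agent.H54.Uq

universe u

/-- **UQ-O2SN** -/
theorem o2sn : Cfsg.Agent.H58.Uq.StO2SN.{u} := by
  intro G _ _ K L hKL hsub
  exact Cfsg.Agent.H37.QTLf.pCoreOf_le_pCoreOf_of_subnormal hKL hsub

universe v in
example : Cfsg.Agent.H58.Uq.StO2SN.{v} := o2sn

end Cfsg.Agent.H54.Uq
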