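/-
helper54 library (BG11-N, for helper63): B&G 11.4, `M_σ` is nilpotent for an exceptional
maximal subgroup, from the fixed-point-free subgroup of 11.3 and Thompson's theorem (S0033).
-/
import Mathlib
import Cfsg.Agent.H63.BG11Defs
import Cfsg.Agent.S0033

set_option autoImplicit false

namespace Cfsg.Agent.H54.BG11

open Cfsg Subgroup Cfsg.Agent.H58.BG10 Cfsg.Agent.H63.BG11

universe u

variable {G : Type u} [Group G]

/-- **BG11-N** (B&G 11.4). -/
theorem excNilp [Finite G] (_hG : IsMinSimpleOddOrder G) (hR : StExcFree G) : StExcNilp G := by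
  intro M A A₀ p _ hE
  obtain ⟨A₁, hA₁A, hA₁card, hfree⟩ := hR M A A₀ p hE
  have hp : p.Prime := Fact.out
  have : IsCyclic A₁ := isCyclic_of_prime_card hA₁card
  obtain ⟨a, ha⟩ := IsCyclic.exists_generator (α := A₁)
  have haM : (a : G) ∈ M := hE.le (hA₁A a.2)
  have hap : (⟨(a : G), haM⟩ : M) ^ p = 1 := by
    apply Subtype.ext
    have h1 := pow_card_eq_one' (G := A₁) (x := a)
    rw [hA₁card] at h1
    have h2 := congrArg Subtype.val h1
    simpa using h2
  have hfpf : MonoidHom.FixedPointFree
      ((MulAut.conjNormal (⟨(a : G), haM⟩ : M) : MulAut (piCore (sigma M) M)) :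
        (piCore (sigma M) M) →* (piCore (sigma M) M)) := by
    intro y hy
    have h1 : ((⟨(a : G), haM⟩ : M) * (y : M) * (⟨(a : G), haM⟩ : M)⁻¹ : M) = (y : M) := by
      have h0 := congrArg Subtype.val hy
      simpa [MulAut.conjNormal_apply] using h0
    have h2 : (a : G) * ((y : M) : G) * (a : G)⁻¹ = ((y : M) : G) := by
      have h0 := congrArg Subtype.val h1
      simpa using h0
    have h3 : ((y : M) : G) ∈ sigmaCore M ⊓ centralizer (A₁ : Set G) := by
      refine ⟨?_, ?_⟩
      · exact Subgroup.mem_map_of_mem M.subtype y.2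
      · show ((y : M) : G) ∈ centralizer (A₁ : Set G)
        rw [Subgroup.mem_centralizer_iff]
        intro z hz
        obtain ⟨k, hk⟩ := Subgroup.mem_zpowers_iff.mp (ha ⟨z, hz⟩)
        have hz' : z = (a : G) ^ k := by
          have h0 := congrArg Subtype.val hk
          simpa using h0.symm
        rw [hz']
        have hcomm : Commute (a : G) ((y : M) : G) := mul_inv_eq_iff_eq_mul.mp h2
        exact (hcomm.zpow_left k).eq
    rw [hfree, Subgroup.mem_bot] at h3
    exact Subtype.ext (Subtype.ext h3)
  have hpow : (MulAut.conjNormal (⟨(a : G), haM⟩ : M) : MulAut (piCore (sigma M) M)) ^ p = 1 := by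
    rw [← map_pow, hap, map_one]
  have hdvd := orderOf_dvd_of_pow_eq_one hpow
  have hnil : Group.IsNilpotent (piCore (sigma M) M) := by
    rcases (Nat.dvd_prime hp).mp hdvd with h1 | h1
    · rw [orderOf_eq_one_iff] at h1
      have hss : Subsingleton (piCore (sigma M) M) := by
        constructor
        intro x y
        have hx : x = 1 := hfpf x (by rw [h1]; rfl)
        have hy : y = 1 := hfpf y (by rw [h1]; rfl)
        rw [hx, hy]
      infer_instance
    · exact Cfsg.Agent.S0033.result _ hfpf p hp h1
  have := hnil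
  exact Group.nilpotent_of_mulEquiv
    ((piCore (sigma M) M).equivMapOfInjective M.subtype M.subtype_injective)

end Cfsg.Agent.H54.BG11

section Check

open Cfsg Subgroup Cfsg.Agent.H58.BG10 Cfsg.Agent.H63.BG11

universe u

variable {G : Type u} [Group G]

example [Finite G] (hG : IsMinSimpleOddOrder G) (hR : StExcFree G) : StExcNilp G :=
  Cfsg.Agent.H54.BG11.excNilp hG hR

end Check
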