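import Mathlib
import Cfsg.Agent.H63.BG117OmegaDefs

/-!
# OMEGA-AB2 (B&G 11.7 project, piece for helper63)

`C_S(A)` is abelian for `A ≤ S` elementary abelian of order `p²`, `S` a Sylow `p`-subgroup of
rank at most 2 (on top of S1412 as a hypothesis).
-/

set_option autoImplicit false

namespace Cfsg.Agent.H54.BG11

open Cfsg Subgroup Cfsg.Agent.H58.BG10 Cfsg.Agent.H63.BG11

universe u

variable {G : Type u} [Group G]

/-- Elements of the join of two elementwise commuting subgroups are products. -/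
theorem exists_mul_of_mem_sup_comm (P₁ P₂ : Subgroup G)
    (hc : ∀ a ∈ P₁, ∀ b ∈ P₂, a * b = b * a) {x : G} (hx : x ∈ P₁ ⊔ P₂) :
    ∃ a ∈ P₁, ∃ b ∈ P₂, x = a * b := by
  let T : Subgroup G :=
    { carrier := {x | ∃ a ∈ P₁, ∃ b ∈ P₂, x = a * b}
      one_mem' := ⟨1, P₁.one_mem, 1, P₂.one_mem, (mul_one 1).symm⟩
      mul_mem' := by
        rintro _ _ ⟨a, ha, b, hb, rfl⟩ ⟨a', ha', b', hb', rfl⟩
        refine ⟨a * a', P₁.mul_mem ha ha', b * b', P₂.mul_mem hb hb', ?_⟩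
        calc a * b * (a' * b') = a * (b * a') * b' := by group
          _ = a * (a' * b) * b' := by rw [hc a' ha' b hb]
          _ = a * a' * (b * b') := by group
      inv_mem' := by
        rintro _ ⟨a, ha, b, hb, rfl⟩
        refine ⟨a⁻¹, P₁.inv_mem ha, b⁻¹, P₂.inv_mem hb, ?_⟩
        rw [mul_inv_rev]
        exact (hc a⁻¹ (P₁.inv_mem ha) b⁻¹ (P₂.inv_mem hb)).symm }
  have h1 : P₁ ≤ T := fun a ha => ⟨a, ha, 1, P₂.one_mem, (mul_one a).symm⟩
  have h2 : P₂ ≤ T := fun b hb => ⟨1, P₁.one_mem, b, hb, (one_mul b).symm⟩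
  exact (sup_le h1 h2) hx

/-- A cyclic subgroup is commutative, elementwise. -/
theorem comm_of_isCyclic (P : Subgroup G) (hP : IsCyclic P) {x y : G} (hx : x ∈ P) (hy : y ∈ P) :
    x * y = y * x := by
  obtain ⟨g, hg⟩ := IsCyclic.exists_generator (α := P)
  obtain ⟨i, hi⟩ := Subgroup.mem_zpowers_iff.1 (hg ⟨x, hx⟩)
  obtain ⟨j, hj⟩ := Subgroup.mem_zpowers_iff.1 (hg ⟨y, hy⟩)
  have h := zpow_mul_comm g i j
  rw [hi, hj] at h
  exact congrArg Subtype.val h

/-- OMEGA-AB2. -/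
theorem centAbel2 [Finite G] (_hG : IsMinSimpleOddOrder G) (h1412 : St1412 G) :
    StCentAbel2 G := by
  intro p _ S A hrank hAS hA hAcard s hs t ht
  have hp : p.Prime := Fact.out
  obtain ⟨hAc, hAe⟩ := hA
  have hAc' : ∀ a ∈ A, ∀ b ∈ A, a * b = b * a := isMulCommutative_iff_of_setLike.1 hAc
  rcases h1412 p S hrank with hab | ⟨P₁, P₂, hsup, hcomm, hnab, hcard, hexp, hcyc, hcl⟩
  · exact (isMulCommutative_iff_of_setLike.1 hab) s hs.1 t ht.1
  · -- `P₁` has exponent `p`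
    have hP₁e : ∀ a ∈ P₁, a ^ p = 1 := by
      intro a ha
      have h1 := Monoid.pow_exponent_eq_one (⟨a, ha⟩ : P₁)
      rw [hexp] at h1
      exact congrArg Subtype.val h1
    have hP₁S : P₁ ≤ (S : Subgroup G) := by rw [← hsup]; exact le_sup_left
    -- (1) `A ≤ P₁`
    have hAP₁ : A ≤ P₁ := by
      intro a ha
      have haS : a ∈ P₁ ⊔ P₂ := by rw [hsup]; exact hAS ha
      obtain ⟨a₁, ha₁, a₂, ha₂, rfl⟩ := exists_mul_of_mem_sup_comm P₁ P₂ hcomm haS
      have hc12 : Commute a₁ a₂ := hcomm a₁ ha₁ a₂ ha₂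
      have h1 : (a₁ * a₂) ^ p = a₁ ^ p * a₂ ^ p := hc12.mul_pow p
      rw [hAe _ ha, hP₁e a₁ ha₁, one_mul] at h1
      have h2 : a₂ ∈ closure {x : G | x ∈ P₂ ∧ x ^ p = 1} := subset_closure ⟨ha₂, h1.symm⟩
      rw [hcl] at h2
      exact P₁.mul_mem ha₁ h2.1
    -- (2) `P₁ ⊓ C(A) ≤ A`
    have hPA : ∀ c ∈ P₁, (∀ a ∈ A, a * c = c * a) → c ∈ A := by
      intro c hc hcA
      by_contra hcn
      apply hnab
      have hcz : ∀ a ∈ A, ∀ b ∈ zpowers c, a * b = b * a := by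
        intro a ha b hb
        obtain ⟨k, rfl⟩ := Subgroup.mem_zpowers_iff.1 hb
        have hac : Commute a c := hcA a ha
        exact hac.zpow_right k
      have hBP : A ⊔ zpowers c ≤ P₁ := sup_le hAP₁ (by rw [zpowers_le]; exact hc)
      have hBab : ∀ x ∈ A ⊔ zpowers c, ∀ y ∈ A ⊔ zpowers c, x * y = y * x := by
        intro x hx y hy
        obtain ⟨a, ha, b, hb, rfl⟩ := exists_mul_of_mem_sup_comm A (zpowers c) hcz hx
        obtain ⟨a', ha', b', hb', rfl⟩ := exists_mul_of_mem_sup_comm A (zpowers c) hcz hy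
        obtain ⟨k, rfl⟩ := Subgroup.mem_zpowers_iff.1 hb
        obtain ⟨l, rfl⟩ := Subgroup.mem_zpowers_iff.1 hb'
        have e1 : c ^ k * a' = a' * c ^ k := (hcz a' ha' _ (zpow_mem_zpowers c k)).symm
        have e2 : c ^ l * a = a * c ^ l := (hcz a ha _ (zpow_mem_zpowers c l)).symm
        have e3 : a * a' = a' * a := hAc' a ha a' ha'
        have e4 : c ^ k * c ^ l = c ^ l * c ^ k := zpow_mul_comm c k l
        calc a * c ^ k * (a' * c ^ l) = a * (c ^ k * a') * c ^ l := by group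
          _ = a * (a' * c ^ k) * c ^ l := by rw [e1]
          _ = (a * a') * (c ^ k * c ^ l) := by group
          _ = (a' * a) * (c ^ l * c ^ k) := by rw [e3, e4]
          _ = a' * (a * c ^ l) * c ^ k := by group
          _ = a' * (c ^ l * a) * c ^ k := by rw [e2]
          _ = a' * c ^ l * (a * c ^ k) := by group
      have hlt : p ^ 2 < Nat.card ↥(A ⊔ zpowers c) := by
        by_contra hle
        push Not at hle
        have heq : A = A ⊔ zpowers c :=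
          Subgroup.eq_of_le_of_card_ge le_sup_left (by rw [hAcard]; exact hle)
        apply hcn
        rw [heq]
        exact (le_sup_right : zpowers c ≤ A ⊔ zpowers c) (mem_zpowers c)
      have hdvd : Nat.card ↥(A ⊔ zpowers c) ∣ p ^ 3 := by
        rw [← hcard]
        exact Subgroup.card_dvd_of_le hBP
      obtain ⟨k, hk, hkc⟩ := (Nat.dvd_prime_pow hp).1 hdvd
      have hk3 : k = 3 := by
        rw [hkc] at hlt
        have := (Nat.pow_lt_pow_iff_right hp.one_lt).1 hlt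
        omega
      have hBeq : A ⊔ zpowers c = P₁ :=
        Subgroup.eq_of_le_of_card_ge hBP (by rw [hcard, hkc, hk3])
      rw [← hBeq]
      exact isMulCommutative_iff_of_setLike.2 hBab
    -- (3) decomposition of elements of `S ⊓ C(A)`
    have hdec : ∀ s ∈ (S : Subgroup G) ⊓ centralizer (A : Set G),
        ∃ s₁ ∈ A, ∃ s₂ ∈ P₂, s = s₁ * s₂ := by
      intro s hs
      have hsS : s ∈ P₁ ⊔ P₂ := by rw [hsup]; exact hs.1
      obtain ⟨s₁, hs₁, s₂, hs₂, rfl⟩ := exists_mul_of_mem_sup_comm P₁ P₂ hcomm hsS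
      refine ⟨s₁, hPA s₁ hs₁ ?_, s₂, hs₂, rfl⟩
      intro a ha
      have h1 : a * (s₁ * s₂) = s₁ * s₂ * a := (Subgroup.mem_centralizer_iff.1 hs.2) a ha
      have h2 : a * s₂ = s₂ * a := hcomm a (hAP₁ ha) s₂ hs₂
      have h3 : a * s₁ * s₂ = s₁ * a * s₂ := by
        calc a * s₁ * s₂ = a * (s₁ * s₂) := by group
          _ = s₁ * s₂ * a := h1
          _ = s₁ * (s₂ * a) := by group
          _ = s₁ * (a * s₂) := by rw [h2]
          _ = s₁ * a * s₂ := by group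
      exact mul_right_cancel h3
    obtain ⟨s₁, hs₁, s₂, hs₂, rfl⟩ := hdec s hs
    obtain ⟨t₁, ht₁, t₂, ht₂, rfl⟩ := hdec t ht
    have e1 : s₂ * t₁ = t₁ * s₂ := (hcomm t₁ (hAP₁ ht₁) s₂ hs₂).symm
    have e2 : t₂ * s₁ = s₁ * t₂ := (hcomm s₁ (hAP₁ hs₁) t₂ ht₂).symm
    have e3 : s₁ * t₁ = t₁ * s₁ := hAc' s₁ hs₁ t₁ ht₁
    have e4 : s₂ * t₂ = t₂ * s₂ := comm_of_isCyclic P₂ hcyc hs₂ ht₂
    calc s₁ * s₂ * (t₁ * t₂) = s₁ * (s₂ * t₁) * t₂ := by group
      _ = s₁ * (t₁ * s₂) * t₂ := by rw [e1]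
      _ = (s₁ * t₁) * (s₂ * t₂) := by group
      _ = (t₁ * s₁) * (t₂ * s₂) := by rw [e3, e4]
      _ = t₁ * (s₁ * t₂) * s₂ := by group
      _ = t₁ * (t₂ * s₁) * s₂ := by rw [e2]
      _ = t₁ * t₂ * (s₁ * s₂) := by group

end Cfsg.Agent.H54.BG11

open Cfsg Cfsg.Agent.H58.BG10 Cfsg.Agent.H63.BG11 in
universe u in
example {G : Type u} [Group G] [Finite G] (hG : IsMinSimpleOddOrder G) (h1412 : St1412 G) :
    StCentAbel2 G := Cfsg.Agent.H54.BG11.centAbel2 hG h1412
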