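import Mathlib
import Cfsg.Agent.H63.BG117OmegaDefs
import Cfsg.Agent.S1453
import Cfsg.Agent.Helper55.PRankOne

/-!
# OMEGA-AB3 (B&G 11.7 project, piece for helper63)

`C_S(A)` is abelian for `A ≤ S` elementary abelian of order `p²` with `Ω₁(C_G(A)) = A`, `S` a
Sylow `p`-subgroup of rank at least 3 (on top of S1453 and "rank one implies cyclic").
-/

set_option autoImplicit false

namespace Cfsg.Agent.H54.BG11

open Cfsg Subgroup Cfsg.Agent.H58.BG10 Cfsg.Agent.H63.BG11

universe u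

/-- A cyclic subgroup is commutative, elementwise (copy for this file). -/
theorem comm_of_isCyclic' {R : Type u} [Group R] (P : Subgroup R) (hP : IsCyclic P) {x y : R}
    (hx : x ∈ P) (hy : y ∈ P) : x * y = y * x := by
  obtain ⟨g, hg⟩ := IsCyclic.exists_generator (α := P)
  obtain ⟨i, hi⟩ := Subgroup.mem_zpowers_iff.1 (hg ⟨x, hx⟩)
  obtain ⟨j, hj⟩ := Subgroup.mem_zpowers_iff.1 (hg ⟨y, hy⟩)
  have h := zpow_mul_comm g i j
  rw [hi, hj] at h
  exact congrArg Subtype.val h

/-- The abstract statement: `R` a finite `p`-group, `p` odd, of rank at least 3, `E` elementary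
abelian of order `p²` containing every element of order dividing `p` of its centralizer.  Then
the centralizer of `E` is abelian. -/
theorem cent_abel_of_rank3 {R : Type u} [Group R] [Finite R] (p : ℕ) [Fact p.Prime] (hp2 : p ≠ 2)
    (hR : IsPGroup p R) (hr : ¬ PRankLE p 2 R) (E : Subgroup R) (hE : IsElementaryAbelian p E)
    (hE2 : Nat.card E = p ^ 2)
    (hΩ : ∀ x ∈ centralizer (E : Set R), x ^ p = 1 → x ∈ E) :
    ∀ s ∈ centralizer (E : Set R), ∀ t ∈ centralizer (E : Set R), s * t = t * s := by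
  have hp : p.Prime := Fact.out
  obtain ⟨hEc, hEe⟩ := hE
  have hEc' : ∀ a ∈ E, ∀ b ∈ E, a * b = b * a := isMulCommutative_iff_of_setLike.1 hEc
  have hEmax : ∀ B : Subgroup R, IsElementaryAbelian p B → E ≤ B → B = E := by
    intro B hB hEB
    refine le_antisymm ?_ hEB
    intro b hb
    apply hΩ b
    · rw [mem_centralizer_iff]
      intro e he
      exact (isMulCommutative_iff_of_setLike.1 hB.1) e (hEB he) b hb
    · exact hB.2 b hb
  obtain ⟨hnT, -, -, hTchar, hTidx⟩ :=
    Cfsg.Agent.S1453.result p hp2 hR hr E ⟨hEc, hEe⟩ hE2 hEmax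
  obtain ⟨T, hTdef⟩ : ∃ T : Subgroup R, T = centralizer
      ((closure {x : R | x ∈ Subgroup.upperCentralSeries R 2 ∧ x ^ p = 1} : Subgroup R) : Set R) :=
    ⟨_, rfl⟩
  rw [← hTdef] at hnT hTchar hTidx
  have hTn : T.Normal := @Subgroup.normal_of_characteristic _ _ T hTchar
  obtain ⟨x, hxE, hxT⟩ : ∃ x, x ∈ E ∧ x ∉ T := by
    by_contra hcon
    push Not at hcon
    exact hnT hcon
  have hETcard : Nat.card ↥(E ⊓ T) ≤ p := by
    have hdvd : Nat.card ↥(E ⊓ T) ∣ p ^ 2 := by
      rw [← hE2]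
      exact Subgroup.card_dvd_of_le inf_le_left
    obtain ⟨k, hk, hkc⟩ := (Nat.dvd_prime_pow hp).1 hdvd
    have hk2 : k ≠ 2 := by
      rintro rfl
      have h1 : E ⊓ T = E := Subgroup.eq_of_le_of_card_ge inf_le_left (by rw [hkc, hE2])
      apply hnT
      rw [← h1]
      exact inf_le_right
    rw [hkc]
    have hk1 : k ≤ 1 := by omega
    calc p ^ k ≤ p ^ 1 := Nat.pow_le_pow_right hp.pos hk1
      _ = p := pow_one p
  obtain ⟨D, hD⟩ : ∃ D : Subgroup R, D = T ⊓ centralizer (E : Set R) := ⟨_, rfl⟩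
  have hDrank : PRankLE p 1 ↥D := by
    intro B _ hBe
    have hle : B.map D.subtype ≤ E ⊓ T := by
      rintro _ ⟨b, hb, rfl⟩
      have hbD : (b : R) ∈ T ⊓ centralizer (E : Set R) := by rw [← hD]; exact b.2
      have hbp : (b : R) ^ p = 1 := by
        have h1 := congrArg Subtype.val (hBe b hb)
        simpa using h1
      exact ⟨hΩ _ hbD.2 hbp, hbD.1⟩
    have hcard : Nat.card ↥(B.map D.subtype) = Nat.card B :=
      Subgroup.card_map_of_injective D.subtype_injective
    rw [← hcard, pow_one]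
    exact (Subgroup.card_le_of_le hle).trans hETcard
  have hDcyc : IsCyclic ↥D :=
    Cfsg.Agent.Helper55.isCyclic_of_pRankLE_one hp2 (hR.to_subgroup D) hDrank
  have hq : Nat.card (R ⧸ T) = p := by
    rw [← Subgroup.index_eq_card]
    exact hTidx
  have hx1 : (x : R ⧸ T) ≠ 1 := by
    intro h
    exact hxT ((QuotientGroup.eq_one_iff x).1 h)
  have hxc : x ∈ centralizer (E : Set R) := by
    rw [mem_centralizer_iff]
    intro e he
    exact hEc' e he x hxE
  have hdec : ∀ s ∈ centralizer (E : Set R), ∃ k : ℤ, ∃ d ∈ D, s = x ^ k * d := by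
    intro s hs
    have hmem : (s : R ⧸ T) ∈ zpowers (x : R ⧸ T) := mem_zpowers_of_prime_card hq hx1
    obtain ⟨k, hk⟩ := Subgroup.mem_zpowers_iff.1 hmem
    refine ⟨k, (x ^ k)⁻¹ * s, ?_, by group⟩
    rw [hD]
    refine ⟨?_, ?_⟩
    · have h1 : ((x ^ k : R) : R ⧸ T) = (s : R ⧸ T) := by
        rw [QuotientGroup.mk_zpow]
        exact hk
      exact QuotientGroup.eq.1 h1
    · exact (centralizer (E : Set R)).mul_mem
        ((centralizer (E : Set R)).inv_mem ((centralizer (E : Set R)).zpow_mem hxc k)) hs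
  have hxd : ∀ d ∈ D, ∀ m : ℤ, x ^ m * d = d * x ^ m := by
    intro d hd m
    have hdc : d ∈ centralizer (E : Set R) := by
      rw [hD] at hd
      exact hd.2
    have hcomm : Commute x d := (mem_centralizer_iff.1 hdc) x hxE
    exact hcomm.zpow_left m
  intro s hs t ht
  obtain ⟨k, d, hd, rfl⟩ := hdec s hs
  obtain ⟨l, d', hd', rfl⟩ := hdec t ht
  have e1 : d * d' = d' * d := comm_of_isCyclic' D hDcyc hd hd'
  calc x ^ k * d * (x ^ l * d') = x ^ k * (d * x ^ l) * d' := by group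
    _ = x ^ k * (x ^ l * d) * d' := by rw [hxd d hd l]
    _ = (x ^ k * x ^ l) * (d * d') := by group
    _ = (x ^ l * x ^ k) * (d' * d) := by rw [zpow_mul_comm x k l, e1]
    _ = x ^ l * (x ^ k * d') * d := by group
    _ = x ^ l * (d' * x ^ k) * d := by rw [hxd d' hd' k]
    _ = x ^ l * d' * (x ^ k * d) := by group

variable {G : Type u} [Group G]

/-- OMEGA-AB3. -/
theorem centAbel3 [Finite G] (hG : IsMinSimpleOddOrder G) : StCentAbel3 G := by
  intro p _ S A hrank hAS hA hAcard hΩ s hs t ht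
  have hp2 : p ≠ 2 := by
    rintro rfl
    have hodd : Odd (Nat.card G) := hG.1
    have hdvd : Nat.card A ∣ Nat.card G := Subgroup.card_subgroup_dvd_card A
    rw [hAcard] at hdvd
    have h2 : 2 ∣ Nat.card G := (dvd_pow_self 2 two_ne_zero).trans hdvd
    exact (Nat.not_even_iff_odd.2 hodd) (even_iff_two_dvd.2 h2)
  obtain ⟨hAc, hAe⟩ := hA
  have hAc' : ∀ a ∈ A, ∀ b ∈ A, a * b = b * a := isMulCommutative_iff_of_setLike.1 hAc
  have hE : IsElementaryAbelian p (A.subgroupOf (S : Subgroup G)) := by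
    refine ⟨isMulCommutative_iff_of_setLike.2 ?_, ?_⟩
    · intro a ha b hb
      apply Subtype.ext
      exact hAc' a (mem_subgroupOf.1 ha) b (mem_subgroupOf.1 hb)
    · intro a ha
      apply Subtype.ext
      rw [Subgroup.coe_pow]
      exact hAe a (mem_subgroupOf.1 ha)
  have hE2 : Nat.card (A.subgroupOf (S : Subgroup G)) = p ^ 2 := by
    rw [← hAcard]
    exact Nat.card_congr (Subgroup.subgroupOfEquivOfLe hAS).toEquiv
  have hΩ' : ∀ x ∈ centralizer ((A.subgroupOf (S : Subgroup G) :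
      Subgroup ↥(S : Subgroup G)) : Set ↥(S : Subgroup G)), x ^ p = 1 →
      x ∈ A.subgroupOf (S : Subgroup G) := by
    intro x hx hxp
    rw [mem_subgroupOf]
    refine (hΩ (x : G) ?_).1 ?_
    · rw [mem_centralizer_iff]
      intro a ha
      have h1 := (mem_centralizer_iff.1 hx) ⟨a, hAS ha⟩ (mem_subgroupOf.2 ha)
      exact congrArg Subtype.val h1
    · have h1 := congrArg Subtype.val hxp
      simpa using h1
  have key := cent_abel_of_rank3 (R := ↥(S : Subgroup G)) p hp2 S.isPGroup' hrank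
    (A.subgroupOf (S : Subgroup G)) hE hE2 hΩ'
  have hmem : ∀ (y : G) (hy : y ∈ (S : Subgroup G) ⊓ centralizer (A : Set G)),
      (⟨y, hy.1⟩ : ↥(S : Subgroup G)) ∈ centralizer ((A.subgroupOf (S : Subgroup G) :
        Subgroup ↥(S : Subgroup G)) : Set ↥(S : Subgroup G)) := by
    intro y hy
    rw [mem_centralizer_iff]
    intro a ha
    apply Subtype.ext
    exact (mem_centralizer_iff.1 hy.2) a (mem_subgroupOf.1 ha)
  have h1 := key ⟨s, hs.1⟩ (hmem s hs) ⟨t, ht.1⟩ (hmem t ht)
  exact congrArg Subtype.val h1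

end Cfsg.Agent.H54.BG11

open Cfsg Cfsg.Agent.H58.BG10 Cfsg.Agent.H63.BG11 in
universe u in
example {G : Type u} [Group G] [Finite G] (hG : IsMinSimpleOddOrder G) :
    StCentAbel3 G := Cfsg.Agent.H54.BG11.centAbel3 hG
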