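import Mathlib
import Cfsg.Agent.H42.SpnDefs

/-!
# SPN-HYP (S5956 team project)

A nonzero nondegenerate subspace of an alternating form contains a nondegenerate plane.
-/

set_option autoImplicit false

namespace Cfsg.Agent.H54.Spn

open Cfsg.Agent.H45 Cfsg.Agent.H42.Spd Cfsg.Agent.H42.Spn Module

universe u v

/-- An alternating form is skew-symmetric. -/
theorem skew_of_alt {F : Type u} [Field F] {V : Type v} [AddCommGroup V] [Module F V]
    (B : V →ₗ[F] V →ₗ[F] F) (halt : ∀ x, B x x = 0) (x y : V) : B x y = -B y x := by
  have h := halt (x + y)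
  simp only [map_add, LinearMap.add_apply, halt, zero_add, add_zero] at h
  exact eq_neg_of_add_eq_zero_left (by rw [add_comm]; exact h)

/-- SPN-HYP. -/
theorem isoHyp : StIsoHyp.{u, v} := by
  intro F _ _ V _ _ _ B T hI K hK hne
  obtain ⟨u, huK, hu0⟩ := Submodule.exists_mem_ne_zero_of_ne_bot hne
  have hex : ∃ k ∈ K, B k u ≠ 0 := by
    by_contra hcon
    push Not at hcon
    have hmem : u ∈ K ⊓ perp B K := ⟨huK, fun k hk => hcon k hk⟩
    rw [hK] at hmem
    exact hu0 ((Submodule.mem_bot F).1 hmem)
  obtain ⟨k, hkK, hku⟩ := hex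
  have hskew := skew_of_alt B hI.alt
  have huk : B u k ≠ 0 := by
    rw [hskew u k]
    exact neg_ne_zero.2 hku
  refine ⟨Submodule.span F {u, k}, ?_, ?_, ?_⟩
  · rw [Submodule.span_le]
    intro x hx
    rcases hx with rfl | rfl
    · exact huK
    · exact hkK
  · rw [eq_bot_iff]
    rintro w ⟨hw1, hw2⟩
    obtain ⟨a, b, rfl⟩ := Submodule.mem_span_pair.1 hw1
    have h1 := hw2 u (Submodule.subset_span (by simp))
    have h2 := hw2 k (Submodule.subset_span (by simp))
    simp only [map_add, map_smul, smul_eq_mul, hI.alt, mul_zero, zero_add, add_zero] at h1 h2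
    have hb : b = 0 := by
      rcases mul_eq_zero.1 h1 with h | h
      · exact h
      · exact absurd h huk
    have ha : a = 0 := by
      rcases mul_eq_zero.1 h2 with h | h
      · exact h
      · exact absurd h hku
    simp [ha, hb]
  · have hli : LinearIndependent F ![u, k] := by
      rw [LinearIndependent.pair_iff]
      intro s t hst
      have h1 : B u (s • u + t • k) = 0 := by rw [hst]; simp
      have h2 : B k (s • u + t • k) = 0 := by rw [hst]; simp
      simp only [map_add, map_smul, smul_eq_mul, hI.alt, mul_zero, zero_add, add_zero] at h1 h2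
      refine ⟨?_, ?_⟩
      · rcases mul_eq_zero.1 h2 with h | h
        · exact h
        · exact absurd h hku
      · rcases mul_eq_zero.1 h1 with h | h
        · exact h
        · exact absurd h huk
    have h3 := finrank_span_eq_card hli
    have hrange : Set.range ![u, k] = {u, k} := by
      ext x
      simp only [Matrix.range_cons, Matrix.range_empty, Set.union_empty, Set.mem_union,
        Set.mem_singleton_iff, Set.mem_insert_iff]
    rw [hrange] at h3
    simpa using h3

end Cfsg.Agent.H54.Spn

universe u v in
example : Cfsg.Agent.H42.Spn.StIsoHyp.{u, v} := Cfsg.Agent.H54.Spn.isoHyp
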