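/-
helper54 library (S2140-FISHER, for helper17): Fisher's inequality for a 2-transitive group;
a subgroup preserving a proper non-empty subset of the points has index at least the number of
points.
-/
import Mathlib

set_option autoImplicit false

namespace Cfsg.Agent.H54.Pm

/-- **S2140-FISHER**. -/
theorem fisher_index {G : Type*} [Group G] [Finite G] {P : Type*} [Finite P] [MulAction G P]
    (h2 : ∀ a b c d : P, a ≠ b → c ≠ d → ∃ g : G, g • a = c ∧ g • b = d)
    (H : Subgroup G) (S : Set P) (hS1 : S.Nonempty) (hS2 : S ≠ Set.univ)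
    (hinv : ∀ h ∈ H, ∀ p ∈ S, h • p ∈ S) : Nat.card P ≤ H.index := by
  classical
  let _ : Fintype G := Fintype.ofFinite G
  let _ : Fintype P := Fintype.ofFinite P
  let _ : Fintype (G ⧸ H) := Fintype.ofFinite _
  obtain ⟨s, hs⟩ := hS1
  obtain ⟨s', hs'⟩ : ∃ s', s' ∉ S := by
    by_contra hcon
    push Not at hcon
    exact hS2 (Set.eq_univ_of_forall hcon)
  have hss' : s ≠ s' := fun h => hs' (h ▸ hs)
  -- incidence numbers
  obtain ⟨inc, hinc⟩ : ∃ inc : G → P → ℚ, ∀ g p, inc g p = if g⁻¹ • p ∈ S then 1 else 0 :=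
    ⟨fun g p => if g⁻¹ • p ∈ S then 1 else 0, fun _ _ => rfl⟩
  have inc_nonneg : ∀ g p, 0 ≤ inc g p := by
    intro g p
    rw [hinc]
    split_ifs <;> norm_num
  have inc_le : ∀ g p, inc g p ≤ 1 := by
    intro g p
    rw [hinc]
    split_ifs <;> norm_num
  have inc_sq : ∀ g p, inc g p * inc g p = inc g p := by
    intro g p
    rw [hinc]
    split_ifs <;> norm_num
  have inc_mul : ∀ g₀ g p, inc (g₀ * g) (g₀ • p) = inc g p := by
    intro g₀ g p
    rw [hinc, hinc, mul_inv_rev, mul_smul, inv_smul_smul]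
  have inc_H : ∀ g (h : G), h ∈ H → ∀ p, inc (g * h) p = inc g p := by
    intro g h hh p
    rw [hinc, hinc, mul_inv_rev, mul_smul]
    have hiff : h⁻¹ • g⁻¹ • p ∈ S ↔ g⁻¹ • p ∈ S := by
      constructor
      · intro hx
        have h1 := hinv h hh _ hx
        rwa [smul_inv_smul] at h1
      · intro hx
        exact hinv h⁻¹ (H.inv_mem hh) _ hx
    simp only [hiff]
  have inc_one_s : inc 1 s = 1 := by
    rw [hinc, inv_one, one_smul, if_pos hs]
  have inc_one_s' : inc 1 s' = 0 := by
    rw [hinc, inv_one, one_smul, if_neg hs']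
  -- the numbers of common translates
  obtain ⟨c, hcdef⟩ : ∃ c : P → P → ℚ, ∀ p p', c p p' = ∑ g, inc g p * inc g p' :=
    ⟨fun p p' => ∑ g, inc g p * inc g p', fun _ _ => rfl⟩
  have c_inv : ∀ (g₀ : G) p p', c (g₀ • p) (g₀ • p') = c p p' := by
    intro g₀ p p'
    rw [hcdef, hcdef, ← Equiv.sum_comp (Equiv.mulLeft g₀)]
    refine Finset.sum_congr rfl (fun g _ => ?_)
    rw [Equiv.coe_mulLeft, inc_mul, inc_mul]
  have c_diag : ∀ p, c p p = c s s := by
    intro p
    obtain ⟨q, hq⟩ : ∃ q, p ≠ q := by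
      by_cases hp : p = s
      · exact ⟨s', fun h => hss' (by rw [← hp, h])⟩
      · exact ⟨s, hp⟩
    obtain ⟨g, hg1, -⟩ := h2 s s' p q hss' hq
    rw [← hg1, c_inv]
  have c_off : ∀ p p', p ≠ p' → c p p' = c s s' := by
    intro p p' hpp'
    obtain ⟨g, hg1, hg2⟩ := h2 s s' p p' hss' hpp'
    rw [← hg1, ← hg2, c_inv]
  have hlam : 0 ≤ c s s' := by
    rw [hcdef]
    exact Finset.sum_nonneg (fun g _ => mul_nonneg (inc_nonneg g s) (inc_nonneg g s'))
  have hpos : 0 < c s s - c s s' := by
    have h1 : c s s - c s s' = ∑ g, inc g s * (1 - inc g s') := by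
      rw [hcdef, hcdef, ← Finset.sum_sub_distrib]
      refine Finset.sum_congr rfl (fun g _ => ?_)
      rw [inc_sq, mul_sub, mul_one]
    rw [h1]
    have h3 : ∀ g ∈ (Finset.univ : Finset G), 0 ≤ inc g s * (1 - inc g s') :=
      fun g _ => mul_nonneg (inc_nonneg g s) (sub_nonneg.mpr (inc_le g s'))
    have h4 := Finset.single_le_sum h3 (Finset.mem_univ (1 : G))
    rw [inc_one_s, inc_one_s'] at h4
    linarith
  -- the incidence map is injective
  have key : ∀ f : P → ℚ, (∀ g, ∑ p, inc g p * f p = 0) → f = 0 := by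
    intro f hf
    have h0 : ∑ g, (∑ p, inc g p * f p) * (∑ p, inc g p * f p) = 0 :=
      Finset.sum_eq_zero (fun g _ => by rw [hf g, mul_zero])
    have h1 : ∑ g, (∑ p, inc g p * f p) * (∑ p, inc g p * f p) =
        ∑ p, ∑ p', f p * f p' * c p p' := by
      have h5 : ∀ g, (∑ p, inc g p * f p) * (∑ p, inc g p * f p) =
          ∑ p, ∑ p', (inc g p * f p) * (inc g p' * f p') := fun g => Finset.sum_mul_sum _ _ _ _
      rw [Finset.sum_congr rfl (fun g _ => h5 g), Finset.sum_comm]
      refine Finset.sum_congr rfl (fun p _ => ?_)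
      rw [Finset.sum_comm]
      refine Finset.sum_congr rfl (fun p' _ => ?_)
      rw [hcdef, Finset.mul_sum]
      refine Finset.sum_congr rfl (fun g _ => by ring)
    have h6 : ∑ p, ∑ p', f p * f p' * c p p' =
        (c s s - c s s') * ∑ p, f p * f p + c s s' * ((∑ p, f p) * (∑ p, f p)) := by
      have h3 : ∀ p p', f p * f p' * c p p' =
          (if p = p' then (c s s - c s s') * (f p * f p) else 0) + c s s' * (f p * f p') := by
        intro p p'
        by_cases hpp : p = p'
        · subst hpp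
          rw [if_pos rfl, c_diag]
          ring
        · rw [if_neg hpp, c_off p p' hpp]
          ring
      have h7 : ∀ p, ∑ p', f p * f p' * c p p' =
          (c s s - c s s') * (f p * f p) + c s s' * (f p * ∑ p', f p') := by
        intro p
        rw [Finset.sum_congr rfl (fun p' _ => h3 p p'), Finset.sum_add_distrib,
          Finset.sum_ite_eq, if_pos (Finset.mem_univ p), ← Finset.mul_sum, ← Finset.mul_sum]
      rw [Finset.sum_congr rfl (fun p _ => h7 p), Finset.sum_add_distrib, ← Finset.mul_sum,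
        ← Finset.mul_sum, ← Finset.sum_mul]
    rw [h1, h6] at h0
    have hsq : 0 ≤ ∑ p, f p * f p := Finset.sum_nonneg (fun p _ => mul_self_nonneg _)
    have hsq2 : 0 ≤ (∑ p, f p) * (∑ p, f p) := mul_self_nonneg _
    have hzero : ∑ p, f p * f p = 0 := by nlinarith
    funext p
    have h8 := (Finset.sum_eq_zero_iff_of_nonneg (fun p _ => mul_self_nonneg (f p))).mp hzero p
      (Finset.mem_univ p)
    exact mul_self_eq_zero.mp h8
  -- the linear map to functions on the coset space
  let L : (P → ℚ) →ₗ[ℚ] ((G ⧸ H) → ℚ) :=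
    { toFun := fun f x => ∑ p, inc x.out p * f p
      map_add' := fun f f' => by
        funext x
        simp only [Pi.add_apply, mul_add, Finset.sum_add_distrib]
      map_smul' := fun a f => by
        funext x
        simp only [Pi.smul_apply, smul_eq_mul, RingHom.id_apply, Finset.mul_sum]
        refine Finset.sum_congr rfl (fun p _ => by ring) }
  have hLinj : Function.Injective L := by
    rw [← LinearMap.ker_eq_bot, LinearMap.ker_eq_bot']
    intro f hf
    apply key
    intro g
    obtain ⟨h, hh⟩ := QuotientGroup.mk_out_eq_mul H g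
    have hx : ∑ p, inc (QuotientGroup.mk g : G ⧸ H).out p * f p = 0 :=
      congrFun hf (QuotientGroup.mk g : G ⧸ H)
    rw [hh] at hx
    rw [← hx]
    exact Finset.sum_congr rfl (fun p _ => by rw [inc_H g h h.2])
  have hfin := LinearMap.finrank_le_finrank_of_injective hLinj
  rw [Module.finrank_fintype_fun_eq_card, Module.finrank_fintype_fun_eq_card] at hfin
  rw [Subgroup.index_eq_card, Nat.card_eq_fintype_card, Nat.card_eq_fintype_card]
  exact hfin

end Cfsg.Agent.H54.Pm

section Check

example {G : Type*} [Group G] [Finite G] {P : Type*} [Finite P] [MulAction G P]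
    (h2 : ∀ a b c d : P, a ≠ b → c ≠ d → ∃ g : G, g • a = c ∧ g • b = d)
    (H : Subgroup G) (S : Set P) (hS1 : S.Nonempty) (hS2 : S ≠ Set.univ)
    (hinv : ∀ h ∈ H, ∀ p ∈ S, h • p ∈ S) : Nat.card P ≤ H.index :=
  Cfsg.Agent.H54.Pm.fisher_index h2 H S hS1 hS2 hinv

end Check
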