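/-
helper54 library (S2140-TRDUAL, for helper17): a subgroup of prime index of a finite vector
space over a finite field `F` contains the kernel of a non-zero `F`-linear form (trace duality);
for the space `Yc c` of linear forms vanishing at `c` this kernel is `{y | y w = 0}`.
-/
import Mathlib
import Cfsg.Agent.H17.PmDefs

set_option autoImplicit false

namespace Cfsg.Agent.H54.Pm

open Cfsg Cfsg.Geo Cfsg.Agent.H17.Mn Cfsg.Agent.H17.Pm
open scoped MatrixGroups Matrix

/-- A subgroup of prime index of a finite `F`-vector space contains an `F`-hyperplane. -/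
theorem exists_linear_ker_le {F : Type*} [Field F] [Fintype F] {Y : Type*} [AddCommGroup Y]
    [Module F Y] [Finite Y] (A : AddSubgroup Y) (hA : A.index.Prime) :
    ∃ ℓ : Y →ₗ[F] F, ℓ ≠ 0 ∧ ∀ y, ℓ y = 0 → y ∈ A := by
  classical
  have : Fact (ringChar F).Prime := ⟨CharP.char_is_prime F _⟩
  let _ : Algebra (ZMod (ringChar F)) F := ZMod.algebra F (ringChar F)
  let _ : Module (ZMod (ringChar F)) Y := Module.compHom Y (algebraMap (ZMod (ringChar F)) F)
  -- a non-zero additive functional vanishing on `A`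
  have hAne : A ≠ ⊤ := by
    intro h
    rw [h, AddSubgroup.index_top] at hA
    exact Nat.not_prime_one hA
  have hAtop : AddSubgroup.toZModSubmodule (ringChar F) A < ⊤ := by
    rw [lt_top_iff_ne_top]
    intro h
    apply hAne
    rw [eq_top_iff]
    intro y _
    have hy : y ∈ AddSubgroup.toZModSubmodule (ringChar F) A := by
      rw [h]
      exact Submodule.mem_top
    exact hy
  obtain ⟨f, hf0, hfA⟩ := Submodule.exists_le_ker_of_lt_top _ hAtop
  -- its kernel is `A`
  have hker : ∀ y, f y = 0 → y ∈ A := by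
    have hAK : A ≤ f.toAddMonoidHom.ker := fun y hy => LinearMap.mem_ker.mp (hfA hy)
    have hKtop : f.toAddMonoidHom.ker ≠ ⊤ := by
      intro h
      apply hf0
      ext y
      have hy : y ∈ f.toAddMonoidHom.ker := by
        rw [h]
        exact AddSubgroup.mem_top y
      exact hy
    have hdvd : f.toAddMonoidHom.ker.index ∣ A.index := AddSubgroup.index_dvd_of_le hAK
    have hne1 : f.toAddMonoidHom.ker.index ≠ 1 := fun h => hKtop (AddSubgroup.index_eq_one.mp h)
    have heq : f.toAddMonoidHom.ker.index = A.index :=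
      ((Nat.dvd_prime hA).mp hdvd).resolve_left hne1
    have hrel := AddSubgroup.relIndex_mul_index hAK
    rw [heq] at hrel
    have hrel1 : A.relIndex f.toAddMonoidHom.ker = 1 :=
      Nat.eq_of_mul_eq_mul_right hA.pos (by rw [hrel, one_mul])
    have hKA : f.toAddMonoidHom.ker ≤ A := AddSubgroup.relIndex_eq_one.mp hrel1
    intro y hy
    exact hKA hy
  -- trace duality
  obtain ⟨E, hE⟩ : ∃ E : F ≃ₗ[ZMod (ringChar F)] Module.Dual (ZMod (ringChar F)) F,
      ∀ b a : F, E b a = Algebra.trace (ZMod (ringChar F)) F (b * a) :=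
    ⟨(Algebra.traceForm (ZMod (ringChar F)) F).toDual (traceForm_nondegenerate _ _),
      fun b a => rfl⟩
  obtain ⟨μ, hμ⟩ : ∃ μ : Y → Module.Dual (ZMod (ringChar F)) F, ∀ θ a, μ θ a = f (a • θ) :=
    ⟨fun θ =>
      { toFun := fun a => f (a • θ)
        map_add' := fun a b => by rw [add_smul, map_add]
        map_smul' := fun z a => by
          rw [RingHom.id_apply, Algebra.smul_def, mul_smul]
          exact f.map_smul z (a • θ) }, fun θ a => rfl⟩
  have huniq : ∀ (θ : Y) (b : F),
      (∀ a, Algebra.trace (ZMod (ringChar F)) F (b * a) = f (a • θ)) → E.symm (μ θ) = b := by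
    intro θ b hb
    rw [LinearEquiv.symm_apply_eq]
    ext a
    rw [hμ, hE, hb]
  have hspec : ∀ θ a,
      Algebra.trace (ZMod (ringChar F)) F (E.symm (μ θ) * a) = f (a • θ) := by
    intro θ a
    rw [← hE, LinearEquiv.apply_symm_apply, hμ]
  refine ⟨{ toFun := fun θ => E.symm (μ θ), map_add' := ?_, map_smul' := ?_ }, ?_, ?_⟩
  · intro θ θ'
    apply huniq
    intro a
    rw [add_mul, map_add, hspec, hspec, smul_add, map_add]
  · intro b θ
    rw [RingHom.id_apply, smul_eq_mul]
    apply huniq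
    intro a
    have h1 : b * E.symm (μ θ) * a = E.symm (μ θ) * (a * b) := by ring
    rw [h1, hspec, mul_smul]
  · intro h0
    apply hAne
    rw [eq_top_iff]
    intro y _
    apply hker
    have h1 := hspec y 1
    have h2 : E.symm (μ y) = 0 := congrArg (fun g : Y →ₗ[F] F => g y) h0
    rw [h2, zero_mul, map_zero, one_smul] at h1
    exact h1.symm
  · intro y hy
    apply hker
    have h1 := hspec y 1
    have h2 : E.symm (μ y) = 0 := hy
    rw [h2, zero_mul, map_zero, one_smul] at h1
    exact h1.symm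

variable {ι : Type} [Fintype ι] [DecidableEq ι] {F : Type*} [Field F]

/-- **S2140-TRDUAL**. -/
theorem exists_hyperplane_le [Fintype F] (c : ι → F) (hc : c ≠ 0) (A : AddSubgroup ↥(Yc c))
    (hA : A.index.Prime) :
    ∃ w : ι → F, w ∉ Submodule.span F {c} ∧ ∀ y : ↥(Yc c), y.1 w = 0 → y ∈ A := by
  have : Finite ((ι → F) →ₗ[F] F) := DFunLike.finite _
  obtain ⟨ℓ, hℓ0, hℓA⟩ := exists_linear_ker_le (F := F) A hA
  obtain ⟨ℓ', hℓ'⟩ := LinearMap.exists_extend ℓ
  have hw : ∀ φ : (ι → F) →ₗ[F] F,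
      ℓ' φ = φ ((Module.evalEquiv F (ι → F)).symm ℓ') :=
    fun φ => (Module.apply_evalEquiv_symm_apply (R := F) (M := ι → F) φ ℓ').symm
  have hy : ∀ y : ↥(Yc c), ℓ y = y.1 ((Module.evalEquiv F (ι → F)).symm ℓ') := by
    intro y
    rw [← hw, ← hℓ']
    rfl
  refine ⟨(Module.evalEquiv F (ι → F)).symm ℓ', ?_, fun y hyw => hℓA y (by rw [hy, hyw])⟩
  intro hmem
  obtain ⟨a, ha⟩ := Submodule.mem_span_singleton.mp hmem
  apply hℓ0
  ext y
  rw [hy, ← ha, map_smul, (show y.1 c = 0 from y.2), smul_zero]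
  rfl

end Cfsg.Agent.H54.Pm

section Check

open Cfsg Cfsg.Geo Cfsg.Agent.H17.Mn Cfsg.Agent.H17.Pm
open scoped MatrixGroups Matrix

variable {ι : Type} [Fintype ι] [DecidableEq ι] {F : Type*} [Field F]

example [Fintype F] (c : ι → F) (hc : c ≠ 0) (A : AddSubgroup ↥(Yc c)) (hA : A.index.Prime) :
    ∃ w : ι → F, w ∉ Submodule.span F {c} ∧ ∀ y : ↥(Yc c), y.1 w = 0 → y ∈ A :=
  Cfsg.Agent.H54.Pm.exists_hyperplane_le c hc A hA

end Check
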