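import Cfsg.Agent.H52.JcBasic

/-!
# S2946-WHICH (helper54, for helper52)
-/

set_option autoImplicit false

namespace Cfsg.Agent.H54.Jc

open Cfsg Cfsg.Agent.H29 Cfsg.Agent.H52.Jc

variable {G : Type*} [Group G] [Finite G] {X W S : Subgroup G} {u x : G}

/-- `S` normalizes `nJ 2 S`. -/
theorem conj_mem_nJ {s : G} (hs : s ∈ S) {j : G} (hj : j ∈ nJ 2 S) :
    s * j * s⁻¹ ∈ nJ 2 S := by
  have h1 : s ∈ Subgroup.normalizer ((nJ 2 S : Subgroup G) : Set G) :=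
    normalizer_le_normalizer_nJ 2 S (Subgroup.le_normalizer hs)
  exact (Subgroup.mem_normalizer_iff.mp h1 j).mp hj

/-- If `g u g⁻¹ = y u y⁻¹` with `g, y ∈ X`, then `g` maps `nJ 2 S` into `nJ 2 (S^y)`. -/
theorem which_aux (h : Cfg X W S u x) {g y : G} (hg : g ∈ X) (hy : y ∈ X)
    (he : g * u * g⁻¹ = y * u * y⁻¹) {j : G} (hj : j ∈ nJ 2 S) :
    g * j * g⁻¹ ∈ nJ 2 (S.map (MulAut.conj y).toMonoidHom) := by
  have hsS : y⁻¹ * g ∈ S := by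
    rw [h.hS]
    refine ⟨X.mul_mem (X.inv_mem hy) hg, ?_⟩
    have e1 : y⁻¹ * g * u = y⁻¹ * (g * u * g⁻¹) * g := by group
    rw [e1, he]; group
  have h1 := conj_mem_nJ hsS hj
  rw [← nJ_map]
  refine ⟨y⁻¹ * g * j * (y⁻¹ * g)⁻¹, h1, ?_⟩
  show y * (y⁻¹ * g * j * (y⁻¹ * g)⁻¹) * y⁻¹ = g * j * g⁻¹
  group

theorem which (h : Cfg X W S u x) {g : G} (hg : g ∈ X) {j : G} (hj : j ∈ nJ 2 S) :
    g * j * g⁻¹ ∈ nJ 2 S ∨ g * j * g⁻¹ ∈ nJ 2 (S.map (MulAut.conj x).toMonoidHom) ∨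
      g * j * g⁻¹ ∈ nJ 2 (S.map (MulAut.conj (x * x)).toMonoidHom) := by
  have hgu : g * u * g⁻¹ ∈ W := h.hnorm g hg u h.hu
  rcases h.elems hgu with e | e | e | e
  · exfalso
    apply h.hu1
    have e1 : u = g⁻¹ * (g * u * g⁻¹) * g := by group
    rw [e1, e]; group
  · left
    have hgS : g ∈ S := by
      rw [h.hS]
      refine ⟨hg, ?_⟩
      have e1 : g * u = g * u * g⁻¹ * g := by group
      rw [e1, e]
    exact conj_mem_nJ hgS hj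
  · right; left
    exact which_aux h hg h.hx e hj
  · right; right
    exact which_aux h hg h.xx_mem (e.trans h.xx_u.symm) hj

example (h : Cfg X W S u x) {g : G} (hg : g ∈ X) {j : G} (hj : j ∈ nJ 2 S) :
    g * j * g⁻¹ ∈ nJ 2 S ∨ g * j * g⁻¹ ∈ nJ 2 (S.map (MulAut.conj x).toMonoidHom) ∨
      g * j * g⁻¹ ∈ nJ 2 (S.map (MulAut.conj (x * x)).toMonoidHom) := which h hg hj

end Cfsg.Agent.H54.Jc
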