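import Mathlib
import Cfsg.Agent.H95.OhDefs

/-!
# S5992-UNIPABS (helper54, for helper95's S5992/S5993 project)

If `N = T - 1` satisfies `N ^ 3 = 0` and has at most one Jordan block of odd size, every
invariant nondegenerate subspace of even dimension is of plus type.
-/

set_option autoImplicit false

namespace Cfsg.Agent.H54.Oh

open Cfsg.Agent.H45 Cfsg.Agent.H42.Spd Cfsg.Agent.H42.Ti Cfsg.Agent.H14.Ot Cfsg.Agent.H95.Oh Module

universe u v

section

variable {F : Type u} [Field F] {V : Type v} [AddCommGroup V] [Module F V]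

/-- Rank-nullity for the restriction of `f` to a subspace `X`. -/
theorem ua_rank_nullity [FiniteDimensional F V] (f : Module.End F V) (X : Submodule F V) :
    Module.finrank F ↥(X.map f) + Module.finrank F ↥(X ⊓ LinearMap.ker f) =
      Module.finrank F ↥X := by
  have h := LinearMap.finrank_range_add_finrank_ker (f.domRestrict X)
  rw [LinearMap.range_domRestrict, LinearMap.ker_domRestrict] at h
  have h2 : Module.finrank F ↥((LinearMap.ker f).comap X.subtype) =
      Module.finrank F ↥(X ⊓ LinearMap.ker f) := by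
    rw [← Submodule.map_comap_subtype, Submodule.finrank_map_subtype_eq]
  rw [h2] at h
  exact h

/-- The kernel of an endomorphism splits along an invariant decomposition. -/
theorem ua_ker_split [FiniteDimensional F V] (f : Module.End F V) (W P : Submodule F V)
    (hc : IsCompl W P) (hW : ∀ x ∈ W, f x ∈ W) (hP : ∀ x ∈ P, f x ∈ P) :
    Module.finrank F ↥(LinearMap.ker f) =
      Module.finrank F ↥(W ⊓ LinearMap.ker f) + Module.finrank F ↥(P ⊓ LinearMap.ker f) := by
  have h := Submodule.finrank_sup_add_finrank_inf_eq (W ⊓ LinearMap.ker f) (P ⊓ LinearMap.ker f)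
  have hinf : (W ⊓ LinearMap.ker f) ⊓ (P ⊓ LinearMap.ker f) = ⊥ := by
    rw [eq_bot_iff]
    intro x hx
    have : x ∈ W ⊓ P := ⟨hx.1.1, hx.2.1⟩
    rw [hc.inf_eq_bot] at this
    exact this
  have hsup : (W ⊓ LinearMap.ker f) ⊔ (P ⊓ LinearMap.ker f) = LinearMap.ker f := by
    apply le_antisymm
    · exact sup_le inf_le_right inf_le_right
    · intro x hx
      have hx' : f x = 0 := hx
      have hxt : x ∈ W ⊔ P := by rw [hc.sup_eq_top]; exact Submodule.mem_top
      obtain ⟨w, hw, p, hp, rfl⟩ := Submodule.mem_sup.mp hxt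
      have h1 : f w ∈ W ⊓ P := by
        refine ⟨hW w hw, ?_⟩
        have : f w = -(f p) := by
          rw [map_add] at hx'
          exact eq_neg_of_add_eq_zero_left hx'
        rw [this]
        exact P.neg_mem (hP p hp)
      rw [hc.inf_eq_bot, Submodule.mem_bot] at h1
      have h2 : f p = 0 := by
        rw [map_add, h1, zero_add] at hx'
        exact hx'
      exact Submodule.add_mem_sup ⟨hw, h1⟩ ⟨hp, h2⟩
  rw [hinf, hsup, finrank_bot, add_zero] at h
  exact h

/-- For an `N`-invariant subspace, `dim (X ∩ ker N²) ≤ 2 dim (X ∩ ker N)`. -/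
theorem ua_k2_le [FiniteDimensional F V] (N : Module.End F V) (X : Submodule F V)
    (hX : ∀ x ∈ X, N x ∈ X) :
    Module.finrank F ↥(X ⊓ LinearMap.ker (N ^ 2)) ≤
      2 * Module.finrank F ↥(X ⊓ LinearMap.ker N) := by
  have h := ua_rank_nullity N (X ⊓ LinearMap.ker (N ^ 2))
  have h1 : (X ⊓ LinearMap.ker (N ^ 2)).map N ≤ X ⊓ LinearMap.ker N := by
    rintro y ⟨x, hx, rfl⟩
    refine ⟨hX x hx.1, ?_⟩
    have h2 : (N ^ 2) x = 0 := hx.2
    rw [pow_two, Module.End.mul_apply] at h2
    exact h2
  have h2 : X ⊓ LinearMap.ker (N ^ 2) ⊓ LinearMap.ker N ≤ X ⊓ LinearMap.ker N :=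
    fun x hx => ⟨hx.1.1, hx.2⟩
  have h3 := Submodule.finrank_mono h1
  have h4 := Submodule.finrank_mono h2
  omega

end

/-- S5992-UNIPABS. -/
theorem unipAbs : StUnipAbs.{u, v} := by
  intro F _ _ V _ _ _ B T hsym hnd hiso hN3 hdim W hW hWnd hev
  have hfinF : Finite F := Finite.of_fintype F
  set N : Module.End F V := T - 1 with hN
  have hT : ∀ x, T x = N x + x := by
    intro x
    rw [hN, LinearMap.sub_apply, Module.End.one_apply, sub_add_cancel]
  have hWT : ∀ x ∈ W, T x ∈ W := by
    intro x hx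
    exact (Module.End.mem_invtSubmodule T).mp hW hx
  have hWN : ∀ x ∈ W, N x ∈ W := by
    intro x hx
    rw [hN, LinearMap.sub_apply, Module.End.one_apply]
    exact W.sub_mem (hWT x hx) hx
  -- the orthogonal complement
  have hc : IsCompl W (perp B W) := isCompl_perp B W hWnd
  have hinv : T * (1 - N + N ^ 2) = 1 := by
    have : T * (1 - N + N ^ 2) = N ^ 3 + 1 := by
      rw [hN]
      noncomm_ring
    rw [this, hN3, zero_add]
  have hPT : ∀ y ∈ perp B W, T y ∈ perp B W := by
    intro y hy u hu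
    have h1 : T ((1 - N + N ^ 2 : Module.End F V) u) = u := by
      rw [← Module.End.mul_apply, hinv, Module.End.one_apply]
    have h2 : (1 - N + N ^ 2 : Module.End F V) u ∈ W := by
      rw [LinearMap.add_apply, LinearMap.sub_apply, Module.End.one_apply, pow_two,
        Module.End.mul_apply]
      exact W.add_mem (W.sub_mem hu (hWN u hu)) (hWN _ (hWN u hu))
    rw [← h1, hiso]
    exact hy _ h2
  have hPN : ∀ y ∈ perp B W, N y ∈ perp B W := by
    intro y hy
    rw [hN, LinearMap.sub_apply, Module.End.one_apply]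
    exact (perp B W).sub_mem (hPT y hy) hy
  have hWN2 : ∀ x ∈ W, (N ^ 2) x ∈ W := by
    intro x hx
    rw [pow_two, Module.End.mul_apply]
    exact hWN _ (hWN x hx)
  have hPN2 : ∀ x ∈ perp B W, (N ^ 2) x ∈ perp B W := by
    intro x hx
    rw [pow_two, Module.End.mul_apply]
    exact hPN _ (hPN x hx)
  -- dimension bookkeeping
  have e1 := ua_ker_split N W (perp B W) hc hWN hPN
  have e2 := ua_ker_split (N ^ 2) W (perp B W) hc hWN2 hPN2
  have e3 := Submodule.finrank_add_eq_of_isCompl hc
  have i1 := ua_k2_le N W hWN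
  have i2 := ua_k2_le N (perp B W) hPN
  have i3 : Module.finrank F ↥(W ⊓ LinearMap.ker (N ^ 2)) ≤ Module.finrank F ↥W :=
    Submodule.finrank_mono inf_le_left
  have i4 : Module.finrank F ↥(perp B W ⊓ LinearMap.ker (N ^ 2)) ≤
      Module.finrank F ↥(perp B W) := Submodule.finrank_mono inf_le_left
  obtain ⟨k, hk⟩ := hev
  have d1 : Module.finrank F ↥(W ⊓ LinearMap.ker (N ^ 2)) = Module.finrank F ↥W := by omega
  have d2 : 2 * Module.finrank F ↥(W ⊓ LinearMap.ker N) = Module.finrank F ↥W := by omega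
  have hWK2 : W ≤ LinearMap.ker (N ^ 2) := by
    have : W ⊓ LinearMap.ker (N ^ 2) = W :=
      Submodule.eq_of_le_of_finrank_eq inf_le_left d1
    rw [← this]
    exact inf_le_right
  -- the image `N W` is the kernel of `N` on `W`
  have hle : W.map N ≤ W ⊓ LinearMap.ker N := by
    rintro y ⟨x, hx, rfl⟩
    refine ⟨hWN x hx, ?_⟩
    have h2 : (N ^ 2) x = 0 := hWK2 hx
    rw [pow_two, Module.End.mul_apply] at h2
    exact h2
  have hrn := ua_rank_nullity N W
  have heq : W.map N = W ⊓ LinearMap.ker N :=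
    Submodule.eq_of_le_of_finrank_eq hle (by omega)
  refine ⟨W ⊓ LinearMap.ker N, inf_le_left, ?_, d2⟩
  intro a ha b hb
  rw [← heq] at ha
  obtain ⟨w, hw, rfl⟩ := ha
  have hb0 : N b = 0 := hb.2
  have hTb : T b = b := by rw [hT, hb0, zero_add]
  have h1 : B (T w) (T b) = B w b := hiso w b
  rw [hTb, hT, map_add, LinearMap.add_apply] at h1
  exact add_eq_right.mp h1

example : StUnipAbs.{u, v} := unipAbs

end Cfsg.Agent.H54.Oh
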