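import Mathlib
import Cfsg.Agent.H38.BG161Defs
import Cfsg.Agent.H58.BG10FG

set_option autoImplicit false

/-!
# S1421-TAU (team piece for helper38): `StTauCases` and `StExA`

Every prime divisor of the order of a complement `E` of `M_σ` lies in `τ₁ ∪ τ₂ ∪ τ₃`; for
`p ∈ τ₂(M)` the complement `E` contains an elementary abelian subgroup of order `p²`.
-/

namespace Cfsg.Agent.H54.BG161

open Cfsg Subgroup Cfsg.Agent.H58.BG10 Cfsg.Agent.H58.BG12 Cfsg.Agent.H38.BG161
open scoped Pointwise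

universe u

variable {G : Type u} [Group G]

/-- `#M = #A · #B` for complements `A`, `B` in `M`. -/
theorem card_complIn {A B M : Subgroup G} (h : IsComplIn A B M) :
    Nat.card M = Nat.card A * Nat.card B := by
  obtain ⟨hA, hB, hdisj, hsurj⟩ := h
  rw [← Nat.card_prod]
  symm
  apply Nat.card_congr
  refine Equiv.ofBijective
    (fun ab : A × B => (⟨(ab.1 : G) * ab.2, mul_mem (hA ab.1.2) (hB ab.2.2)⟩ : M)) ⟨?_, ?_⟩
  · rintro ⟨a, b⟩ ⟨a', b'⟩ hab
    have hab' : (a : G) * b = a' * b' := congrArg Subtype.val hab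
    have h1 : (a' : G)⁻¹ * a = b' * (b : G)⁻¹ := by
      rw [inv_mul_eq_iff_eq_mul, ← mul_assoc, ← hab']
      group
    have h2 : (a' : G)⁻¹ * a ∈ A ⊓ B :=
      Subgroup.mem_inf.mpr ⟨mul_mem (inv_mem a'.2) a.2, by
        rw [h1]
        exact mul_mem b'.2 (inv_mem b.2)⟩
    rw [hdisj, Subgroup.mem_bot] at h2
    have h3 : (a : G) = a' := (inv_mul_eq_one.mp h2).symm
    have h4 : (b : G) = b' := by
      rw [h3] at hab'
      exact mul_left_cancel hab'
    exact Prod.ext (Subtype.ext h3) (Subtype.ext h4)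
  · rintro ⟨m, hm⟩
    obtain ⟨a, ha, b, hb, rfl⟩ := hsurj m hm
    exact ⟨(⟨a, ha⟩, ⟨b, hb⟩), rfl⟩

/-- The order of a complement of `B` in `M` is the index of `B` in `M`. -/
theorem card_eq_relIndex_complIn [Finite G] {A B M : Subgroup G} (h : IsComplIn A B M) :
    Nat.card A = B.relIndex M := by
  have h1 := card_complIn h
  have h2 : Nat.card B * B.relIndex M = Nat.card M := by
    have := Subgroup.relIndex_mul_relIndex (H := ⊥) (K := B) (L := M) bot_le h.2.1
    rwa [Subgroup.relIndex_bot_left, Subgroup.relIndex_bot_left] at this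
  have hpos : 0 < Nat.card B := Nat.card_pos
  rw [h1, mul_comm] at h2
  exact (Nat.eq_of_mul_eq_mul_right hpos h2).symm

/-- An elementary abelian subgroup of order exactly `q²` in a subgroup of `q`-rank 2. -/
theorem exists_elem_sq [Finite G] {M : Subgroup G} {q : ℕ} (hq : q.Prime)
    (h2 : PRankLE q 2 ↥M) (h1 : ¬ PRankLE q 1 ↥M) :
    ∃ B : Subgroup G, B ≤ M ∧ IsElementaryAbelian q B ∧ Nat.card B = q ^ 2 := by
  have hqf : Fact q.Prime := ⟨hq⟩
  have h1' : ∃ A' : Subgroup ↥M, IsMulCommutative A' ∧ (∀ a ∈ A', a ^ q = 1) ∧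
      q ^ 1 < Nat.card A' := by
    by_contra hne
    apply h1
    intro A hA hAp
    by_contra hc
    exact hne ⟨A, hA, hAp, not_le.mp hc⟩
  obtain ⟨A', hA'c, hA'p, hA'card⟩ := h1'
  have hle := h2 A' hA'c hA'p
  have hpg : IsPGroup q ↥A' := by
    intro a
    refine ⟨1, ?_⟩
    apply Subtype.ext
    rw [pow_one]
    exact hA'p a.1 a.2
  obtain ⟨n, hn⟩ := IsPGroup.iff_card.mp hpg
  have hn2 : n = 2 := by
    rw [hn] at hA'card hle
    have ha : 1 < n := (Nat.pow_lt_pow_iff_right hq.one_lt).mp hA'card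
    have hb : n ≤ 2 := (Nat.pow_le_pow_iff_right hq.one_lt).mp hle
    omega
  subst hn2
  refine ⟨A'.map M.subtype, Subgroup.map_subtype_le A', ⟨⟨⟨fun x y => ?_⟩⟩, ?_⟩, ?_⟩
  · obtain ⟨x, hx⟩ := x
    obtain ⟨y, hy⟩ := y
    obtain ⟨x', hx', rfl⟩ := hx
    obtain ⟨y', hy', rfl⟩ := hy
    apply Subtype.ext
    have := hA'c.is_comm.comm ⟨x', hx'⟩ ⟨y', hy'⟩
    have h2 : x' * y' = y' * x' := congrArg Subtype.val this
    show M.subtype x' * M.subtype y' = M.subtype y' * M.subtype x'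
    rw [← map_mul, ← map_mul, h2]
  · rintro _ ⟨a, ha, rfl⟩
    rw [← map_pow, hA'p a ha, map_one]
  · rw [Subgroup.card_map_of_injective M.subtype_injective, hn]

/-- A conjugate of an elementary abelian subgroup is elementary abelian. -/
theorem elem_map_conj {q : ℕ} {B : Subgroup G} (hB : IsElementaryAbelian q B) (g : G) :
    IsElementaryAbelian q (B.map (MulAut.conj g).toMonoidHom) := by
  refine ⟨⟨⟨fun x y => ?_⟩⟩, ?_⟩
  · obtain ⟨x, hx⟩ := x
    obtain ⟨y, hy⟩ := y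
    obtain ⟨x', hx', rfl⟩ := hx
    obtain ⟨y', hy', rfl⟩ := hy
    apply Subtype.ext
    have := hB.1.is_comm.comm ⟨x', hx'⟩ ⟨y', hy'⟩
    have h2 : x' * y' = y' * x' := congrArg Subtype.val this
    show (MulAut.conj g).toMonoidHom x' * (MulAut.conj g).toMonoidHom y' =
      (MulAut.conj g).toMonoidHom y' * (MulAut.conj g).toMonoidHom x'
    rw [← map_mul, ← map_mul, h2]
  · rintro _ ⟨a, ha, rfl⟩
    rw [← map_pow, hB.2 a ha, map_one]

/-- S1421-TAU, first part. -/
theorem tauCases [Finite G] (hG : IsMinSimpleOddOrder G) (h50 : St1350 G) (h96 : St1403 G) :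
    StTauCases G := by
  intro M hM E hE q hq hqE
  have hqσ : q ∉ sigma M := by
    intro hσ
    rw [card_eq_relIndex_complIn hE] at hqE
    exact (h50 M hM).1.2.2 q hq hσ hqE
  have hqM : q ∣ Nat.card M := hqE.trans (Subgroup.card_dvd_of_le hE.1)
  have h2 : PRankLE q 2 M := by
    by_contra h
    exact hqσ (Cfsg.Agent.H58.BG10.alpha_subset_sigma hG h96 hM ⟨hq, h⟩)
  by_cases h1 : PRankLE q 1 M
  · by_cases hc : q ∣ Nat.card ↥⁅M, M⁆
    · exact Or.inr ⟨hq, hqσ, hc, h1⟩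
    · exact Or.inl (Or.inl ⟨hq, hqσ, hqM, hc, h1⟩)
  · exact Or.inl (Or.inr ⟨hq, hqσ, h2, h1⟩)

/-- S1421-TAU, second part (EXA). -/
theorem exA [Finite G] (h50 : St1350 G) : StExA G := by
  intro M hM E hE p hpf hp
  obtain ⟨hpp, hpσ, h2, h1⟩ := hp
  obtain ⟨B, hBM, hBel, hBcard⟩ := exists_elem_sq hpp h2 h1
  have hEM : E ≤ M := hE.1
  -- a Sylow `p`-subgroup of `E`, seen in `M`
  obtain ⟨Q₀⟩ : Nonempty (Sylow p E) := inferInstance
  have hQE : (Q₀ : Subgroup E).map E.subtype ≤ E := Subgroup.map_subtype_le _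
  have hQM : (Q₀ : Subgroup E).map E.subtype ≤ M := hQE.trans hEM
  have hcardQ : Nat.card ↥(((Q₀ : Subgroup E).map E.subtype).subgroupOf M) =
      p ^ (Nat.card M).factorization p := by
    rw [Nat.card_congr (Subgroup.subgroupOfEquivOfLe hQM).toEquiv,
      Subgroup.card_map_of_injective E.subtype_injective, Sylow.card_eq_multiplicity,
      card_complIn hE, Nat.factorization_mul Nat.card_pos.ne' Nat.card_pos.ne']
    have h0 : (Nat.card (sigmaCore M)).factorization p = 0 := by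
      apply Nat.factorization_eq_zero_of_not_dvd
      intro hd
      exact hpσ ((h50 M hM).1.2.1 p hpp hd)
    simp [h0]
  have hQpg : IsPGroup p ↥(((Q₀ : Subgroup E).map E.subtype).subgroupOf M) :=
    IsPGroup.of_card hcardQ
  obtain ⟨P₂, hP₂⟩ := hQpg.exists_le_sylow
  have hQP₂ : ((Q₀ : Subgroup E).map E.subtype).subgroupOf M = (P₂ : Subgroup M) := by
    apply Subgroup.eq_of_le_of_card_ge hP₂
    rw [hcardQ, Sylow.card_eq_multiplicity]
  -- `B` lies in a Sylow `p`-subgroup of `M`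
  have hB'card : Nat.card ↥(B.subgroupOf M) = p ^ 2 := by
    rw [Nat.card_congr (Subgroup.subgroupOfEquivOfLe hBM).toEquiv, hBcard]
  obtain ⟨P, hP⟩ := (IsPGroup.of_card hB'card).exists_le_sylow
  obtain ⟨m, hm⟩ := MulAction.exists_smul_eq M P P₂
  refine ⟨B.map (MulAut.conj (m : G)).toMonoidHom, ?_, elem_map_conj hBel _, ?_⟩
  · rintro _ ⟨b, hb, rfl⟩
    have hbP : (⟨b, hBM hb⟩ : M) ∈ (P : Subgroup M) := hP (Subgroup.mem_subgroupOf.2 hb)
    have h3 : MulAut.conj m • (⟨b, hBM hb⟩ : M) ∈ MulAut.conj m • (P : Subgroup M) :=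
      Subgroup.smul_mem_pointwise_smul _ _ _ hbP
    rw [← Sylow.coe_subgroup_smul, hm, ← hQP₂, Subgroup.mem_subgroupOf] at h3
    exact hQE h3
  · rw [Subgroup.card_map_of_injective (MulAut.conj (m : G)).injective, hBcard]

end Cfsg.Agent.H54.BG161

universe u in
example {G : Type u} [Group G] [Finite G] (hG : Cfsg.IsMinSimpleOddOrder G)
    (h50 : Cfsg.Agent.H58.BG10.St1350 G) (h96 : Cfsg.Agent.H58.BG10.St1403 G) :
    Cfsg.Agent.H38.BG161.StTauCases G :=
  Cfsg.Agent.H54.BG161.tauCases hG h50 h96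

universe u in
example {G : Type u} [Group G] [Finite G] (h50 : Cfsg.Agent.H58.BG10.St1350 G) :
    Cfsg.Agent.H38.BG161.StExA G :=
  Cfsg.Agent.H54.BG161.exA h50
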