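/-
helper54 library (S1079-LIN and S1079-MU, for helper46): linear combinations of relations in an
abelian group written with an integer matrix, and the number of `n`-th roots of unity in a
finite field.
-/
import Mathlib

set_option autoImplicit false

namespace Cfsg.Agent.H54.CartanLin

/-- **S1079-MU**: the number of solutions of `ω ^ n = 1` in the units of a finite field. -/
theorem card_pow_eq_one_units {K : Type*} [Field K] [Fintype K] (n : ℕ) :
    Nat.card {ω : Kˣ // ω ^ n = 1} = Nat.gcd n (Fintype.card K - 1) := by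
  have h1 : Nat.card (powMonoidHom n : Kˣ →* Kˣ).ker = (Nat.card Kˣ).gcd n :=
    IsCyclic.card_powMonoidHom_ker Kˣ n
  have h2 : Nat.card Kˣ = Fintype.card K - 1 := by
    rw [Nat.card_units, Nat.card_eq_fintype_card]
  have h3 : Nat.card {ω : Kˣ // ω ^ n = 1} = Nat.card (powMonoidHom n : Kˣ →* Kˣ).ker := by
    apply Nat.card_congr
    apply Equiv.subtypeEquivRight
    intro ω
    rw [MonoidHom.mem_ker, powMonoidHom_apply]
  rw [h3, h1, h2, Nat.gcd_comm]

/-- A `ℤ`-power of a sum of exponents. -/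
theorem zpow_finset_sum {G : Type*} [CommGroup G] (a : G) (s : Finset ℕ) (f : ℕ → ℤ) :
    a ^ (∑ j ∈ s, f j) = ∏ j ∈ s, a ^ f j := by
  classical
  induction s using Finset.induction_on with
  | empty => simp
  | insert x s hx ih => rw [Finset.sum_insert hx, Finset.prod_insert hx, zpow_add, ih]

/-- **S1079-LIN** (1). -/
theorem prod_zpow_lincomb {G : Type*} [CommGroup G] (n : ℕ) (A : ℕ → ℕ → ℤ) (t : ℕ → G)
    (h : ∀ j < n, ∏ i ∈ Finset.range n, t i ^ A i j = 1) (b : ℕ → ℤ) :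
    ∏ i ∈ Finset.range n, t i ^ (∑ j ∈ Finset.range n, A i j * b j) = 1 := by
  have h1 : ∀ i, t i ^ (∑ j ∈ Finset.range n, A i j * b j) =
      ∏ j ∈ Finset.range n, (t i ^ A i j) ^ b j := by
    intro i
    rw [zpow_finset_sum]
    refine Finset.prod_congr rfl (fun j _ => ?_)
    rw [zpow_mul]
  rw [Finset.prod_congr rfl (fun i _ => h1 i), Finset.prod_comm]
  refine Finset.prod_eq_one (fun j hj => ?_)
  rw [Finset.prod_zpow, h j (Finset.mem_range.mp hj), one_zpow]

/-- **S1079-LIN** (2). -/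
theorem eq_zpow_of_cartan {G : Type*} [CommGroup G] (n : ℕ) (A B : ℕ → ℕ → ℤ) (c : ℕ → ℤ) (i0 : ℕ)
    (hi0 : i0 < n)
    (hB : ∀ k < n, ∀ i < n, ∑ j ∈ Finset.range n, A i j * B k j =
      (if i = k then 1 else 0) - (if i = i0 then c k else 0))
    (t : ℕ → G) (h : ∀ j < n, ∏ i ∈ Finset.range n, t i ^ A i j = 1) : ∀ k < n, t k = t i0 ^ c k := by
  intro k hk
  have h1 := prod_zpow_lincomb n A t h (B k)
  have h2 : ∏ i ∈ Finset.range n, t i ^ (∑ j ∈ Finset.range n, A i j * B k j) =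
      ∏ i ∈ Finset.range n, (t i ^ (if i = k then (1 : ℤ) else 0) *
        (t i ^ (if i = i0 then c k else 0))⁻¹) := by
    refine Finset.prod_congr rfl (fun i hi => ?_)
    rw [hB k hk i (Finset.mem_range.mp hi), zpow_sub]
  rw [h2, Finset.prod_mul_distrib, Finset.prod_inv_distrib] at h1
  have h3 : ∏ i ∈ Finset.range n, t i ^ (if i = k then (1 : ℤ) else 0) = t k := by
    rw [Finset.prod_eq_single k]
    · simp
    · intro i _ hik
      simp [hik]
    · intro hk'
      exact absurd (Finset.mem_range.mpr hk) hk'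
  have h4 : ∏ i ∈ Finset.range n, t i ^ (if i = i0 then c k else 0) = t i0 ^ c k := by
    rw [Finset.prod_eq_single i0]
    · simp
    · intro i _ hik
      simp [hik]
    · intro hk'
      exact absurd (Finset.mem_range.mpr hi0) hk'
  rw [h3, h4] at h1
  exact mul_inv_eq_one.mp h1

/-- **S1079-LIN** (3). -/
theorem zpow_eq_one_of_cartan {G : Type*} [CommGroup G] (n : ℕ) (A : ℕ → ℕ → ℤ) (b : ℕ → ℤ) (p : ℤ)
    (i0 : ℕ) (hi0 : i0 < n)
    (hb : ∀ i < n, ∑ j ∈ Finset.range n, A i j * b j = if i = i0 then p else 0)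
    (t : ℕ → G) (h : ∀ j < n, ∏ i ∈ Finset.range n, t i ^ A i j = 1) : t i0 ^ p = 1 := by
  have h1 := prod_zpow_lincomb n A t h b
  have h2 : ∏ i ∈ Finset.range n, t i ^ (∑ j ∈ Finset.range n, A i j * b j) =
      ∏ i ∈ Finset.range n, t i ^ (if i = i0 then p else 0) :=
    Finset.prod_congr rfl (fun i hi => by rw [hb i (Finset.mem_range.mp hi)])
  rw [h2, Finset.prod_eq_single i0] at h1
  · simpa using h1
  · intro i _ hik
    simp [hik]
  · intro hk'
    exact absurd (Finset.mem_range.mpr hi0) hk'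

end Cfsg.Agent.H54.CartanLin

section Check

example {K : Type*} [Field K] [Fintype K] (n : ℕ) :
    Nat.card {ω : Kˣ // ω ^ n = 1} = Nat.gcd n (Fintype.card K - 1) :=
  Cfsg.Agent.H54.CartanLin.card_pow_eq_one_units n

example {G : Type*} [CommGroup G] (n : ℕ) (A : ℕ → ℕ → ℤ) (t : ℕ → G)
    (h : ∀ j < n, ∏ i ∈ Finset.range n, t i ^ A i j = 1) (b : ℕ → ℤ) :
    ∏ i ∈ Finset.range n, t i ^ (∑ j ∈ Finset.range n, A i j * b j) = 1 :=
  Cfsg.Agent.H54.CartanLin.prod_zpow_lincomb n A t h b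

example {G : Type*} [CommGroup G] (n : ℕ) (A B : ℕ → ℕ → ℤ) (c : ℕ → ℤ) (i0 : ℕ) (hi0 : i0 < n)
    (hB : ∀ k < n, ∀ i < n, ∑ j ∈ Finset.range n, A i j * B k j =
      (if i = k then 1 else 0) - (if i = i0 then c k else 0))
    (t : ℕ → G) (h : ∀ j < n, ∏ i ∈ Finset.range n, t i ^ A i j = 1) : ∀ k < n, t k = t i0 ^ c k :=
  Cfsg.Agent.H54.CartanLin.eq_zpow_of_cartan n A B c i0 hi0 hB t h

example {G : Type*} [CommGroup G] (n : ℕ) (A : ℕ → ℕ → ℤ) (b : ℕ → ℤ) (p : ℤ) (i0 : ℕ)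
    (hi0 : i0 < n) (hb : ∀ i < n, ∑ j ∈ Finset.range n, A i j * b j = if i = i0 then p else 0)
    (t : ℕ → G) (h : ∀ j < n, ∏ i ∈ Finset.range n, t i ^ A i j = 1) : t i0 ^ p = 1 :=
  Cfsg.Agent.H54.CartanLin.zpow_eq_one_of_cartan n A b p i0 hi0 hb t h

end Check
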