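import Mathlib
import Cfsg.Agent.H83.AbIdxDefs
import Cfsg.Agent.H83.ThreeDegA

/-!
# S4463-BVANISH (team project of helper83)

Frobenius-type quotient: an irreducible character of `N` whose degree is at least every degree of
`G` vanishes off `K`.
-/

set_option autoImplicit false

namespace Cfsg.Agent.H54.AbIdx

open Cfsg Cfsg.Agent.H83.AbIdx

universe u

/-- S4463-BVANISH. -/
theorem bVanish (h : StmtL1.{u}) : StmtBVanish.{u} := by
  intro G _ _ K N hK hN hKN hab hfix ψ hmax n hnK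
  classical
  by_contra hne
  -- invariance of every linear twist of `ψ` under `G`-conjugation
  have key : ∀ (μ : N →* ℂˣ) (g : G) (m : N),
      ((μ ⟨g * m * g⁻¹, hN.conj_mem (m : G) m.2 g⟩ : ℂˣ) : ℂ) *
        ψ.1 ⟨g * m * g⁻¹, hN.conj_mem (m : G) m.2 g⟩ = ((μ m : ℂˣ) : ℂ) * ψ.1 m := by
    intro μ g m
    have hirr : IsIrrCharacter N (fun x => ((μ x : ℂˣ) : ℂ) * ψ.1 x) :=
      Cfsg.Agent.H4.isIrrCharacter_hom_mul μ ψ.2
    have hdeg : charDegree (fun x : N => ((μ x : ℂˣ) : ℂ) * ψ.1 x) = charDegree ψ.1 := by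
      unfold charDegree
      simp
    obtain ⟨⟨χ, hχ⟩, -, -⟩ := h G N ⟨_, hirr⟩ (by intro χ; rw [hdeg]; exact hmax χ)
    have h1 := hχ ⟨g * m * g⁻¹, hN.conj_mem (m : G) m.2 g⟩
    have h2 := hχ m
    simp only at h1 h2
    rw [← h1, ← h2]
    exact Cfsg.Agent.H82.irr_conj χ (m : G) g
  have hψinv : ∀ (g : G) (m : N),
      ψ.1 ⟨g * m * g⁻¹, hN.conj_mem (m : G) m.2 g⟩ = ψ.1 m := by
    intro g m
    have := key 1 g m
    simpa using this
  have hμinv : ∀ (μ : N →* ℂˣ) (g : G),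
      μ ⟨g * n * g⁻¹, hN.conj_mem (n : G) n.2 g⟩ = μ n := by
    intro μ g
    have h1 := key μ g n
    rw [hψinv g n] at h1
    exact Units.ext (mul_right_cancel₀ hne h1)
  apply hnK
  apply hfix (n : G) n.2
  intro g
  by_contra hgK
  have hx : (⟨g * n * g⁻¹, hN.conj_mem (n : G) n.2 g⟩ * n⁻¹ : N) ∉ K.subgroupOf N := by
    rw [Subgroup.mem_subgroupOf]
    exact hgK
  obtain ⟨f, -, hf⟩ := Cfsg.Agent.H83.exists_hom_sep (K.subgroupOf N)
    (fun a b => by
      rw [Subgroup.mem_subgroupOf]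
      simpa using hab a a.2 b b.2) hx
  apply hf
  rw [map_mul, map_inv, hμinv f g, mul_inv_cancel]

end Cfsg.Agent.H54.AbIdx

universe u in
example (h : Cfsg.Agent.H83.AbIdx.StmtL1.{u}) : Cfsg.Agent.H83.AbIdx.StmtBVanish.{u} :=
  Cfsg.Agent.H54.AbIdx.bVanish h
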