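import Mathlib
import Cfsg.Agent.H83.AbIdxDefs
import Cfsg.Agent.H83.ThreeDegA

/-!
# S4463-BETATRICK (team project of helper83)

If `β ∈ Irr(G)` vanishes off `H` and some `ψ ∈ Irr(H)` has degree at least every degree of `G`,
then `[G : H] ≤ β(1)`.
-/

set_option autoImplicit false

namespace Cfsg.Agent.H54.AbIdx

open Cfsg Cfsg.Agent.H83.AbIdx Cfsg.Agent.H4
open scoped ComplexConjugate

universe u

/-- Values of an irreducible character are bounded by the degree. -/
theorem irr_norm_le_degree {A : Type u} [Group A] [Finite A] (χ : IrrCharacter A) (g : A) :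
    ‖χ.1 g‖ ≤ (charDegree χ.1 : ℝ) := by
  obtain ⟨n, ρ, -, hχ, -, -, hd⟩ := Cfsg.Agent.H82.irr_rep χ
  have h := character_norm_le ρ g
  rw [hχ, Module.finrank_fin_fun] at h
  rw [hd]
  exact h

/-- A sum over the group of a function vanishing off a subgroup. -/
theorem sum_eq_sum_subgroup {G : Type u} [Group G] [Fintype G] (H : Subgroup G) [Fintype H]
    (F : G → ℝ) (hF : ∀ g, g ∉ H → F g = 0) : ∑ g : G, F g = ∑ h : H, F h := by
  classical
  rw [← Finset.sum_filter_of_ne (p := fun g => g ∈ H)]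
  · rw [Finset.sum_subtype (Finset.univ.filter fun g => g ∈ H) (p := fun g => g ∈ H) (by simp)]
  · intro g _ hne
    by_contra hg
    exact hne (hF g hg)

/-- S4463-BETATRICK. -/
theorem betaTrick (h : StmtL1.{u}) : StmtBetaTrick.{u} := by
  intro G _ _ H β ψ hβ hmax
  classical
  let _ : Fintype G := Fintype.ofFinite G
  let _ : Fintype H := Fintype.ofFinite H
  let _ := fintypeIrr G
  obtain ⟨⟨χ, hχ⟩, -, -⟩ := h G H ψ hmax
  obtain ⟨b, hb⟩ : ∃ b : ℕ, b = charDegree ψ.1 := ⟨_, rfl⟩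
  obtain ⟨f, hf⟩ : ∃ f : ℕ, f = charDegree β.1 := ⟨_, rfl⟩
  have hχ1 : χ.1 1 = (b : ℂ) := by
    have h1 := hχ 1
    rw [OneMemClass.coe_one] at h1
    rw [h1, Cfsg.Agent.H82.irr_one_eq_charDegree ψ, hb]
  have hβ1 : β.1 1 = (f : ℂ) := by rw [Cfsg.Agent.H82.irr_one_eq_charDegree β, hf]
  have hbpos : 0 < b := by rw [hb]; exact Cfsg.Agent.H82.charDegree_pos ψ
  have hfpos : 0 < f := by rw [hf]; exact Cfsg.Agent.H82.charDegree_pos β
  have hθ : IsCharacter G (χ.1 * β.1) :=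
    isCharacter_mul (isCharacter_of_isIrrCharacter χ.2) (isCharacter_of_isIrrCharacter β.2)
  obtain ⟨m, hm⟩ := isCharacter_iff.mp hθ
  have hinner : ∀ φ : IrrCharacter G, classInner (χ.1 * β.1) φ.1 = m φ := by
    intro φ; rw [hm, classInner_finsum_irr]
  have hnorm : classInner (χ.1 * β.1) (χ.1 * β.1) =
      ∑ φ : IrrCharacter G, (m φ : ℂ) * (m φ : ℂ) := by
    conv_lhs => rw [hm, finsum_irr_eq_sum, classInner_sum_right]
    refine Finset.sum_congr rfl fun φ _ => ?_
    rw [classInner_smul_right, Complex.conj_natCast, ← finsum_irr_eq_sum, ← hm, hinner]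
  -- degree count
  have hdeg : b * f = ∑ φ : IrrCharacter G, m φ * charDegree φ.1 := by
    have h1 : (χ.1 * β.1) 1 = ∑ φ : IrrCharacter G, (m φ : ℂ) * (φ.1 1) := by
      conv_lhs => rw [hm, finsum_irr_eq_sum]
      rw [Finset.sum_apply]
      refine Finset.sum_congr rfl fun φ _ => ?_
      simp
    rw [Pi.mul_apply, hχ1, hβ1] at h1
    have h2 : ((b * f : ℕ) : ℂ) = ((∑ φ : IrrCharacter G, m φ * charDegree φ.1 : ℕ) : ℂ) := by
      push_cast
      rw [h1]
      refine Finset.sum_congr rfl fun φ _ => ?_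
      rw [Cfsg.Agent.H82.irr_one_eq_charDegree φ]
    exact_mod_cast h2
  have hsum_ge : f ≤ ∑ φ : IrrCharacter G, m φ := by
    have h1 : b * f ≤ b * ∑ φ : IrrCharacter G, m φ := by
      rw [hdeg, Finset.mul_sum]
      refine Finset.sum_le_sum fun φ _ => ?_
      rw [mul_comm]
      exact Nat.mul_le_mul_right _ (by rw [hb]; exact hmax φ)
    exact Nat.le_of_mul_le_mul_left h1 hbpos
  have hsq_ge : f ≤ ∑ φ : IrrCharacter G, m φ * m φ :=
    hsum_ge.trans (Finset.sum_le_sum fun φ _ => Nat.le_mul_self (m φ))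
  -- the norm of `χ β` as a sum over `H`
  have hG : (Nat.card G : ℂ) ≠ 0 := by
    have : 0 < Nat.card G := Nat.card_pos
    exact_mod_cast this.ne'
  have hsumG : ∑ g : G, Complex.normSq (χ.1 g * β.1 g) =
      (Nat.card G : ℝ) * ((∑ φ : IrrCharacter G, m φ * m φ : ℕ) : ℝ) := by
    have h1 : (Nat.card G : ℂ) * classInner (χ.1 * β.1) (χ.1 * β.1) =
        ∑ g : G, ((Complex.normSq (χ.1 g * β.1 g) : ℝ) : ℂ) := by
      unfold classInner
      rw [← mul_assoc, mul_inv_cancel₀ hG, one_mul]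
      refine Finset.sum_congr rfl fun g _ => ?_
      rw [Pi.mul_apply, Complex.mul_conj]
    rw [hnorm] at h1
    have h2 : ((∑ g : G, Complex.normSq (χ.1 g * β.1 g) : ℝ) : ℂ) =
        (((Nat.card G : ℝ) * ((∑ φ : IrrCharacter G, m φ * m φ : ℕ) : ℝ) : ℝ) : ℂ) := by
      push_cast
      rw [← h1]
    exact_mod_cast h2
  have hsumH : ∑ g : G, Complex.normSq (χ.1 g * β.1 g) =
      ∑ x : H, Complex.normSq (χ.1 x * β.1 x) := by
    apply sum_eq_sum_subgroup H (fun g => Complex.normSq (χ.1 g * β.1 g))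
    intro g hg
    rw [hβ g hg, mul_zero, map_zero]
  have hψsum : ∑ x : H, Complex.normSq (ψ.1 x) = (Nat.card H : ℝ) := by
    have h1 := Cfsg.Agent.H82.irr_norm_sq ψ
    have h2 : ((∑ x : H, Complex.normSq (ψ.1 x) : ℝ) : ℂ) = ((Nat.card H : ℝ) : ℂ) := by
      push_cast
      rw [← h1]
      refine Finset.sum_congr rfl fun x _ => ?_
      rw [Complex.mul_conj]
    exact_mod_cast h2
  have hle : ∑ x : H, Complex.normSq (χ.1 x * β.1 x) ≤ (f : ℝ) ^ 2 * (Nat.card H : ℝ) := by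
    rw [← hψsum, Finset.mul_sum]
    refine Finset.sum_le_sum fun x _ => ?_
    rw [map_mul, hχ x, mul_comm]
    refine mul_le_mul_of_nonneg_right ?_ (Complex.normSq_nonneg _)
    rw [Complex.normSq_eq_norm_sq]
    have h1 := irr_norm_le_degree β (x : G)
    rw [← hf] at h1
    exact pow_le_pow_left₀ (norm_nonneg _) h1 2
  have hfinal : (Nat.card G : ℝ) * (f : ℝ) ≤ (f : ℝ) ^ 2 * (Nat.card H : ℝ) := by
    calc (Nat.card G : ℝ) * (f : ℝ)
        ≤ (Nat.card G : ℝ) * ((∑ φ : IrrCharacter G, m φ * m φ : ℕ) : ℝ) := by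
          refine mul_le_mul_of_nonneg_left ?_ (Nat.cast_nonneg _)
          exact_mod_cast hsq_ge
      _ = ∑ x : H, Complex.normSq (χ.1 x * β.1 x) := by rw [← hsumG, hsumH]
      _ ≤ (f : ℝ) ^ 2 * (Nat.card H : ℝ) := hle
  have hnat : Nat.card G * f ≤ f ^ 2 * Nat.card H := by exact_mod_cast hfinal
  have hidx : H.index * Nat.card H = Nat.card G := Subgroup.index_mul_card H
  have hHpos : 0 < Nat.card H := Nat.card_pos
  rw [← hf]
  have h3 : (H.index * Nat.card H) * f ≤ (f * Nat.card H) * f := by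
    rw [hidx]
    calc Nat.card G * f ≤ f ^ 2 * Nat.card H := hnat
      _ = (f * Nat.card H) * f := by ring
  have h4 : H.index * Nat.card H ≤ f * Nat.card H := Nat.le_of_mul_le_mul_right h3 hfpos
  exact Nat.le_of_mul_le_mul_right h4 hHpos

end Cfsg.Agent.H54.AbIdx

universe u in
example (h : Cfsg.Agent.H83.AbIdx.StmtL1.{u}) : Cfsg.Agent.H83.AbIdx.StmtBetaTrick.{u} :=
  Cfsg.Agent.H54.AbIdx.betaTrick h
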