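import Mathlib
import Cfsg.Agent.H38.BG161Defs

set_option autoImplicit false

/-!
# S1421-SINGT2 (team piece for helper38): prime divisors of singular elements lie in `τ₂(M)`
-/

namespace Cfsg.Agent.H54.BG161

open Cfsg Subgroup Cfsg.Agent.H58.BG10 Cfsg.Agent.H58.BG12 Cfsg.Agent.H38.BG161

universe u

variable {G : Type u} [Group G]

/-- S1421-SINGT2. -/
theorem singTau2 [Finite G] (hT : StTauCases G) : StSingTau2 G := by
  intro M hM E hE hH y hy hs q hq hqy
  have hy0 : orderOf y ≠ 0 := (orderOf_pos y).ne'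
  have hord : orderOf (y ^ (orderOf y / q)) = q := orderOf_pow_orderOf_div hy0 hqy
  have hmem : y ^ (orderOf y / q) ∈ E := E.pow_mem hy _
  have hne : y ^ (orderOf y / q) ≠ 1 := by
    intro h
    rw [h, orderOf_one] at hord
    exact hq.one_lt.ne hord
  have hle : sigmaCore M ⊓ centralizer ({y} : Set G) ≤
      sigmaCore M ⊓ centralizer ({y ^ (orderOf y / q)} : Set G) := by
    refine inf_le_inf_left _ ?_
    intro g hg
    rw [mem_centralizer_iff] at hg ⊢
    intro z hz
    rw [Set.mem_singleton_iff] at hz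
    subst hz
    have h1 : y * g = g * y := hg y (Set.mem_singleton y)
    exact ((Commute.pow_left (show Commute y g from h1) _).eq)
  have hqE : q ∣ Nat.card E := hqy.trans (Subgroup.orderOf_dvd_natCard E hy)
  rcases hT M hM E hE q hq hqE with (h1 | h2) | h3
  · exfalso
    have hreg := hH _ hmem hne (by
      intro p hp hpd
      rw [hord] at hpd
      rw [(Nat.prime_dvd_prime_iff_eq hp hq).1 hpd]
      exact Or.inl h1)
    apply hs.2
    rw [eq_bot_iff, ← hreg]
    exact hle
  · exact h2
  · exfalso
    have hreg := hH _ hmem hne (by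
      intro p hp hpd
      rw [hord] at hpd
      rw [(Nat.prime_dvd_prime_iff_eq hp hq).1 hpd]
      exact Or.inr h3)
    apply hs.2
    rw [eq_bot_iff, ← hreg]
    exact hle

end Cfsg.Agent.H54.BG161

universe u in
example {G : Type u} [Group G] [Finite G] (hT : Cfsg.Agent.H38.BG161.StTauCases G) :
    Cfsg.Agent.H38.BG161.StSingTau2 G :=
  Cfsg.Agent.H54.BG161.singTau2 hT
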