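import Mathlib
import Cfsg.Agent.H79.BrDefs
import Cfsg.Agent.H82.Irr
import Cfsg.Agent.H4.CharBasic

/-!
# S4504-ABS (helper54, for helper79's S4504 project)

`|ψ(g)| ≤ ψ(1)`, and equality for a faithful irreducible character forces `g` central.
-/

set_option autoImplicit false

namespace Cfsg.Agent.H54.Br

open Cfsg Cfsg.Agent.H79.Br

universe u

theorem abs : StAbs.{u} := by
  intro G _ _ ψ
  obtain ⟨n, ρ, -, hχ, -, h1, hd⟩ := Cfsg.Agent.H82.irr_rep ψ
  refine ⟨?_, ?_⟩
  · intro g
    have h := Cfsg.Agent.H4.character_norm_le ρ g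
    rw [hχ, Module.finrank_fin_fun] at h
    rw [hd]
    exact h
  · intro hfaith g hg
    have hg' : ‖ρ.character g‖ = (Module.finrank ℂ (Fin n → ℂ) : ℝ) := by
      rw [hχ, Module.finrank_fin_fun, ← hd]
      exact hg
    obtain ⟨ω, hω⟩ := (Cfsg.Agent.H4.character_norm_eq_iff ρ g).mp hg'
    rw [Subgroup.mem_center_iff]
    intro h
    -- `ρ (h * g * h⁻¹ * g⁻¹) = id`
    have hcomm : ρ (h * g) = ρ (g * h) := by
      rw [map_mul, map_mul, hω]
      ext v
      simp
    have hid : ρ (h * g * (g * h)⁻¹) = LinearMap.id := by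
      rw [map_mul, hcomm, ← map_mul, mul_inv_cancel, map_one]
      rfl
    have hval : ρ.character (h * g * (g * h)⁻¹) = (Module.finrank ℂ (Fin n → ℂ) : ℂ) :=
      (Cfsg.Agent.H4.character_eq_finrank_iff ρ _).mpr hid
    rw [hχ, Module.finrank_fin_fun, ← h1] at hval
    have := hfaith _ hval
    exact mul_inv_eq_one.mp this

example : StAbs.{u} := abs

end Cfsg.Agent.H54.Br
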