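import Mathlib
import Cfsg.Agent.H79.BrDefs
import Cfsg.Agent.H82.Extra
import Cfsg.Agent.H4.Irr

/-!
# S4504-MOM1 (helper54, for helper79's S4504 project)

The second moment: `|G| ≤ (p+1) p f |Z(G)|` in the case `p ≡ 1 (mod 4)`.
-/

set_option autoImplicit false

namespace Cfsg.Agent.H54.Br

open Cfsg Cfsg.Agent.H79.Br
open scoped ComplexConjugate

universe u

/-- The value at `1` of an irreducible character is its degree. -/
theorem irr_one_eq_deg {G : Type u} [Group G] (ψ : IrrCharacter G) :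
    ψ.1 1 = (charDegree ψ.1 : ℂ) := by
  obtain ⟨n, ρ, -, -, -, h1, hd⟩ := Cfsg.Agent.H82.irr_rep ψ
  rw [h1, hd]

/-- First orthogonality relation, norm form. -/
theorem sum_norm_sq_irr {G : Type u} [Group G] [Fintype G] (ψ : IrrCharacter G) :
    ∑ g : G, ‖ψ.1 g‖ ^ 2 = (Nat.card G : ℝ) := by
  have h := Cfsg.Agent.H4.irr_inner_self ψ
  unfold classInner at h
  have hG : (Nat.card G : ℂ) ≠ 0 := by
    have : 0 < Nat.card G := Nat.card_pos
    exact_mod_cast this.ne'
  have h2 : ∑ g : G, ψ.1 g * conj (ψ.1 g) = (Nat.card G : ℂ) := by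
    field_simp at h
    exact h
  have h3 : ((∑ g : G, ‖ψ.1 g‖ ^ 2 : ℝ) : ℂ) = ((Nat.card G : ℝ) : ℂ) := by
    push_cast
    rw [← h2]
    refine Finset.sum_congr rfl fun g _ => ?_
    rw [Complex.mul_conj']
  exact_mod_cast h3

/-- A central element multiplies an irreducible character by a scalar of norm one. -/
theorem irr_central_norm {G : Type u} [Group G] [Finite G] (ψ : IrrCharacter G) (z : G)
    (hz : z ∈ Subgroup.center G) (g : G) : ‖ψ.1 (g * z)‖ = ‖ψ.1 g‖ := by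
  have hzc : ∀ a : G, a * z = z * a := fun a => Subgroup.mem_center_iff.mp hz a
  obtain ⟨c, hc, hck, -⟩ := Cfsg.Agent.H82.irr_central_scalar ψ z hzc
  have hcn : ‖c‖ = 1 :=
    Complex.norm_eq_one_of_pow_eq_one (hck (orderOf z) (pow_orderOf_eq_one z))
      (orderOf_pos z).ne'
  rw [hzc g, hc g, norm_mul, hcn, one_mul]

theorem mom1 (hE : StExc1.{u}) (hC : StCC1.{u}) (hM : StMSplit.{u}) : StMom1.{u} := by
  intro G _ _ p _ P χ x₁ x₂ hL hp1
  obtain ⟨θ₃, θ₄, χ', hX⟩ := hE p P χ x₁ x₂ hL hp1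
  classical
  let _ : Fintype G := Fintype.ofFinite G
  set f := charDegree χ with hf
  let χI : IrrCharacter G := ⟨χ, hL.irr⟩
  let Fr : G → ℝ := fun g => 1 - ‖χ g‖ ^ 2 - ‖θ₃.1 g‖ ^ 2
  let F : G → ℂ := fun g => 1 - χ g * conj (χ g) - θ₃.1 g * conj (θ₃.1 g)
  have hFr : ∀ g, F g = (Fr g : ℂ) := by
    intro g
    simp only [F, Fr]
    rw [Complex.mul_conj', Complex.mul_conj']
    push_cast
    ring
  have hχcf : IsClassFunction G χ := Cfsg.Agent.H4.irr_isClassFunction χI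
  have hθcf : IsClassFunction G θ₃.1 := Cfsg.Agent.H4.irr_isClassFunction θ₃
  have hFcf : IsClassFunction G F := by
    intro g h
    simp only [F]
    rw [hχcf g h, hθcf g h]
  have hFz : ∀ g : G, ∀ z ∈ Subgroup.center G, F (g * z) = F g := by
    intro g z hz
    rw [hFr, hFr]
    simp only [Fr]
    have h1 : ‖χ (g * z)‖ = ‖χ g‖ := irr_central_norm χI z hz g
    have h2 : ‖θ₃.1 (g * z)‖ = ‖θ₃.1 g‖ := irr_central_norm θ₃ z hz g
    rw [h1, h2]
  have hsplit := hM p P f x₁ x₂ hL.grp F hFcf hFz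
  -- the total sum
  have htot : ∑ g : G, Fr g = -(Nat.card G : ℝ) := by
    simp only [Fr]
    rw [Finset.sum_sub_distrib, Finset.sum_sub_distrib, sum_norm_sq_irr χI, sum_norm_sq_irr θ₃]
    simp [Nat.card_eq_fintype_card]
  -- the values at `x₁`, `x₂`
  have hx12 : Fr x₁ + Fr x₂ = -2 * (f : ℝ) := by
    have h1 : ((‖χ x₁‖ ^ 2 + ‖χ x₂‖ ^ 2 : ℝ) : ℂ) = (((f : ℝ) + 1 : ℝ) : ℂ) := by
      push_cast
      rw [← Complex.mul_conj', ← Complex.mul_conj']
      exact hL.sq
    have h1' : ‖χ x₁‖ ^ 2 + ‖χ x₂‖ ^ 2 = (f : ℝ) + 1 := by exact_mod_cast h1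
    simp only [Fr]
    rw [hX.v₃₁, hX.v₃₂, norm_neg, norm_neg]
    linarith
  set S : Set G := {g : G | ¬ p ∣ orderOf g} with hS
  have hsum1 : ∑ᶠ g : G, F g = ((∑ g : G, Fr g : ℝ) : ℂ) := by
    rw [finsum_eq_sum_of_fintype]
    push_cast
    exact Finset.sum_congr rfl fun g _ => hFr g
  have hsum2 : ∑ᶠ g ∈ S, F g = ((∑ g : G, S.indicator Fr g : ℝ) : ℂ) := by
    rw [finsum_mem_def, finsum_eq_sum_of_fintype]
    push_cast
    refine Finset.sum_congr rfl fun g _ => ?_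
    by_cases hg : g ∈ S
    · rw [Set.indicator_of_mem hg, Set.indicator_of_mem hg, hFr]
    · rw [Set.indicator_of_notMem hg, Set.indicator_of_notMem hg]
      simp
  rw [hsum1, hsum2, hFr, hFr] at hsplit
  have hreal : (p : ℝ) * ∑ g : G, Fr g =
      (p : ℝ) * ∑ g : G, S.indicator Fr g + (Nat.card G : ℝ) * (Fr x₁ + Fr x₂) := by
    exact_mod_cast hsplit
  rw [htot, hx12] at hreal
  -- lower bound for the regular part
  have hdegχ : χ 1 = (f : ℂ) := irr_one_eq_deg χI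
  have hdegθ : θ₃.1 1 = ((f : ℂ) + 1) := by
    rw [irr_one_eq_deg θ₃, hX.deg₃]
    push_cast
    rfl
  have hlow : ∑ g : G, (if g ∈ Subgroup.center G then -2 * (f : ℝ) * ((f : ℝ) + 1) else 0) ≤
      ∑ g : G, S.indicator Fr g := by
    refine Finset.sum_le_sum fun g _ => ?_
    by_cases hgZ : g ∈ Subgroup.center G
    · have hgS : g ∈ S := hL.grp.zreg g hgZ
      rw [if_pos hgZ, Set.indicator_of_mem hgS]
      have h1 : ‖χ g‖ = (f : ℝ) := by
        have := irr_central_norm χI g hgZ 1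
        rw [one_mul] at this
        change ‖χ g‖ = ‖χ 1‖ at this
        rw [this, hdegχ, Complex.norm_natCast]
      have h2 : ‖θ₃.1 g‖ = (f : ℝ) + 1 := by
        have h3 := hX.ov₃ g hgZ
        simp only [Pi.one_apply, mul_one, one_mul] at h3
        rw [h3, hdegθ]
        have : ((f : ℂ) + 1) = (((f + 1 : ℕ) : ℝ) : ℂ) := by push_cast; ring
        rw [this, Complex.norm_real, Real.norm_eq_abs, abs_of_nonneg (by positivity)]
        push_cast
        ring
      simp only [Fr]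
      rw [h1, h2]
      nlinarith
    · rw [if_neg hgZ]
      by_cases hgS : g ∈ S
      · rw [Set.indicator_of_mem hgS]
        have h1 := hC p P χ x₁ x₂ hL hp1 θ₃ θ₄ χ' hX g hgS hgZ
        obtain ⟨r, hr⟩ := Complex.conj_eq_iff_real.mp (hX.real g)
        have h2 : ‖θ₃.1 g‖ = |(θ₃.1 g).re| := by
          rw [hr, Complex.norm_real, Real.norm_eq_abs, Complex.ofReal_re]
        simp only [Fr]
        rw [h2]
        have h3 : 0 ≤ ‖χ g‖ := norm_nonneg _
        have h4 : 0 ≤ |(θ₃.1 g).re| := abs_nonneg _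
        nlinarith
      · rw [Set.indicator_of_notMem hgS]
  have hcnt : ∑ g : G, (if g ∈ Subgroup.center G then -2 * (f : ℝ) * ((f : ℝ) + 1) else 0) =
      (Nat.card (Subgroup.center G) : ℝ) * (-2 * (f : ℝ) * ((f : ℝ) + 1)) := by
    rw [Finset.sum_ite, Finset.sum_const, Finset.sum_const_zero, add_zero, nsmul_eq_mul]
    congr 2
    rw [Nat.card_eq_fintype_card, Fintype.card_subtype]
  rw [hcnt] at hlow
  have hp : (p : ℝ) = 2 * (f : ℝ) + 1 := by
    have := hL.deg
    rw [← this]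
    push_cast
    rfl
  have hp0 : (0 : ℝ) < p := by rw [hp]; positivity
  have hfinal : (Nat.card G : ℝ) ≤
      (((p + 1) * p * f * Nat.card (Subgroup.center G) : ℕ) : ℝ) := by
    push_cast
    have h5 : (p : ℝ) * ((Nat.card (Subgroup.center G) : ℝ) * (-2 * (f : ℝ) * ((f : ℝ) + 1))) ≤
        (p : ℝ) * ∑ g : G, S.indicator Fr g := mul_le_mul_of_nonneg_left hlow hp0.le
    rw [hp] at h5 hreal ⊢
    nlinarith
  exact_mod_cast hfinal

example (hE : StExc1.{u}) (hC : StCC1.{u}) (hM : StMSplit.{u}) : StMom1.{u} := mom1 hE hC hM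

end Cfsg.Agent.H54.Br
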