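import Mathlib
import Cfsg.Agent.H79.BrDefs
import Cfsg.Agent.H82.Irr
import Cfsg.Agent.H4.Irr
import Cfsg.Agent.H4.RealClasses
import Cfsg.Agent.H4.PaQb
import Cfsg.Agent.H54.BrMom1

/-!
# S4504-CC1 (helper54, for helper79's S4504 project)

Twisted class multiplication constants in the case `p ≡ 1 (mod 4)`:
`‖χ y‖ + |θ₃ y| ≤ 1` for `p`-regular non-central `y`.
-/

set_option autoImplicit false

namespace Cfsg.Agent.H54.Br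

open Cfsg Cfsg.Agent.H79.Br
open scoped ComplexConjugate

universe u

/-- Splitting a finite sum over a set into three points, two subsets and a vanishing rest. -/
theorem finsum_split3 {ι : Type*} [Finite ι] (S A B : Set ι) (a b c : ι) (h k : ι → ℂ)
    (cA cB : ℂ)
    (haS : a ∈ S) (hbS : b ∈ S) (hcS : c ∈ S) (hab : a ≠ b) (hac : a ≠ c) (hbc : b ≠ c)
    (haA : a ∉ A) (haB : a ∉ B) (hbA : b ∉ A) (hbB : b ∉ B) (hcA : c ∉ A) (hcB : c ∉ B)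
    (hAS : A ⊆ S) (hBS : B ⊆ S) (hAB : ∀ ψ ∈ A, ψ ∉ B)
    (hA' : ∀ ψ ∈ A, h ψ = cA * k ψ) (hB' : ∀ ψ ∈ B, h ψ = cB * k ψ)
    (hrest : ∀ ψ ∈ S, ψ ≠ a → ψ ≠ b → ψ ≠ c → ψ ∉ A → ψ ∉ B → h ψ = 0) :
    ∑ᶠ ψ ∈ S, h ψ = h a + h b + h c + cA * ∑ᶠ ψ ∈ A, k ψ + cB * ∑ᶠ ψ ∈ B, k ψ := by
  classical
  have _ := Fintype.ofFinite ι
  have key : ∀ (T : Set ι) (j : ι → ℂ), ∑ᶠ ψ ∈ T, j ψ = ∑ ψ, if ψ ∈ T then j ψ else 0 := by
    intro T j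
    rw [finsum_mem_def, finsum_eq_sum_of_fintype]
    refine Finset.sum_congr rfl fun ψ _ => ?_
    rw [Set.indicator_apply]
  rw [key S h, key A k, key B k]
  have e1 : h a = ∑ ψ, if ψ = a then h ψ else 0 := by simp
  have e2 : h b = ∑ ψ, if ψ = b then h ψ else 0 := by simp
  have e3 : h c = ∑ ψ, if ψ = c then h ψ else 0 := by simp
  rw [e1, e2, e3, Finset.mul_sum, Finset.mul_sum, ← Finset.sum_add_distrib,
    ← Finset.sum_add_distrib, ← Finset.sum_add_distrib, ← Finset.sum_add_distrib]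
  refine Finset.sum_congr rfl fun ψ _ => ?_
  by_cases h1 : ψ = a
  · subst h1; simp [haS, hab, hac, haA, haB]
  by_cases h2 : ψ = b
  · subst h2; simp [hbS, h1, hbc, hbA, hbB]
  by_cases h3 : ψ = c
  · subst h3; simp [hcS, h1, h2, hcA, hcB]
  by_cases h4 : ψ ∈ A
  · simp [h1, h2, h3, h4, hAS h4, hAB ψ h4, hA' ψ h4]
  by_cases h5 : ψ ∈ B
  · simp [h1, h2, h3, h4, h5, hBS h5, hB' ψ h5]
  by_cases h6 : ψ ∈ S
  · simp [h1, h2, h3, h4, h5, h6, hrest ψ h6 h1 h2 h3 h4 h5]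
  · simp [h1, h2, h3, h4, h5, h6]

/-- Splitting a finite sum over a set into two points, two subsets and a vanishing rest. -/
theorem finsum_split2 {ι : Type*} [Finite ι] (S A B : Set ι) (a b : ι) (h k : ι → ℂ)
    (cA cB : ℂ)
    (haS : a ∈ S) (hbS : b ∈ S) (hab : a ≠ b)
    (haA : a ∉ A) (haB : a ∉ B) (hbA : b ∉ A) (hbB : b ∉ B)
    (hAS : A ⊆ S) (hBS : B ⊆ S) (hAB : ∀ ψ ∈ A, ψ ∉ B)
    (hA' : ∀ ψ ∈ A, h ψ = cA * k ψ) (hB' : ∀ ψ ∈ B, h ψ = cB * k ψ)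
    (hrest : ∀ ψ ∈ S, ψ ≠ a → ψ ≠ b → ψ ∉ A → ψ ∉ B → h ψ = 0) :
    ∑ᶠ ψ ∈ S, h ψ = h a + h b + cA * ∑ᶠ ψ ∈ A, k ψ + cB * ∑ᶠ ψ ∈ B, k ψ := by
  classical
  have _ := Fintype.ofFinite ι
  have key : ∀ (T : Set ι) (j : ι → ℂ), ∑ᶠ ψ ∈ T, j ψ = ∑ ψ, if ψ ∈ T then j ψ else 0 := by
    intro T j
    rw [finsum_mem_def, finsum_eq_sum_of_fintype]
    refine Finset.sum_congr rfl fun ψ _ => ?_
    rw [Set.indicator_apply]
  rw [key S h, key A k, key B k]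
  have e1 : h a = ∑ ψ, if ψ = a then h ψ else 0 := by simp
  have e2 : h b = ∑ ψ, if ψ = b then h ψ else 0 := by simp
  rw [e1, e2, Finset.mul_sum, Finset.mul_sum, ← Finset.sum_add_distrib,
    ← Finset.sum_add_distrib, ← Finset.sum_add_distrib]
  refine Finset.sum_congr rfl fun ψ _ => ?_
  by_cases h1 : ψ = a
  · subst h1; simp [haS, hab, haA, haB]
  by_cases h2 : ψ = b
  · subst h2; simp [hbS, h1, hbA, hbB]
  by_cases h4 : ψ ∈ A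
  · simp [h1, h2, h4, hAS h4, hAB ψ h4, hA' ψ h4]
  by_cases h5 : ψ ∈ B
  · simp [h1, h2, h4, h5, hBS h5, hB' ψ h5]
  by_cases h6 : ψ ∈ S
  · simp [h1, h2, h4, h5, h6, hrest ψ h6 h1 h2 h4 h5]
  · simp [h1, h2, h4, h5, h6]

/-- Real algebra behind `cc1`. -/
theorem cc1_real (F U σ : ℝ) (hF : 2 ≤ F) (hU0 : 0 ≤ U) (hUF : U < F)
    (h1 : U * |(F + 1) / F + σ / (2 * F + 1 + 1) + (σ - 1) / (2 * F + 1 - 1)| ≤
      σ + 1 + (U ^ 2 - 1 - σ) / (2 * F + 1 + 1) + U ^ 2 / (2 * F + 1 - 1))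
    (h2 : U * |-1 + σ / (2 * F + 1 + 1) + (σ - 1) / (2 * F + 1 - 1)| ≤
      -(F * σ / (F + 1)) + 1 + (U ^ 2 - 1 - σ) / (2 * F + 1 + 1) + U ^ 2 / (2 * F + 1 - 1)) :
    U + |σ| ≤ 1 := by
  have hF0 : 0 < F := by linarith
  have hc : 0 < (2 * F + 1) / (2 * F * (F + 1)) := by positivity
  have a1 : U * ((F + 1) / F + σ / (2 * F + 1 + 1) + (σ - 1) / (2 * F + 1 - 1)) ≤
      σ + 1 + (U ^ 2 - 1 - σ) / (2 * F + 1 + 1) + U ^ 2 / (2 * F + 1 - 1) :=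
    le_trans (mul_le_mul_of_nonneg_left (le_abs_self _) hU0) h1
  have a2 : U * (-(-1 + σ / (2 * F + 1 + 1) + (σ - 1) / (2 * F + 1 - 1))) ≤
      -(F * σ / (F + 1)) + 1 + (U ^ 2 - 1 - σ) / (2 * F + 1 + 1) + U ^ 2 / (2 * F + 1 - 1) :=
    le_trans (mul_le_mul_of_nonneg_left (neg_le_abs _) hU0) h2
  have k1 : σ + 1 + (U ^ 2 - 1 - σ) / (2 * F + 1 + 1) + U ^ 2 / (2 * F + 1 - 1) -
      U * ((F + 1) / F + σ / (2 * F + 1 + 1) + (σ - 1) / (2 * F + 1 - 1)) =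
      (2 * F + 1) / (2 * F * (F + 1)) * ((U - F) * (U - (1 + σ))) := by
    field_simp
    ring
  have k2 : -(F * σ / (F + 1)) + 1 + (U ^ 2 - 1 - σ) / (2 * F + 1 + 1) +
      U ^ 2 / (2 * F + 1 - 1) -
      U * (-(-1 + σ / (2 * F + 1 + 1) + (σ - 1) / (2 * F + 1 - 1))) =
      (2 * F + 1) / (2 * F * (F + 1)) * ((U - F) * (U - (1 - σ))) := by
    field_simp
    ring
  have b1 : 0 ≤ (U - F) * (U - (1 + σ)) := by
    have : 0 ≤ (2 * F + 1) / (2 * F * (F + 1)) * ((U - F) * (U - (1 + σ))) := by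
      rw [← k1]; linarith
    exact nonneg_of_mul_nonneg_right this hc
  have b2 : 0 ≤ (U - F) * (U - (1 - σ)) := by
    have : 0 ≤ (2 * F + 1) / (2 * F * (F + 1)) * ((U - F) * (U - (1 - σ))) := by
      rw [← k2]; linarith
    exact nonneg_of_mul_nonneg_right this hc
  have c1 : U ≤ 1 + σ := by
    by_contra hcon
    push Not at hcon
    nlinarith
  have c2 : U ≤ 1 - σ := by
    by_contra hcon
    push Not at hcon
    nlinarith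
  have : |σ| ≤ 1 - U := abs_le.mpr ⟨by linarith, by linarith⟩
  linarith

theorem cc1 (hX : StProd1.{u}) (hW : StProdW.{u}) (hT : StTwCCP.{u}) (hP : StPair.{u})
    (hA : StAbs.{u}) : StCC1.{u} := by
  intro G _ _ p _ P χ x₁ x₂ hL hp1 θ₃ θ₄ χ' hE y hy hyZ
  classical
  have hfin : Finite (IrrCharacter G) := Cfsg.Agent.H4.finite_irr G
  obtain ⟨χI, hχI⟩ : ∃ χI : IrrCharacter G, χI.1 = χ := ⟨⟨χ, hL.irr⟩, rfl⟩
  obtain ⟨triv, htriv⟩ : ∃ t : IrrCharacter G, t.1 = (1 : G → ℂ) :=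
    ⟨⟨1, Cfsg.Agent.H4.isIrrCharacter_one⟩, rfl⟩
  have hsum : χ x₁ + χ x₂ = -1 := hL.sum
  have hχcf : IsClassFunction G χ := by
    rw [← hχI]; exact Cfsg.Agent.H4.irr_isClassFunction χI
  obtain ⟨hc1, hc2⟩ := hL.grp.par1 hp1
  have hreal : ∀ x : G, IsConj x⁻¹ x → conj (χ x) = χ x := by
    intro x hx
    have h1 := Cfsg.Agent.H4.irr_inv χI x
    rw [hχI] at h1
    obtain ⟨c, hc⟩ := isConj_iff.mp hx
    have h2 := hχcf x⁻¹ c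
    rw [hc] at h2
    rw [← h1, ← h2]
  have hr1 := hreal x₁ hc1
  have hr2 := hreal x₂ hc2
  have hsq2 : χ x₁ * χ x₁ + χ x₂ * χ x₂ = (charDegree χ : ℂ) + 1 := by
    have := hL.sq
    rw [hr1, hr2] at this
    exact this
  have hprod : 2 * (χ x₁ * χ x₂) = -(charDegree χ : ℂ) := by
    linear_combination (χ x₁ + χ x₂ - 1) * hsum - hsq2
  have hne12 : χ x₁ ≠ χ x₂ := by
    intro h
    rw [← h] at hsum hsq2
    have h0 : ((2 * charDegree χ + 1 : ℕ) : ℂ) = 0 := by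
      push_cast
      linear_combination (-2 : ℂ) * hsq2 + (2 * χ x₁ - 1) * hsum
    have := Nat.cast_eq_zero.mp h0
    omega
  -- characters with `ψ x₁ + ψ x₂ = ±1` are not of type `0`, `1`, `-1`
  have notype : ∀ ψ : IrrCharacter G, (ψ.1 x₁ + ψ.1 x₂ = -1 ∨ ψ.1 x₁ + ψ.1 x₂ = 1) →
      ¬ ((ψ.1 x₁ = 0 ∧ ψ.1 x₂ = 0) ∨ (ψ.1 x₁ = 1 ∧ ψ.1 x₂ = 1) ∨
        (ψ.1 x₁ = -1 ∧ ψ.1 x₂ = -1)) := by
    rintro ψ (h | h) (⟨a, b⟩ | ⟨a, b⟩ | ⟨a, b⟩) <;> rw [a, b] at h <;> norm_num at h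
  have s3 : θ₃.1 x₁ + θ₃.1 x₂ = 1 := by
    rw [hE.v₃₁, hE.v₃₂]; linear_combination -hsum
  have s4 : θ₄.1 x₁ + θ₄.1 x₂ = 1 := by
    rw [hE.v₄₁, hE.v₄₂]; linear_combination -hsum
  have sI : χI.1 x₁ + χI.1 x₂ = -1 := by rw [hχI]; exact hsum
  have s' : χ'.1 x₁ + χ'.1 x₂ = -1 := by
    rw [hE.v'₁, hE.v'₂]; linear_combination hsum
  have hne34 : θ₃ ≠ θ₄ := by
    intro h
    have h1 := hE.v₃₁
    rw [h, hE.v₄₁] at h1
    exact hne12 (neg_injective h1).symm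
  have hneI' : χI ≠ χ' := by
    intro h
    have h1 := hE.v'₁
    rw [← h, hχI] at h1
    exact hne12 h1
  -- the block of the trivial character
  have hoth1 : ∀ ψ ∈ Ov (1 : G → ℂ), ψ ≠ θ₃ → ψ ≠ θ₄ →
      (ψ.1 x₁ = 0 ∧ ψ.1 x₂ = 0) ∨ (ψ.1 x₁ = 1 ∧ ψ.1 x₂ = 1) ∨
        (ψ.1 x₁ = -1 ∧ ψ.1 x₂ = -1) := by
    obtain ⟨ε, θ, θ', -, -, -, -, -, -, -, -, -, hoth, -⟩ := hP p P χ x₁ x₂ hL triv
    rw [htriv] at hoth
    have h3 : θ₃ = θ ∨ θ₃ = θ' := by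
      by_contra hcon
      push Not at hcon
      exact notype θ₃ (Or.inr s3) (hoth θ₃ hE.ov₃ hcon.1 hcon.2)
    have h4 : θ₄ = θ ∨ θ₄ = θ' := by
      by_contra hcon
      push Not at hcon
      exact notype θ₄ (Or.inr s4) (hoth θ₄ hE.ov₄ hcon.1 hcon.2)
    intro ψ hψ n3 n4
    rcases h3 with h3 | h3 <;> rcases h4 with h4 | h4
    · exact absurd (h3.trans h4.symm) hne34
    · exact hoth ψ hψ (by rw [← h3]; exact n3) (by rw [← h4]; exact n4)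
    · exact hoth ψ hψ (by rw [← h4]; exact n4) (by rw [← h3]; exact n3)
    · exact absurd (h3.trans h4.symm) hne34
  -- the block of `χ`
  have hIov : χI ∈ Ov χ := by
    intro z _
    rw [hχI]
  have hoth2 : ∀ ψ ∈ Ov χ, ψ ≠ χI → ψ ≠ χ' →
      (ψ.1 x₁ = 0 ∧ ψ.1 x₂ = 0) ∨ (ψ.1 x₁ = 1 ∧ ψ.1 x₂ = 1) ∨
        (ψ.1 x₁ = -1 ∧ ψ.1 x₂ = -1) := by
    obtain ⟨ε, θ, θ', -, -, -, -, -, -, -, -, -, hoth, -⟩ := hP p P χ x₁ x₂ hL χI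
    rw [hχI] at hoth
    have h3 : χI = θ ∨ χI = θ' := by
      by_contra hcon
      push Not at hcon
      exact notype χI (Or.inl sI) (hoth χI hIov hcon.1 hcon.2)
    have h4 : χ' = θ ∨ χ' = θ' := by
      by_contra hcon
      push Not at hcon
      exact notype χ' (Or.inl s') (hoth χ' hE.ov' hcon.1 hcon.2)
    intro ψ hψ n3 n4
    rcases h3 with h3 | h3 <;> rcases h4 with h4 | h4
    · exact absurd (h3.trans h4.symm) hneI'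
    · exact hoth ψ hψ (by rw [← h3]; exact n3) (by rw [← h4]; exact n4)
    · exact hoth ψ hψ (by rw [← h4]; exact n4) (by rw [← h3]; exact n3)
    · exact absurd (h3.trans h4.symm) hneI'
  have htrivOv1 : triv ∈ Ov (1 : G → ℂ) := by
    intro z _
    rw [htriv]
  have htrivNot : triv ∉ Ov χ := by
    intro h
    have hI1 : χI ∈ Ov (1 : G → ℂ) := by
      intro z hz
      have := h z hz
      rw [htriv] at this
      simp only [Pi.one_apply, one_mul, mul_one] at this ⊢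
      rw [hχI]
      exact this.symm
    by_cases e3 : χI = θ₃
    · have h1 := s3
      rw [← e3] at h1
      rw [sI] at h1
      norm_num at h1
    by_cases e4 : χI = θ₄
    · have h1 := s4
      rw [← e4] at h1
      rw [sI] at h1
      norm_num at h1
    exact notype χI (Or.inl sI) (hoth1 χI hI1 e3 e4)
  have hconj : ∀ ψ : IrrCharacter G, conj (ψ.1 y⁻¹) = ψ.1 y := fun ψ => by
    rw [Cfsg.Agent.H4.irr_inv ψ y, Complex.conj_conj]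
  obtain ⟨hX1, hX2, hX3, hX4⟩ := hX p P χ x₁ x₂ hL hp1 θ₃ θ₄ χ' hE
  obtain ⟨hW1, hW2, hW3, hW4⟩ := hW p P χ x₁ x₂ hL hp1 θ₃ θ₄ χ' hE
  have hdegp : ∀ ψ : IrrCharacter G, charDegree ψ.1 = p + 1 → ψ.1 1 = (p : ℂ) + 1 := by
    intro ψ h
    rw [irr_one_eq_deg ψ, h]
    push_cast
    rfl
  have hdegm : ∀ ψ : IrrCharacter G, charDegree ψ.1 + 1 = p → ψ.1 1 = (p : ℂ) - 1 := by
    intro ψ h
    rw [irr_one_eq_deg ψ, ← h]
    push_cast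
    ring
  -- the two decompositions
  have N1 : ∀ x' : G, (x' = x₁ ∨ x' = x₂) →
      ∑ᶠ ψ ∈ Ov (1 : G → ℂ), ψ.1 x₁ * ψ.1 x' * conj (ψ.1 y⁻¹) / ψ.1 1 =
        θ₃.1 x₁ * θ₃.1 x' * conj (θ₃.1 y⁻¹) / θ₃.1 1 +
        θ₄.1 x₁ * θ₄.1 x' * conj (θ₄.1 y⁻¹) / θ₄.1 1 +
        triv.1 x₁ * triv.1 x' * conj (triv.1 y⁻¹) / triv.1 1 +
        ((p : ℂ) + 1)⁻¹ * ∑ᶠ ψ ∈ Tp x₁ x₂ (1 : G → ℂ), ψ.1 y +
        ((p : ℂ) - 1)⁻¹ * ∑ᶠ ψ ∈ Tm x₁ x₂ (1 : G → ℂ), ψ.1 y := by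
    intro x' hx'
    have hTp : ∀ ψ ∈ Tp x₁ x₂ (1 : G → ℂ), ψ.1 x' = 1 := fun ψ hψ => by
      rcases hx' with e | e <;> rw [e]
      · exact hψ.2.1
      · exact hψ.2.2.1
    have hTm : ∀ ψ ∈ Tm x₁ x₂ (1 : G → ℂ), ψ.1 x' = -1 := fun ψ hψ => by
      rcases hx' with e | e <;> rw [e]
      · exact hψ.2.1
      · exact hψ.2.2
    refine finsum_split3 (Ov (1 : G → ℂ)) (Tp x₁ x₂ (1 : G → ℂ)) (Tm x₁ x₂ (1 : G → ℂ))
      θ₃ θ₄ triv (fun ψ => ψ.1 x₁ * ψ.1 x' * conj (ψ.1 y⁻¹) / ψ.1 1) (fun ψ => ψ.1 y)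
      (((p : ℂ) + 1)⁻¹) (((p : ℂ) - 1)⁻¹) hE.ov₃ hE.ov₄ htrivOv1 hne34 ?_ ?_ ?_ ?_ ?_ ?_ ?_ ?_
      (fun ψ hψ => hψ.1) (fun ψ hψ => hψ.1) ?_ ?_ ?_ ?_
    · intro h
      have h1 := s3
      rw [h, htriv] at h1
      norm_num at h1
    · intro h
      have h1 := s4
      rw [h, htriv] at h1
      norm_num at h1
    · intro h
      have h1 := s3
      rw [h.2.1, h.2.2.1] at h1
      norm_num at h1
    · intro h
      have h1 := s3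
      rw [h.2.1, h.2.2] at h1
      norm_num at h1
    · intro h
      have h1 := s4
      rw [h.2.1, h.2.2.1] at h1
      norm_num at h1
    · intro h
      have h1 := s4
      rw [h.2.1, h.2.2] at h1
      norm_num at h1
    · intro h
      exact h.2.2.2 htriv
    · intro h
      have h1 := h.2.1
      rw [htriv] at h1
      norm_num at h1
    · intro ψ hψ hψ'
      have h1 := hψ.2.1
      rw [hψ'.2.1] at h1
      norm_num at h1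
    · intro ψ hψ
      change ψ.1 x₁ * ψ.1 x' * conj (ψ.1 y⁻¹) / ψ.1 1 = ((p : ℂ) + 1)⁻¹ * ψ.1 y
      rw [hψ.2.1, hTp ψ hψ, hconj, hdegp ψ (hX3 ψ hψ)]
      ring
    · intro ψ hψ
      change ψ.1 x₁ * ψ.1 x' * conj (ψ.1 y⁻¹) / ψ.1 1 = ((p : ℂ) - 1)⁻¹ * ψ.1 y
      rw [hψ.2.1, hTm ψ hψ, hconj, hdegm ψ (hX4 ψ hψ)]
      ring
    · intro ψ hψ n3 n4 nt nA nB
      change ψ.1 x₁ * ψ.1 x' * conj (ψ.1 y⁻¹) / ψ.1 1 = 0
      rcases hoth1 ψ hψ n3 n4 with h | h | h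
      · rw [h.1]; simp
      · exfalso
        apply nA
        refine ⟨hψ, h.1, h.2, ?_⟩
        intro h1
        exact nt (Subtype.ext (h1.trans htriv.symm))
      · exact absurd ⟨hψ, h.1, h.2⟩ nB
  have Nχ : ∀ x' : G, (x' = x₁ ∨ x' = x₂) →
      ∑ᶠ ψ ∈ Ov χ, ψ.1 x₁ * ψ.1 x' * conj (ψ.1 y⁻¹) / ψ.1 1 =
        χI.1 x₁ * χI.1 x' * conj (χI.1 y⁻¹) / χI.1 1 +
        χ'.1 x₁ * χ'.1 x' * conj (χ'.1 y⁻¹) / χ'.1 1 +
        ((p : ℂ) + 1)⁻¹ * ∑ᶠ ψ ∈ Tp x₁ x₂ χ, ψ.1 y +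
        ((p : ℂ) - 1)⁻¹ * ∑ᶠ ψ ∈ Tm x₁ x₂ χ, ψ.1 y := by
    intro x' hx'
    have hTp : ∀ ψ ∈ Tp x₁ x₂ χ, ψ.1 x' = 1 := fun ψ hψ => by
      rcases hx' with e | e <;> rw [e]
      · exact hψ.2.1
      · exact hψ.2.2.1
    have hTm : ∀ ψ ∈ Tm x₁ x₂ χ, ψ.1 x' = -1 := fun ψ hψ => by
      rcases hx' with e | e <;> rw [e]
      · exact hψ.2.1
      · exact hψ.2.2
    refine finsum_split2 (Ov χ) (Tp x₁ x₂ χ) (Tm x₁ x₂ χ)
      χI χ' (fun ψ => ψ.1 x₁ * ψ.1 x' * conj (ψ.1 y⁻¹) / ψ.1 1) (fun ψ => ψ.1 y)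
      (((p : ℂ) + 1)⁻¹) (((p : ℂ) - 1)⁻¹) hIov hE.ov' hneI' ?_ ?_ ?_ ?_
      (fun ψ hψ => hψ.1) (fun ψ hψ => hψ.1) ?_ ?_ ?_ ?_
    · intro h
      have h1 := sI
      rw [h.2.1, h.2.2.1] at h1
      norm_num at h1
    · intro h
      have h1 := sI
      rw [h.2.1, h.2.2] at h1
      norm_num at h1
    · intro h
      have h1 := s'
      rw [h.2.1, h.2.2.1] at h1
      norm_num at h1
    · intro h
      have h1 := s'
      rw [h.2.1, h.2.2] at h1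
      norm_num at h1
    · intro ψ hψ hψ'
      have h1 := hψ.2.1
      rw [hψ'.2.1] at h1
      norm_num at h1
    · intro ψ hψ
      change ψ.1 x₁ * ψ.1 x' * conj (ψ.1 y⁻¹) / ψ.1 1 = ((p : ℂ) + 1)⁻¹ * ψ.1 y
      rw [hψ.2.1, hTp ψ hψ, hconj, hdegp ψ (hW3 ψ hψ)]
      ring
    · intro ψ hψ
      change ψ.1 x₁ * ψ.1 x' * conj (ψ.1 y⁻¹) / ψ.1 1 = ((p : ℂ) - 1)⁻¹ * ψ.1 y
      rw [hψ.2.1, hTm ψ hψ, hconj, hdegm ψ (hW4 ψ hψ)]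
      ring
    · intro ψ hψ n3 n4 nA nB
      change ψ.1 x₁ * ψ.1 x' * conj (ψ.1 y⁻¹) / ψ.1 1 = 0
      rcases hoth2 ψ hψ n3 n4 with h | h | h
      · rw [h.1]; simp
      · exfalso
        apply nA
        refine ⟨hψ, h.1, h.2, ?_⟩
        intro h1
        have : ψ = triv := Subtype.ext (h1.trans htriv.symm)
        rw [this] at hψ
        exact htrivNot hψ
      · exact absurd ⟨hψ, h.1, h.2⟩ nB
  -- the values at `y`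
  obtain ⟨σ, hσ⟩ := Complex.conj_eq_iff_real.mp (hE.real y)
  have h4y : θ₄.1 y = (σ : ℂ) := by rw [← hE.agree y hy, hσ]
  have h'y : χ'.1 y = χ y := hE.agree' y hy
  have hIy : χI.1 y = χ y := by rw [hχI]
  have eTp1 : ∑ᶠ ψ ∈ Tp x₁ x₂ (1 : G → ℂ), ψ.1 y = ((‖χ y‖ ^ 2 - 1 - σ : ℝ) : ℂ) := by
    have h := hX1 y
    rw [hσ, Complex.mul_conj'] at h
    push_cast
    linear_combination -h
  have eTm1 : ∑ᶠ ψ ∈ Tm x₁ x₂ (1 : G → ℂ), ψ.1 y = ((‖χ y‖ ^ 2 : ℝ) : ℂ) := by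
    have h := hX2 y
    rw [h'y, Complex.mul_conj'] at h
    push_cast
    exact h.symm
  have eTmχ : ∑ᶠ ψ ∈ Tm x₁ x₂ χ, ψ.1 y = χ y * (σ : ℂ) - χ y := by
    have h := hW1 y
    rw [hσ] at h
    linear_combination -h
  have eTpχ : ∑ᶠ ψ ∈ Tp x₁ x₂ χ, ψ.1 y = χ y * (σ : ℂ) := by
    have h := hW2 y
    rw [h4y] at h
    exact h.symm
  have d3 : θ₃.1 1 = (charDegree χ : ℂ) + 1 := by
    rw [irr_one_eq_deg θ₃, hE.deg₃]; push_cast; rfl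
  have d4 : θ₄.1 1 = (charDegree χ : ℂ) + 1 := by
    rw [irr_one_eq_deg θ₄, hE.deg₄]; push_cast; rfl
  have dI : χI.1 1 = (charDegree χ : ℂ) := by
    rw [irr_one_eq_deg χI, hχI]
  have d' : χ'.1 1 = (charDegree χ : ℂ) := by
    rw [irr_one_eq_deg χ', hE.deg']
  have hpR : (p : ℝ) = 2 * (charDegree χ : ℝ) + 1 := by
    have := hL.deg
    rw [← this]
    push_cast
    rfl
  have hF2 : (2 : ℝ) ≤ (charDegree χ : ℝ) := by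
    have h5 := hL.five
    have hd := hL.deg
    have : 2 ≤ charDegree χ := by omega
    exact_mod_cast this
  have hf0 : (charDegree χ : ℂ) ≠ 0 := by
    have : (charDegree χ : ℝ) ≠ 0 := by linarith
    exact_mod_cast this
  have hf1 : (charDegree χ : ℂ) + 1 ≠ 0 := by
    have : (charDegree χ : ℝ) + 1 ≠ 0 := by linarith
    exact_mod_cast this
  have ha := mul_inv_cancel₀ hf1
  have hb := mul_inv_cancel₀ hf0
  -- the four values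
  have V11 : ∑ᶠ ψ ∈ Ov (1 : G → ℂ), ψ.1 x₁ * ψ.1 x₁ * conj (ψ.1 y⁻¹) / ψ.1 1 =
      ((σ + 1 + (‖χ y‖ ^ 2 - 1 - σ) / ((p : ℝ) + 1) + ‖χ y‖ ^ 2 / ((p : ℝ) - 1) : ℝ) : ℂ) := by
    rw [N1 x₁ (Or.inl rfl), hconj, hconj, hconj, hE.v₃₁, hE.v₄₁, hσ, h4y, d3, d4, htriv,
      eTp1, eTm1]
    simp only [Pi.one_apply]
    push_cast
    linear_combination ((σ : ℂ) * ((charDegree χ : ℂ) + 1)⁻¹) * hsq2 + (σ : ℂ) * ha
  have V12 : ∑ᶠ ψ ∈ Ov (1 : G → ℂ), ψ.1 x₁ * ψ.1 x₂ * conj (ψ.1 y⁻¹) / ψ.1 1 =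
      ((-((charDegree χ : ℝ) * σ / ((charDegree χ : ℝ) + 1)) + 1 +
        (‖χ y‖ ^ 2 - 1 - σ) / ((p : ℝ) + 1) + ‖χ y‖ ^ 2 / ((p : ℝ) - 1) : ℝ) : ℂ) := by
    rw [N1 x₂ (Or.inr rfl), hconj, hconj, hconj, hE.v₃₁, hE.v₄₁, hE.v₃₂, hE.v₄₂, hσ, h4y, d3,
      d4, htriv, eTp1, eTm1]
    simp only [Pi.one_apply]
    push_cast
    linear_combination ((σ : ℂ) * ((charDegree χ : ℂ) + 1)⁻¹) * hprod
  have Vχ1 : ∑ᶠ ψ ∈ Ov χ, ψ.1 x₁ * ψ.1 x₁ * conj (ψ.1 y⁻¹) / ψ.1 1 =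
      χ y * (((charDegree χ : ℝ) + 1) / (charDegree χ : ℝ) + σ / ((p : ℝ) + 1) +
        (σ - 1) / ((p : ℝ) - 1) : ℝ) := by
    rw [Nχ x₁ (Or.inl rfl), hconj, hconj, hIy, h'y, hE.v'₁, dI, d', hχI, eTpχ, eTmχ]
    push_cast
    linear_combination (χ y * (charDegree χ : ℂ)⁻¹) * hsq2
  have Vχ2 : ∑ᶠ ψ ∈ Ov χ, ψ.1 x₁ * ψ.1 x₂ * conj (ψ.1 y⁻¹) / ψ.1 1 =
      χ y * ((-1 + σ / ((p : ℝ) + 1) + (σ - 1) / ((p : ℝ) - 1) : ℝ) : ℂ) := by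
    rw [Nχ x₂ (Or.inr rfl), hconj, hconj, hIy, h'y, hE.v'₁, hE.v'₂, dI, d', hχI, eTpχ, eTmχ]
    push_cast
    linear_combination (χ y * (charDegree χ : ℂ)⁻¹) * hprod - χ y * hb
  -- the inequalities
  have T1 := (hT χI x₁ x₁ y⁻¹).2
  have T2 := (hT χI x₁ x₂ y⁻¹).2
  rw [hχI] at T1 T2
  rw [V11, Vχ1, norm_mul, Complex.norm_real, Real.norm_eq_abs, Complex.ofReal_re] at T1
  rw [V12, Vχ2, norm_mul, Complex.norm_real, Real.norm_eq_abs, Complex.ofReal_re] at T2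
  rw [hpR] at T1 T2
  obtain ⟨hA1, hA2⟩ := hA χI
  rw [hχI] at hA1 hA2
  have hUF : ‖χ y‖ < (charDegree χ : ℝ) :=
    lt_of_le_of_ne (hA1 y) (fun h => hyZ (hA2 hL.faith y h))
  have hre : (θ₃.1 y).re = σ := by rw [hσ, Complex.ofReal_re]
  rw [hre]
  exact cc1_real (charDegree χ : ℝ) ‖χ y‖ σ hF2 (norm_nonneg _) hUF T1 T2

example (hX : StProd1.{u}) (hW : StProdW.{u}) (hT : StTwCCP.{u}) (hP : StPair.{u})
    (hA : StAbs.{u}) : StCC1.{u} := cc1 hX hW hT hP hA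

end Cfsg.Agent.H54.Br
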