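import Mathlib
import Cfsg.Agent.H79.BrDefs
import Cfsg.Agent.H82.Extra
import Cfsg.Agent.H4.Irr

/-!
# S4504-CENTCONST (helper54, for helper79's S4504 project)

The constituents of a function with the central character of `χ₀` lie over `χ₀`.
-/

set_option autoImplicit false

namespace Cfsg.Agent.H54.Br

open Cfsg Cfsg.Agent.H79.Br

universe u

theorem centConst : StCentConst.{u} := by
  intro G _ _ χ₀ m Ξ hΞ hcent ψ hmψ z hz
  classical
  let _ : Fintype (IrrCharacter G) := Cfsg.Agent.H4.fintypeIrr G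
  have hΞ' : ∀ g, Ξ g = ∑ φ : IrrCharacter G, (m φ : ℂ) * φ.1 g := by
    intro g
    rw [hΞ, Cfsg.Agent.H4.finsum_irr_eq_sum]
    simp [Finset.sum_apply]
  have hzc : ∀ g : G, g * z = z * g := fun g => Subgroup.mem_center_iff.mp hz g
  choose c hc using fun φ : IrrCharacter G => Cfsg.Agent.H82.irr_central_scalar φ z hzc
  have hlin := Cfsg.Agent.H4.irr_linearIndependent (G := G)
  rw [Fintype.linearIndependent_iff] at hlin
  have h0 : ∑ φ : IrrCharacter G,
      ((m φ : ℂ) * (c φ * χ₀.1 1 - χ₀.1 z)) • (φ.1 : G → ℂ) = 0 := by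
    funext g
    simp only [Finset.sum_apply, Pi.smul_apply, smul_eq_mul, Pi.zero_apply]
    have h1 := hcent z hz g
    rw [hΞ' (z * g), hΞ' g, Finset.sum_mul, Finset.mul_sum] at h1
    rw [← sub_eq_zero, ← Finset.sum_sub_distrib] at h1
    rw [← h1]
    refine Finset.sum_congr rfl fun φ _ => ?_
    rw [(hc φ).1 g]
    ring
  have h2 := hlin _ h0 ψ
  have h3 : c ψ * χ₀.1 1 - χ₀.1 z = 0 := by
    rcases mul_eq_zero.mp h2 with h | h
    · exact absurd (by exact_mod_cast h) hmψ
    · exact h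
  have h4 := (hc ψ).1 1
  rw [mul_one] at h4
  rw [h4]
  linear_combination ψ.1 1 * h3

example : StCentConst.{u} := centConst

end Cfsg.Agent.H54.Br
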