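import Mathlib
import Cfsg.Agent.H2.BrDefs

/-!
# S4501-FPFINV (team project of helper2)

A fixed-point-free involution inverts the subgroup it normalizes.
-/

set_option autoImplicit false

namespace Cfsg.Agent.H54.Br

open Cfsg Cfsg.Agent.H2.Br

universe u

/-- S4501-FPFINV. -/
theorem fpfInv : StmtFpfInv.{u} := by
  intro G _ _ K t ht hnorm _ hfix k hk
  let φ : K → K := fun x =>
    ⟨(x : G)⁻¹ * (t * x * t⁻¹), K.mul_mem (K.inv_mem x.2) (hnorm x x.2)⟩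
  have hinj : Function.Injective φ := by
    intro x y hxy
    have h1 : (x : G)⁻¹ * (t * x * t⁻¹) = (y : G)⁻¹ * (t * y * t⁻¹) := congrArg Subtype.val hxy
    have h2 : t * ((y : G) * (x : G)⁻¹) * t⁻¹ = (y : G) * (x : G)⁻¹ := by
      have h3 : (y : G) * (x : G)⁻¹ = (t * y * t⁻¹) * (t * x * t⁻¹)⁻¹ := by
        rw [eq_mul_inv_iff_mul_eq]
        calc (y : G) * (x : G)⁻¹ * (t * x * t⁻¹) = y * ((x : G)⁻¹ * (t * x * t⁻¹)) := by group
          _ = y * ((y : G)⁻¹ * (t * y * t⁻¹)) := by rw [h1]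
          _ = t * y * t⁻¹ := by group
      calc t * ((y : G) * (x : G)⁻¹) * t⁻¹ = (t * y * t⁻¹) * (t * x * t⁻¹)⁻¹ := by group
        _ = (y : G) * (x : G)⁻¹ := h3.symm
    have h4 := hfix _ (K.mul_mem y.2 (K.inv_mem x.2)) h2
    apply Subtype.ext
    exact (mul_inv_eq_one.1 h4).symm
  have hsurj : Function.Surjective φ := Finite.injective_iff_surjective.1 hinj
  obtain ⟨x, hx⟩ := hsurj ⟨k, hk⟩
  have hk' : (x : G)⁻¹ * (t * x * t⁻¹) = k := congrArg Subtype.val hx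
  rw [← hk']
  calc t * ((x : G)⁻¹ * (t * x * t⁻¹)) * t⁻¹ = t * (x : G)⁻¹ * t * x * (t * t)⁻¹ := by group
    _ = t * (x : G)⁻¹ * t * x := by rw [ht, inv_one, mul_one]
    _ = t * (x : G)⁻¹ * (t * t) * t⁻¹ * x := by group
    _ = t * (x : G)⁻¹ * t⁻¹ * x := by rw [ht, mul_one]
    _ = ((x : G)⁻¹ * (t * x * t⁻¹))⁻¹ := by group

end Cfsg.Agent.H54.Br

universe u in
example : Cfsg.Agent.H2.Br.StmtFpfInv.{u} := Cfsg.Agent.H54.Br.fpfInv
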