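import Mathlib
import Cfsg.Agent.H2.BrDefs

/-!
# S4501-TWOODD (team project of helper2)

A nonabelian simple group of even order has order divisible by `4`.
-/

set_option autoImplicit false

namespace Cfsg.Agent.H54.Br

open Cfsg Cfsg.Agent.H2.Br

universe u

/-- S4501-TWOODD. -/
theorem twoOdd : StmtTwoOdd.{u} := by
  intro G _ _ _ hnab h2
  by_contra h4
  have : Fact (Nat.Prime 2) := ⟨Nat.prime_two⟩
  have hp : (Nat.card G).minFac = 2 := (Nat.minFac_eq_two_iff _).mpr h2
  obtain ⟨P⟩ : Nonempty (Sylow 2 G) := inferInstance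
  obtain ⟨k, hk⟩ := IsPGroup.iff_card.mp P.isPGroup'
  have hk0 : k ≠ 0 := by
    rintro rfl
    have h1 := P.ne_bot_of_dvd_card h2
    apply h1
    rw [← Subgroup.card_eq_one, hk, pow_zero]
  have hk1 : k = 1 := by
    by_contra hne
    have hk2 : 2 ≤ k := by omega
    apply h4
    have h1 : 2 ^ k ∣ Nat.card G := by
      rw [← hk]
      exact Subgroup.card_subgroup_dvd_card (P : Subgroup G)
    exact (pow_dvd_pow 2 hk2).trans h1
  have hPcard : Nat.card (P : Subgroup G) = 2 := by rw [hk, hk1, pow_one]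
  have hP : IsCyclic (P : Subgroup G) := isCyclic_of_prime_card hPcard
  have hcomp := IsCyclic.isComplement' hp hP
  obtain ⟨K, hKn, hK⟩ : ∃ K : Subgroup G, K.Normal ∧ K.IsComplement' P :=
    ⟨_, MonoidHom.normal_ker _, hcomp⟩
  have hmul : Nat.card K * Nat.card (P : Subgroup G) = Nat.card G := hK.card_mul_card
  rcases hKn.eq_bot_or_eq_top with hbot | htop
  · -- `|G| = 2`
    rw [hbot, Subgroup.card_bot, one_mul, hPcard] at hmul
    have hcyc : IsCyclic G := isCyclic_of_prime_card hmul.symm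
    obtain ⟨x, y, hxy⟩ := hnab
    obtain ⟨g, hg⟩ := IsCyclic.exists_generator (α := G)
    obtain ⟨i, rfl⟩ := Subgroup.mem_zpowers_iff.1 (hg x)
    obtain ⟨j, rfl⟩ := Subgroup.mem_zpowers_iff.1 (hg y)
    exact hxy (zpow_mul_comm g i j)
  · rw [htop, Subgroup.card_top] at hmul
    have hpos : 0 < Nat.card G := Nat.card_pos
    have : Nat.card (P : Subgroup G) = 1 := by
      have h5 : Nat.card G * Nat.card (P : Subgroup G) = Nat.card G * 1 := by rw [hmul, mul_one]
      exact Nat.eq_of_mul_eq_mul_left hpos h5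
    omega

end Cfsg.Agent.H54.Br

universe u in
example : Cfsg.Agent.H2.Br.StmtTwoOdd.{u} := Cfsg.Agent.H54.Br.twoOdd
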