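/-
helper54 library (S4482-QS0, for helper84): the number of pairs of involutions `(u, v)` with
`u * v` in the coset `σ X`, under Brauer's dihedral hypotheses (`Dih.Hyp`, `Dih.Core`).

`card_invol_pairs_σ_aux` takes the two coset counts (piece QIOTA) as hypotheses;
`card_invol_pairs_σ` is the posted statement.
-/
import Mathlib
import Cfsg.Agent.H84.DihDefs
import Cfsg.Agent.H24.DihBASIC
import Cfsg.Agent.H71.DihFUS
import Cfsg.Agent.H75.DihCARD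
import Cfsg.Agent.H80.DihQInv
import Cfsg.Agent.H71.DihQIOTA

set_option autoImplicit false

open Cfsg.Agent.H84.Dih

namespace Cfsg.Agent.H54.Dih

universe u

variable {G : Type u} [Group G] [Finite G] {n : ℕ} {P : Sylow 2 G} {σ τ : G} {X : Subgroup G}

omit [Finite G] in
/-- Pairs `(g, v)` with `g ∈ H` against pairs `(u, v)` with `u` in the `H`-class of `t`. -/
theorem card_pairs_conj (H : Subgroup G) (t : G) (Q : G → G → Prop) :
    Nat.card {p : G × G // p.1 ∈ H ∧ Q (p.1 * t * p.1⁻¹) p.2} =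
      Nat.card {q : G × G // (∃ g ∈ H, q.1 = g * t * g⁻¹) ∧ Q q.1 q.2} *
        Nat.card {c : G // c ∈ H ∧ c * t = t * c} := by
  classical
  rw [← Nat.card_prod]
  symm
  have hr : ∀ q : {q : G × G // (∃ g ∈ H, q.1 = g * t * g⁻¹) ∧ Q q.1 q.2},
      ∃ g ∈ H, q.1.1 = g * t * g⁻¹ := fun q => q.2.1
  choose r hrH hrq using hr
  have hconj : ∀ (g c : G), c * t = t * c → (g * c) * t * (g * c)⁻¹ = g * t * g⁻¹ := by
    intro g c hc
    rw [mul_inv_rev, mul_assoc g c t, hc]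
    group
  refine Nat.card_congr (Equiv.ofBijective
    (fun x : {q : G × G // (∃ g ∈ H, q.1 = g * t * g⁻¹) ∧ Q q.1 q.2} ×
        {c : G // c ∈ H ∧ c * t = t * c} =>
      (⟨(r x.1 * x.2.1, x.1.1.2), ⟨H.mul_mem (hrH x.1) x.2.2.1, by
        show Q ((r x.1 * x.2.1) * t * (r x.1 * x.2.1)⁻¹) x.1.1.2
        rw [hconj _ _ x.2.2.2, ← hrq x.1]
        exact x.1.2.2⟩⟩ : {p : G × G // p.1 ∈ H ∧ Q (p.1 * t * p.1⁻¹) p.2})) ⟨?_, ?_⟩)
  · rintro ⟨q, c⟩ ⟨q', c'⟩ heq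
    have h1 : r q * c.1 = r q' * c'.1 := congrArg (fun z => z.1.1) heq
    have h2 : q.1.2 = q'.1.2 := congrArg (fun z => z.1.2) heq
    have hq1 : q.1.1 = q'.1.1 := by
      rw [hrq q, hrq q', ← hconj (r q) c.1 c.2.2, ← hconj (r q') c'.1 c'.2.2, h1]
    have hq : q = q' := Subtype.ext (Prod.ext hq1 h2)
    subst hq
    have hc : c = c' := Subtype.ext (mul_left_cancel h1)
    rw [hc]
  · rintro ⟨⟨a, b⟩, ha, hb⟩
    have hq := hrq ⟨(a * t * a⁻¹, b), ⟨a, ha, rfl⟩, hb⟩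
    have hqH := hrH ⟨(a * t * a⁻¹, b), ⟨a, ha, rfl⟩, hb⟩
    refine ⟨(⟨(a * t * a⁻¹, b), ⟨a, ha, rfl⟩, hb⟩,
      ⟨(r ⟨(a * t * a⁻¹, b), ⟨a, ha, rfl⟩, hb⟩)⁻¹ * a, H.mul_mem (H.inv_mem hqH) ha, ?_⟩), ?_⟩
    · have h3 : a * t * a⁻¹ = r ⟨(a * t * a⁻¹, b), ⟨a, ha, rfl⟩, hb⟩ * t *
          (r ⟨(a * t * a⁻¹, b), ⟨a, ha, rfl⟩, hb⟩)⁻¹ := hq
      generalize r ⟨(a * t * a⁻¹, b), ⟨a, ha, rfl⟩, hb⟩ = s at h3
      calc s⁻¹ * a * t = s⁻¹ * (a * t * a⁻¹) * a := by group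
        _ = s⁻¹ * (s * t * s⁻¹) * a := by rw [← h3]
        _ = t * (s⁻¹ * a) := by group
    · apply Subtype.ext
      apply Prod.ext
      · show r ⟨(a * t * a⁻¹, b), ⟨a, ha, rfl⟩, hb⟩ *
          ((r ⟨(a * t * a⁻¹, b), ⟨a, ha, rfl⟩, hb⟩)⁻¹ * a) = a
        rw [mul_inv_cancel_left]
      · rfl

/-- Summing fibre counts over `H`. -/
theorem card_pairs_sum (H : Subgroup G) (R : G → G → Prop) (b N : ℕ)
    (hR : ∀ g ∈ H, Nat.card {v : G // R g v} * b = N) :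
    Nat.card {p : G × G // p.1 ∈ H ∧ R p.1 p.2} * b = Nat.card H * N := by
  classical
  have : Fintype H := Fintype.ofFinite H
  have e : {p : G × G // p.1 ∈ H ∧ R p.1 p.2} ≃ Σ g : H, {v : G // R g.1 v} :=
    { toFun := fun p => ⟨⟨p.1.1, p.2.1⟩, ⟨p.1.2, p.2.2⟩⟩
      invFun := fun s => ⟨(s.1.1, s.2.1), s.1.2, s.2.2⟩
      left_inv := fun p => rfl
      right_inv := fun s => rfl }
  rw [Nat.card_congr e, Nat.card_sigma, Finset.sum_mul]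
  rw [Finset.sum_congr rfl (fun g _ => hR g.1 g.2)]
  rw [Finset.sum_const, Finset.card_univ, smul_eq_mul, Nat.card_eq_fintype_card]

/-- The part of the count with first coordinate in the `H`-class of `t`. -/
theorem part_count (H : Subgroup G) (t : G) (Q : G → G → Prop) (b N : ℕ)
    (hQ : ∀ g ∈ H, Nat.card {v : G // Q (g * t * g⁻¹) v} * b = N) :
    Nat.card {q : G × G // (∃ g ∈ H, q.1 = g * t * g⁻¹) ∧ Q q.1 q.2} *
      Nat.card {c : G // c ∈ H ∧ c * t = t * c} * b = Nat.card H * N := by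
  rw [← card_pairs_conj H t Q]
  exact card_pairs_sum H (fun g v => Q (g * t * g⁻¹) v) b N hQ

omit [Finite G] in
/-- The centralizer of `t` inside the centralizer of `J`. -/
theorem card_cent_pair (J t : G) :
    Nat.card {c : G // c ∈ Subgroup.centralizer ({J} : Set G) ∧ c * t = t * c} =
      Nat.card (Subgroup.centralizer ({J, t} : Set G)) := by
  apply Nat.card_congr
  apply Equiv.subtypeEquivRight
  intro c
  rw [Subgroup.mem_centralizer_singleton_iff, Subgroup.mem_centralizer_iff]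
  constructor
  · rintro ⟨h1, h2⟩ y hy
    rcases hy with rfl | hy
    · exact h1.symm
    · rw [Set.mem_singleton_iff] at hy
      subst hy
      exact h2.symm
  · intro hc
    exact ⟨(hc J (Set.mem_insert _ _)).symm, (hc t (Set.mem_insert_of_mem _ rfl)).symm⟩

/-- A set of pairs splitting into two `H`-classes of first coordinates. -/
theorem two_class_count (H : Subgroup G) (t₁ t₂ : G) (S : G × G → Prop) (Q : G → G → Prop)
    (hiff : ∀ q : G × G, S q ↔ (((∃ g ∈ H, q.1 = g * t₁ * g⁻¹) ∧ Q q.1 q.2) ∨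
      ((∃ g ∈ H, q.1 = g * t₂ * g⁻¹) ∧ Q q.1 q.2)))
    (hnot : ∀ g ∈ H, g * t₁ * g⁻¹ ≠ t₂) :
    Nat.card {q : G × G // S q} =
      Nat.card {q : G × G // (∃ g ∈ H, q.1 = g * t₁ * g⁻¹) ∧ Q q.1 q.2} +
        Nat.card {q : G × G // (∃ g ∈ H, q.1 = g * t₂ * g⁻¹) ∧ Q q.1 q.2} := by
  classical
  rw [← Nat.card_sum]
  have hdisj : Disjoint (fun q : G × G => (∃ g ∈ H, q.1 = g * t₁ * g⁻¹) ∧ Q q.1 q.2)
      (fun q : G × G => (∃ g ∈ H, q.1 = g * t₂ * g⁻¹) ∧ Q q.1 q.2) := by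
    rw [disjoint_iff_inf_le]
    rintro q ⟨⟨⟨g, hg, h1⟩, -⟩, ⟨⟨g', hg', h2⟩, -⟩⟩
    apply hnot (g'⁻¹ * g) (H.mul_mem (H.inv_mem hg') hg)
    calc g'⁻¹ * g * t₁ * (g'⁻¹ * g)⁻¹ = g'⁻¹ * (g * t₁ * g⁻¹) * g' := by group
      _ = g'⁻¹ * (g' * t₂ * g'⁻¹) * g' := by rw [← h1, h2]
      _ = t₂ := by group
  exact Nat.card_congr ((Equiv.subtypeEquivRight hiff).trans (subtypeOrEquiv _ _ hdisj))

omit [Finite G] in
/-- Powers of `p ρ` for `p ∈ C(J)` and `ρ ∈ X`. -/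
theorem pow_mul_mem (hX : Core n P σ X) {p ρ : G}
    (hp : p ∈ Subgroup.centralizer ({σ ^ (2 ^ (n - 2))} : Set G)) (hρ : ρ ∈ X) (k : ℕ) :
    ∃ ρ' ∈ X, (p * ρ) ^ k = p ^ k * ρ' := by
  induction k with
  | zero => exact ⟨1, X.one_mem, by simp⟩
  | succ k ih =>
    obtain ⟨ρ', hρ', he⟩ := ih
    refine ⟨p⁻¹ * ρ' * p * ρ, X.mul_mem ?_ hρ, ?_⟩
    · have := hX.norm p⁻¹ (Subgroup.inv_mem _ hp) ρ' hρ'
      rwa [inv_inv] at this
    · rw [pow_succ, he, pow_succ]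
      group

/-- `J` is a power of `σ ρ`. -/
theorem pow_eq_J (h : Hyp n P σ τ) (hX : Core n P σ X) {ρ : G} (hρ : ρ ∈ X) :
    (σ * ρ) ^ (2 ^ (n - 2) * Nat.card X) = σ ^ (2 ^ (n - 2)) := by
  have hσC : σ ∈ Subgroup.centralizer ({σ ^ (2 ^ (n - 2))} : Set G) :=
    Cfsg.Agent.H24.Dih.P_le h h.hσ
  obtain ⟨ρ', hρ', he⟩ := pow_mul_mem hX hσC hρ (2 ^ (n - 2))
  rw [pow_mul, he]
  have hcomm : Commute (σ ^ (2 ^ (n - 2))) ρ' := by
    have := hX.le hρ'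
    rw [Subgroup.mem_centralizer_singleton_iff] at this
    exact this.symm
  rw [hcomm.mul_pow]
  have h1 : ρ' ^ Nat.card X = 1 := by
    have := pow_card_eq_one' (G := X) (x := ⟨ρ', hρ'⟩)
    exact congrArg Subtype.val this
  rw [h1, mul_one]
  obtain ⟨m, hm⟩ := hX.odd
  rw [hm, pow_succ, pow_mul, Cfsg.Agent.H71.DihC.J_sq h, one_pow, one_mul]

/-- The first involution of a pair with product in `σ X` centralizes `J`. -/
theorem fst_mem_cent (h : Hyp n P σ τ) (hX : Core n P σ X) {u v ρ : G}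
    (hu : u * u = 1) (hv : v * v = 1) (hρ : ρ ∈ X) (huv : u * v = σ * ρ) :
    u ∈ Subgroup.centralizer ({σ ^ (2 ^ (n - 2))} : Set G) := by
  rw [Subgroup.mem_centralizer_singleton_iff]
  have hJ := pow_eq_J h hX hρ
  rw [← huv] at hJ
  have huinv : u⁻¹ = u := inv_eq_of_mul_eq_one_left hu
  have hvinv : v⁻¹ = v := inv_eq_of_mul_eq_one_left hv
  have h1 : u * (u * v) * u⁻¹ = (u * v)⁻¹ := by
    rw [mul_inv_rev, huinv, hvinv, ← mul_assoc, hu, one_mul]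
  have h2 : u * σ ^ (2 ^ (n - 2)) * u⁻¹ = (σ ^ (2 ^ (n - 2)))⁻¹ := by
    rw [← hJ, ← conj_pow, h1, inv_pow]
  have hJinv : (σ ^ (2 ^ (n - 2)))⁻¹ = σ ^ (2 ^ (n - 2)) :=
    inv_eq_of_mul_eq_one_left (Cfsg.Agent.H24.Dih.J_sq h)
  rw [hJinv] at h2
  exact mul_inv_eq_iff_eq_mul.mp h2

/-- The first involution of a pair with product in `σ X` is not `J`. -/
theorem fst_ne_J (h : Hyp n P σ τ) (hX : Core n P σ X) {u v ρ : G}
    (hv : v * v = 1) (hρ : ρ ∈ X) (huv : u * v = σ * ρ) : u ≠ σ ^ (2 ^ (n - 2)) := by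
  intro hu
  rw [hu] at huv
  have hJJ := Cfsg.Agent.H24.Dih.J_sq h
  have hv' : v = σ ^ (2 ^ (n - 2)) * σ * ρ := by
    calc v = σ ^ (2 ^ (n - 2)) * σ ^ (2 ^ (n - 2)) * v := by rw [hJJ, one_mul]
      _ = σ ^ (2 ^ (n - 2)) * (σ ^ (2 ^ (n - 2)) * v) := by rw [mul_assoc]
      _ = σ ^ (2 ^ (n - 2)) * (σ * ρ) := by rw [huv]
      _ = σ ^ (2 ^ (n - 2)) * σ * ρ := by rw [mul_assoc]
  have hpP : σ ^ (2 ^ (n - 2)) * σ ∈ (P : Subgroup G) := mul_mem (pow_mem h.hσ _) h.hσ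
  have hpC := Cfsg.Agent.H24.Dih.P_le h hpP
  obtain ⟨ρ', hρ', he⟩ := pow_mul_mem hX hpC hρ 2
  rw [← hv', pow_two, hv] at he
  have h1 : (σ ^ (2 ^ (n - 2)) * σ) ^ 2 = ρ'⁻¹ := eq_inv_of_mul_eq_one_left he.symm
  have h2 : (σ ^ (2 ^ (n - 2)) * σ) ^ 2 = 1 :=
    Cfsg.Agent.H71.DihC.X_inf_P hX _ (h1 ▸ X.inv_mem hρ') (pow_mem hpP 2)
  have hc : Commute (σ ^ (2 ^ (n - 2))) σ := Commute.pow_self σ _
  rw [hc.mul_pow, pow_two, hJJ, one_mul, pow_two] at h2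
  exact Cfsg.Agent.H75.Dih.sigma_sq_ne h h2

/-- **S4482-QS0**, with the coset counts of piece QIOTA as hypotheses. -/
theorem card_invol_pairs_σ_aux (h : Hyp n P σ τ) (hX : Core n P σ X)
    (hconj : IsConj (σ ^ (2 ^ (n - 2))) τ ∧ IsConj (σ ^ (2 ^ (n - 2))) (σ * τ))
    (hι1 : ∀ g ∈ Subgroup.centralizer ({σ ^ (2 ^ (n - 2))} : Set G),
      Nat.card {v : G // orderOf v = 2 ∧ ∃ ρ ∈ X, g * τ * g⁻¹ * v = σ * ρ} *
        Nat.card ↥(X ⊓ Subgroup.centralizer ({σ * τ} : Set G)) = Nat.card X)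
    (hι2 : ∀ g ∈ Subgroup.centralizer ({σ ^ (2 ^ (n - 2))} : Set G),
      Nat.card {v : G // orderOf v = 2 ∧ ∃ ρ ∈ X, g * (σ * τ) * g⁻¹ * v = σ * ρ} *
        Nat.card ↥(X ⊓ Subgroup.centralizer ({τ} : Set G)) = Nat.card X) :
    Nat.card {q : G × G // IsConj (σ ^ (2 ^ (n - 2))) q.1 ∧ IsConj (σ ^ (2 ^ (n - 2))) q.2 ∧
        ∃ ρ ∈ X, q.1 * q.2 = σ * ρ} *
      (2 * Nat.card ↥(X ⊓ Subgroup.centralizer ({τ} : Set G)) *
        Nat.card ↥(X ⊓ Subgroup.centralizer ({σ * τ} : Set G))) =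
    Nat.card (Subgroup.centralizer ({σ ^ (2 ^ (n - 2))} : Set G)) * Nat.card X := by
  have hA := part_count (Subgroup.centralizer ({σ ^ (2 ^ (n - 2))} : Set G)) τ
    (fun u v => orderOf v = 2 ∧ ∃ ρ ∈ X, u * v = σ * ρ)
    (Nat.card ↥(X ⊓ Subgroup.centralizer ({σ * τ} : Set G))) (Nat.card X) hι1
  have hB := part_count (Subgroup.centralizer ({σ ^ (2 ^ (n - 2))} : Set G)) (σ * τ)
    (fun u v => orderOf v = 2 ∧ ∃ ρ ∈ X, u * v = σ * ρ)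
    (Nat.card ↥(X ⊓ Subgroup.centralizer ({τ} : Set G))) (Nat.card X) hι2
  rw [card_cent_pair, Cfsg.Agent.H75.Dih.card_cent_τ h hX] at hA
  rw [card_cent_pair, Cfsg.Agent.H75.Dih.card_cent_στ h hX] at hB
  have hdec := two_class_count (Subgroup.centralizer ({σ ^ (2 ^ (n - 2))} : Set G)) τ (σ * τ)
    (fun q : G × G => IsConj (σ ^ (2 ^ (n - 2))) q.1 ∧ IsConj (σ ^ (2 ^ (n - 2))) q.2 ∧
        ∃ ρ ∈ X, q.1 * q.2 = σ * ρ)
    (fun u v => orderOf v = 2 ∧ ∃ ρ ∈ X, u * v = σ * ρ) ?_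
    (fun g hg => Cfsg.Agent.H80.Dih.invol_not_conj h hX g hg)
  · rw [hdec]
    generalize Nat.card {q : G × G // (∃ g ∈ Subgroup.centralizer ({σ ^ (2 ^ (n - 2))} : Set G),
      q.1 = g * τ * g⁻¹) ∧ orderOf q.2 = 2 ∧ ∃ ρ ∈ X, q.1 * q.2 = σ * ρ} = a at hA ⊢
    generalize Nat.card {q : G × G // (∃ g ∈ Subgroup.centralizer ({σ ^ (2 ^ (n - 2))} : Set G),
      q.1 = g * (σ * τ) * g⁻¹) ∧ orderOf q.2 = 2 ∧ ∃ ρ ∈ X, q.1 * q.2 = σ * ρ} = b at hB ⊢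
    generalize Nat.card ↥(X ⊓ Subgroup.centralizer ({τ} : Set G)) = α at hA hB ⊢
    generalize Nat.card ↥(X ⊓ Subgroup.centralizer ({σ * τ} : Set G)) = β at hA hB ⊢
    generalize Nat.card (Subgroup.centralizer ({σ ^ (2 ^ (n - 2))} : Set G)) * Nat.card X = K
      at hA hB ⊢
    have h2 : 2 * ((a + b) * (2 * α * β)) = 2 * K := by
      calc 2 * ((a + b) * (2 * α * β)) = a * (4 * α) * β + b * (4 * β) * α := by ring
        _ = 2 * K := by rw [hA, hB]; ring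
    exact Nat.eq_of_mul_eq_mul_left (by norm_num) h2
  · rintro ⟨u, v⟩
    have hord : ∀ w : G, orderOf w = 2 → w * w = 1 := by
      intro w hw
      have := pow_orderOf_eq_one w
      rwa [hw, pow_two] at this
    constructor
    · rintro ⟨hu, hv, ρ, hρ, huv⟩
      have hu2 : orderOf u = 2 := (Cfsg.Agent.H24.Dih.all_conj h hconj u).mpr hu
      have hv2 : orderOf v = 2 := (Cfsg.Agent.H24.Dih.all_conj h hconj v).mpr hv
      have huC := fst_mem_cent h hX (hord u hu2) (hord v hv2) hρ huv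
      have huJ := fst_ne_J h hX (hord v hv2) hρ huv
      rcases Cfsg.Agent.H80.Dih.invol_class h hX u hu2 huC huJ with hc | hc
      · exact Or.inl ⟨hc, hv2, ρ, hρ, huv⟩
      · exact Or.inr ⟨hc, hv2, ρ, hρ, huv⟩
    · rintro (⟨⟨g, -, hg⟩, hv2, ρ, hρ, huv⟩ | ⟨⟨g, -, hg⟩, hv2, ρ, hρ, huv⟩)
      · exact ⟨hconj.1.trans (isConj_iff.mpr ⟨g, hg.symm⟩),
          (Cfsg.Agent.H24.Dih.all_conj h hconj v).mp hv2, ρ, hρ, huv⟩
      · exact ⟨hconj.2.trans (isConj_iff.mpr ⟨g, hg.symm⟩),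
          (Cfsg.Agent.H24.Dih.all_conj h hconj v).mp hv2, ρ, hρ, huv⟩

/-- **S4482-QS0**. -/
theorem card_invol_pairs_σ (h : Hyp n P σ τ) (hX : Core n P σ X)
    (hconj : IsConj (σ ^ (2 ^ (n - 2))) τ ∧ IsConj (σ ^ (2 ^ (n - 2))) (σ * τ)) :
    Nat.card {q : G × G // IsConj (σ ^ (2 ^ (n - 2))) q.1 ∧ IsConj (σ ^ (2 ^ (n - 2))) q.2 ∧
        ∃ ρ ∈ X, q.1 * q.2 = σ * ρ} *
      (2 * Nat.card ↥(X ⊓ Subgroup.centralizer ({τ} : Set G)) *
        Nat.card ↥(X ⊓ Subgroup.centralizer ({σ * τ} : Set G))) =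
    Nat.card (Subgroup.centralizer ({σ ^ (2 ^ (n - 2))} : Set G)) * Nat.card X :=
  card_invol_pairs_σ_aux h hX hconj
    (fun g hg => Cfsg.Agent.H71.DihC.iota_σ_τ h hX g hg)
    (fun g hg => Cfsg.Agent.H71.DihC.iota_σ_στ h hX g hg)

end Cfsg.Agent.H54.Dih

section Check

open Cfsg.Agent.H84.Dih

universe u

variable {G : Type u} [Group G] [Finite G] {n : ℕ} {P : Sylow 2 G} {σ τ : G} {X : Subgroup G}

example (h : Hyp n P σ τ) (hX : Core n P σ X)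
    (hconj : IsConj (σ ^ (2 ^ (n - 2))) τ ∧ IsConj (σ ^ (2 ^ (n - 2))) (σ * τ)) :
    Nat.card {q : G × G // IsConj (σ ^ (2 ^ (n - 2))) q.1 ∧ IsConj (σ ^ (2 ^ (n - 2))) q.2 ∧
        ∃ ρ ∈ X, q.1 * q.2 = σ * ρ} *
      (2 * Nat.card ↥(X ⊓ Subgroup.centralizer ({τ} : Set G)) *
        Nat.card ↥(X ⊓ Subgroup.centralizer ({σ * τ} : Set G))) =
    Nat.card (Subgroup.centralizer ({σ ^ (2 ^ (n - 2))} : Set G)) * Nat.card X :=
  Cfsg.Agent.H54.Dih.card_invol_pairs_σ h hX hconj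

end Check
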