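import Mathlib
import Cfsg.Agent.H99.EmDefs
import Cfsg.Agent.H48.EpDefs2

/-!
# EM-PERP (helper54, for helper99's S5990): the orthogonal complement of an invariant
nondegenerate even-dimensional subspace
-/

set_option autoImplicit false

namespace Cfsg.Agent.H54.Em

open Cfsg.Agent.H45 Cfsg.Agent.H42.Spd Cfsg.Agent.H42.Ti Cfsg.Agent.H48.Ep Cfsg.Agent.H77.Tq
  Cfsg.Agent.H77.Tm Cfsg.Agent.H99.Em Module

universe u v

/-- EM-PERP -/
theorem perp (hQS : Cfsg.Agent.H48.Ep.StQSum.{u, v}) : StPerp.{u, v} := by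
  intro F _ _ V _ _ _ Q T hQ hT hev W hW hWnd hWev
  classical
  have hB : ∀ x y : V, QuadraticMap.polarBilin Q (T x) (T y) = QuadraticMap.polarBilin Q x y := by
    intro x y
    simp only [QuadraticMap.polarBilin_apply_apply, QuadraticMap.polar]
    rw [← map_add, hT, hT, hT]
  have hnd : ∀ y : V, (∀ u : V, QuadraticMap.polarBilin Q u y = 0) → y = 0 := by
    intro y hy
    have h1 : y ∈ (⊤ : Submodule F V) ⊓ Cfsg.Agent.H45.perp (QuadraticMap.polarBilin Q) ⊤ :=
      ⟨Submodule.mem_top, fun u _ => hy u⟩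
    have hQ' : (⊤ : Submodule F V) ⊓ Cfsg.Agent.H45.perp (QuadraticMap.polarBilin Q) ⊤ = ⊥ := hQ
    rw [hQ', Submodule.mem_bot] at h1
    exact h1
  have hinj : Function.Injective T := by
    rw [← LinearMap.ker_eq_bot, LinearMap.ker_eq_bot']
    intro y hy
    apply hnd
    intro u
    rw [← hB u y, hy, map_zero]
  have hWnd' : W ⊓ Cfsg.Agent.H45.perp (QuadraticMap.polarBilin Q) W = ⊥ := hWnd
  have hcompl := Cfsg.Agent.H45.isCompl_perp (QuadraticMap.polarBilin Q) W hWnd'
  have hinv : Cfsg.Agent.H45.perp (QuadraticMap.polarBilin Q) W ∈ T.invtSubmodule := by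
    rw [Module.End.mem_invtSubmodule]
    intro y hy
    rw [Submodule.mem_comap]
    intro w hw
    have hinjW : Function.Injective (T.restrict hW) := by
      intro a b hab
      apply Subtype.ext
      apply hinj
      exact congrArg Subtype.val hab
    obtain ⟨w₀, hw₀⟩ := (LinearMap.injective_iff_surjective.mp hinjW) ⟨w, hw⟩
    have h1 : T (w₀ : V) = w := congrArg Subtype.val hw₀
    rw [← h1, hB]
    exact hy _ w₀.2
  have hPnd : QNd Q (Cfsg.Agent.H45.perp (QuadraticMap.polarBilin Q) W) := by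
    show Cfsg.Agent.H45.perp (QuadraticMap.polarBilin Q) W ⊓
      Cfsg.Agent.H45.perp (QuadraticMap.polarBilin Q)
        (Cfsg.Agent.H45.perp (QuadraticMap.polarBilin Q) W) = ⊥
    rw [eq_bot_iff]
    intro y hy
    rw [Submodule.mem_bot]
    apply hnd
    intro u
    have hu : u ∈ W ⊔ Cfsg.Agent.H45.perp (QuadraticMap.polarBilin Q) W := by
      rw [hcompl.sup_eq_top]; exact Submodule.mem_top
    obtain ⟨a, ha, b, hb, rfl⟩ := Submodule.mem_sup.mp hu
    rw [map_add, LinearMap.add_apply, hy.1 a ha, hy.2 b hb, add_zero]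
  have hfr : Module.finrank F ↥(Cfsg.Agent.H45.perp (QuadraticMap.polarBilin Q) W) +
      Module.finrank F W = Module.finrank F V := by
    have := Submodule.finrank_add_eq_of_isCompl hcompl
    omega
  have hPev : Even (Module.finrank F ↥(Cfsg.Agent.H45.perp (QuadraticMap.polarBilin Q) W)) := by
    have h1 : Even (Module.finrank F ↥(Cfsg.Agent.H45.perp (QuadraticMap.polarBilin Q) W) +
      Module.finrank F W) := by rw [hfr]; exact hev
    exact (Nat.even_add.mp h1).mpr hWev
  have horth : ∀ x ∈ W, ∀ y ∈ Cfsg.Agent.H45.perp (QuadraticMap.polarBilin Q) W,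
      QuadraticMap.polar ⇑Q x y = 0 := by
    intro x hx y hy
    have := hy x hx
    rwa [QuadraticMap.polarBilin_apply_apply] at this
  obtain ⟨-, -, h3⟩ := hQS F V Q W (Cfsg.Agent.H45.perp (QuadraticMap.polarBilin Q) W) hWnd hPnd
    horth hWev hPev
  rw [hcompl.sup_eq_top] at h3
  exact ⟨hinv, hPnd, hfr, h3⟩

example (hQS : Cfsg.Agent.H48.Ep.StQSum.{u, v}) : Cfsg.Agent.H99.Em.StPerp.{u, v} := perp hQS

end Cfsg.Agent.H54.Em
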