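import Mathlib
import Cfsg.Agent.H99.EmDefs
import Cfsg.Agent.H49.RankParity
import Cfsg.Agent.H49.SimpleForms

/-!
# EM-RANKPAR (helper54, for helper99's S5990): characteristic `2`, `x ∈ Ω⁻` has `rank (x - 1)` even
-/

set_option autoImplicit false
open scoped MatrixGroups
open scoped Matrix

namespace Cfsg.Agent.H54.Em

open Cfsg.Agent.H45 Cfsg.Agent.H42.Spd Cfsg.Agent.H42.Ti Cfsg.Agent.H48.Ep Cfsg.Agent.H77.Tq
  Cfsg.Agent.H77.Tm Cfsg.Agent.H99.Em Module

universe u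

/-- EM-RANKPAR -/
theorem rankPar : StRankPar.{u} := by
  intro F _ _ k a b h2 hab hk x hx
  classical
  have hd := Cfsg.Agent.H49.disc_ne_zero_of_aniso a b hab
  have hQ := Cfsg.Agent.H49.QMin_nondeg k a b hd
  have hV : finrank F (MI k → F) = 2 * (k + 1) := Cfsg.Agent.H49.finrank_minus k
  have hx' : x ∈ (Cfsg.Omega F (⇑(Cfsg.Agent.H49.QMin k F a b))).map
      (Cfsg.isometryGroup F (⇑(Cfsg.Agent.H49.QMin k F a b))).subtype := hx
  obtain ⟨g, hg, rfl⟩ := hx'
  have h := (Cfsg.Agent.H49.mem_commutator_iff_even_rank_two (Cfsg.Agent.H49.QMin k F a b) h2 hQ hV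
    (Or.inr (by omega)) (by omega) g).mp hg
  have e : Matrix.toLin' (((Cfsg.isometryGroup F (⇑(Cfsg.Agent.H49.QMin k F a b))).subtype g :
      GL (MI k) F) : Matrix (MI k) (MI k) F) - 1 =
      Matrix.mulVecLin (((g : Matrix.GeneralLinearGroup (MI k) F) : Matrix (MI k) (MI k) F) - 1) := by
    apply LinearMap.ext
    intro v
    simp
  rw [e]
  exact h

example : Cfsg.Agent.H99.Em.StRankPar.{u} := rankPar

end Cfsg.Agent.H54.Em
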