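import Mathlib
import Cfsg.Agent.H99.EmDefs2

/-!
# EM-TWOPOS (helper54, for helper99's S5990): characteristic `2`, positive direction for `r = 2`,
from the generic involution theorem I2-POS, EM-PERP, EM-RANKPAR and EM-BRIDGE
-/

set_option autoImplicit false
open scoped MatrixGroups
open scoped Matrix

namespace Cfsg.Agent.H54.Em

open Cfsg.Agent.H45 Cfsg.Agent.H42.Spd Cfsg.Agent.H42.Ti Cfsg.Agent.H48.Ep Cfsg.Agent.H77.Tq
  Cfsg.Agent.H77.Tm Cfsg.Agent.H99.Em Module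

universe u

/-- EM-TWOPOS -/
theorem twoPos (hI2 : Cfsg.Agent.H99.Em.StI2Pos.{u, u}) (hPerp : Cfsg.Agent.H99.Em.StPerp.{u, u})
    (hRank : Cfsg.Agent.H99.Em.StRankPar.{u}) (hBr : Cfsg.Agent.H99.Em.StBridge.{u}) :
    Cfsg.Agent.H99.Em.StTwoPos.{u} := by
  intro F _ _ k m a b h2 hab hk hmev hm2 hmk hcond x hx hx2
  classical
  obtain ⟨hQnd, hQnp, hfr, hEW, hiso⟩ := hBr F k m a b hab
  have hxiso : x ∈ Cfsg.isometryGroup F (Cfsg.quadFormMinus k F a b) := by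
    have hx' : x ∈ (Cfsg.Omega F (Cfsg.quadFormMinus k F a b)).map
      (Cfsg.isometryGroup F (Cfsg.quadFormMinus k F a b)).subtype := hx
    obtain ⟨g, -, rfl⟩ := hx'
    exact g.2
  have hTiso := (hiso x).mp hxiso
  have hTT : Matrix.toLin' (x : Matrix (MI k) (MI k) F) *
      Matrix.toLin' (x : Matrix (MI k) (MI k) F) = 1 := by
    have h1 : ((x ^ 2 : GL (MI k) F) : Matrix (MI k) (MI k) F) = 1 := by rw [hx2]; rfl
    rw [pow_two, Units.val_mul] at h1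
    rw [Module.End.mul_eq_comp, ← Matrix.toLin'_mul, h1, Matrix.toLin'_one]
    rfl
  have hrk := hRank F k a b h2 hab hk x hx
  have hpl : QPlus (Cfsg.Agent.H49.QMin k F a b) ⊤ ↔ False := iff_false_intro hQnp
  have hmev' : Even (2 * k + 2 - m) := by
    obtain ⟨c, hc⟩ := hmev
    exact ⟨k + 1 - c, by omega⟩
  have hc4 : (2 * k + 2 - m) % 4 = 0 ∨
      (False ∧ Module.finrank F (MI k → F) % 4 = 2) ∨
      (¬ False ∧ Module.finrank F (MI k → F) % 4 = 0) := by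
    rw [hfr]
    by_cases hke : Even (k + 1)
    · obtain ⟨c, hc⟩ := hke
      right; right
      exact ⟨not_false, by omega⟩
    · rcases hcond with h | h
      · exact absurd h hke
      · obtain ⟨c, hc⟩ := Nat.not_even_iff_odd.mp hke
        left
        omega
  obtain ⟨W', hW'inv, hW'nd, hW'fr, hW'pl⟩ := hI2 F (MI k → F) (Cfsg.Agent.H49.QMin k F a b)
    (Matrix.toLin' (x : Matrix (MI k) (MI k) F)) False (2 * k + 2 - m) h2 hQnd hTiso hTT hrk hpl
    hmev' (by omega) (by rw [hfr]; omega) hc4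
  obtain ⟨hPinv, hPnd, hPfr, hPty⟩ := hPerp F (MI k → F) (Cfsg.Agent.H49.QMin k F a b)
    (Matrix.toLin' (x : Matrix (MI k) (MI k) F)) hQnd hTiso (by rw [hfr]; exact ⟨k + 1, by ring⟩)
    W' hW'inv hW'nd (by rw [hW'fr]; exact hmev')
  refine ⟨Cfsg.Agent.H45.perp (QuadraticMap.polarBilin (Cfsg.Agent.H49.QMin k F a b)) W',
    (hEW _).mpr ⟨by rw [hfr, hW'fr] at hPfr; omega, hPnd, ?_⟩, ?_⟩
  · intro hp
    exact hQnp (hPty.mpr ⟨fun _ => hp, fun _ => hW'pl⟩)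
  · rw [Submodule.map_le_iff_le_comap]
    exact (Module.End.mem_invtSubmodule _).mp hPinv

example (hI2 : Cfsg.Agent.H99.Em.StI2Pos.{u, u}) (hPerp : Cfsg.Agent.H99.Em.StPerp.{u, u})
    (hRank : Cfsg.Agent.H99.Em.StRankPar.{u}) (hBr : Cfsg.Agent.H99.Em.StBridge.{u}) :
    Cfsg.Agent.H99.Em.StTwoPos.{u} := twoPos hI2 hPerp hRank hBr

end Cfsg.Agent.H54.Em
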