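import Mathlib
import Cfsg.Agent.H77.FxDefs
import Cfsg.Agent.H54.FxAut

/-!
# S5975-SEMI (team project of helper77)

An element of the normalizer of a field subalgebra `K` of prime degree `k` that does not
centralize `K` has a fixed space of dimension at most `2 d / k`.
-/

set_option autoImplicit false

namespace Cfsg.Agent.H54.Fx

open Cfsg Cfsg.Agent.H77.Fx Module Matrix

universe u v w

/-- Fixed vectors of a `σ`-semilinear map that are independent over the fixed field are
independent over the big field. -/
theorem linearIndependent_of_semilinear_fixed {F : Type u} {E : Type v} {V : Type w} [Field F]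
    [Field E] [Algebra F E] [AddCommGroup V] [Module F V] [Module E V] [IsScalarTower F E V]
    (σ : E ≃ₐ[F] E) (hfix : ∀ a : E, σ a = a → ∃ c : F, algebraMap F E c = a)
    (T : V →ₗ[F] V) (hT : ∀ (a : E) (v : V), T (a • v) = σ a • T v)
    {ι : Type*} (u : ι → V) (hu : ∀ i, T (u i) = u i) (hli : LinearIndependent F u) :
    LinearIndependent E u := by
  classical
  rw [linearIndependent_iff']
  intro s
  induction s using Finset.induction_on with
  | empty =>
    intro g _ i hi
    exact absurd hi (Finset.notMem_empty i)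
  | insert i₀ t hi₀ ih =>
    intro g hg
    by_cases hg0 : g i₀ = 0
    · rw [Finset.sum_insert hi₀, hg0, zero_smul, zero_add] at hg
      intro i hi
      rcases Finset.mem_insert.1 hi with rfl | hit
      · exact hg0
      · exact ih g hg i hit
    · exfalso
      have hrel : u i₀ + ∑ i ∈ t, ((g i₀)⁻¹ * g i) • u i = 0 := by
        have h1 := congrArg (fun v => (g i₀)⁻¹ • v) hg
        simp only [smul_zero] at h1
        rw [Finset.sum_insert hi₀, smul_add, smul_smul, inv_mul_cancel₀ hg0, one_smul,
          Finset.smul_sum] at h1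
        rw [← h1]
        congr 1
        refine Finset.sum_congr rfl fun i _ => ?_
        rw [smul_smul]
      have hrelT : u i₀ + ∑ i ∈ t, σ ((g i₀)⁻¹ * g i) • u i = 0 := by
        have h1 := congrArg T hrel
        rw [map_add, map_sum, map_zero, hu i₀] at h1
        rw [← h1]
        congr 1
        refine Finset.sum_congr rfl fun i _ => ?_
        rw [hT, hu i]
      have hdiff : ∑ i ∈ t, (σ ((g i₀)⁻¹ * g i) - (g i₀)⁻¹ * g i) • u i = 0 := by
        have h1 : (u i₀ + ∑ i ∈ t, σ ((g i₀)⁻¹ * g i) • u i) -
            (u i₀ + ∑ i ∈ t, ((g i₀)⁻¹ * g i) • u i) = 0 := by rw [hrelT, hrel, sub_zero]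
        rw [add_sub_add_left_eq_sub, ← Finset.sum_sub_distrib] at h1
        rw [← h1]
        refine Finset.sum_congr rfl fun i _ => ?_
        rw [sub_smul]
      have hfixed : ∀ i ∈ t, σ ((g i₀)⁻¹ * g i) = (g i₀)⁻¹ * g i := fun i hi =>
        sub_eq_zero.1 (ih _ hdiff i hi)
      have hc : ∀ i, ∃ c : F, i ∈ t → algebraMap F E c = (g i₀)⁻¹ * g i := by
        intro i
        by_cases hi : i ∈ t
        · obtain ⟨c, hc⟩ := hfix _ (hfixed i hi)
          exact ⟨c, fun _ => hc⟩
        · exact ⟨0, fun h => absurd h hi⟩
      choose c hc using hc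
      have hF : ∑ i ∈ insert i₀ t, (if i = i₀ then (1 : F) else c i) • u i = 0 := by
        rw [Finset.sum_insert hi₀, if_pos rfl, one_smul, ← hrel]
        congr 1
        refine Finset.sum_congr rfl fun i hi => ?_
        have hne : i ≠ i₀ := fun h => hi₀ (h ▸ hi)
        rw [if_neg hne, ← hc i hi, algebraMap_smul]
      have h1 := linearIndependent_iff'.1 hli (insert i₀ t) _ hF i₀ (Finset.mem_insert_self i₀ t)
      rw [if_pos rfl] at h1
      exact one_ne_zero h1

/-- In an extension of prime degree, the fixed points of a nontrivial automorphism lie in the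
base field. -/
theorem fixed_mem_base {F : Type u} {E : Type v} [Field F] [Field E] [Algebra F E]
    (hk : (Module.finrank F E).Prime) (σ : E ≃ₐ[F] E) (hσ : σ ≠ 1) (a : E) (ha : σ a = a) :
    ∃ c : F, algebraMap F E c = a := by
  have hsimple := Subalgebra.isSimpleOrder_of_finrank_prime F E hk
  rcases eq_bot_or_eq_top ((σ : E →ₐ[F] E).equalizer (AlgHom.id F E)) with h | h
  · have h1 : a ∈ (σ : E →ₐ[F] E).equalizer (AlgHom.id F E) := by
      rw [AlgHom.mem_equalizer]
      exact ha
    rw [h, Algebra.mem_bot] at h1
    exact h1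
  · exfalso
    apply hσ
    ext x
    have h1 : x ∈ (σ : E →ₐ[F] E).equalizer (AlgHom.id F E) := by
      rw [h]
      exact Algebra.mem_top
    rw [AlgHom.mem_equalizer] at h1
    exact h1

/-- Dimension count. -/
theorem finrank_mul_le_of_indep {F : Type u} {E : Type v} {V : Type w} [Field F] [Field E]
    [Algebra F E] [AddCommGroup V] [Module F V] [Module E V] [IsScalarTower F E V]
    [FiniteDimensional F E] [FiniteDimensional F V] (U : Submodule F V)
    (h : ∀ (n : ℕ) (u : Fin n → V), (∀ i, u i ∈ U) → LinearIndependent F u →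
      LinearIndependent E u) :
    Module.finrank F E * Module.finrank F U ≤ Module.finrank F V := by
  have hEV : FiniteDimensional E V := FiniteDimensional.right F E V
  have hli : LinearIndependent F (fun i => ((Module.finBasis F U i : U) : V)) :=
    (Module.finBasis F U).linearIndependent.map' U.subtype U.ker_subtype
  have hE := h _ (fun i => ((Module.finBasis F U i : U) : V)) (fun i => (Module.finBasis F U i).2) hli
  have hcard : Module.finrank F U ≤ Module.finrank E V := by
    have h1 := hE.fintype_card_le_finrank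
    rwa [Fintype.card_fin] at h1
  rw [← Module.finrank_mul_finrank F E V]
  exact Nat.mul_le_mul_left _ hcard

/-- The abstract statement, for a ring that is a field. -/
theorem semilinear_fixed_bound {F : Type u} {A : Type v} {V : Type w} [Field F] [Ring A]
    [Algebra F A] (hA : IsField A) [AddCommGroup V] [Module F V] [Module A V]
    [IsScalarTower F A V] [Module.Finite F A] [Module.Finite F V]
    (hk : (Module.finrank F A).Prime) (σ : A ≃ₐ[F] A) (hσ : σ ≠ 1) (T : V →ₗ[F] V)
    (hT : ∀ (a : A) (v : V), T (a • v) = σ a • T v) :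
    Module.finrank F A * Module.finrank F (LinearMap.ker (T - 1)) ≤ Module.finrank F V := by
  let _ : Field A := hA.toField
  refine finrank_mul_le_of_indep (E := A) (LinearMap.ker (T - 1)) ?_
  intro n u hu hli
  refine linearIndependent_of_semilinear_fixed σ (fixed_mem_base hk σ hσ) T hT u ?_ hli
  intro i
  have h1 := hu i
  rw [LinearMap.mem_ker, LinearMap.sub_apply, Module.End.one_apply, sub_eq_zero] at h1
  exact h1

/-- S5975-SEMI. -/
theorem semi : StSemi.{u} := by
  intro F _ _ d k K hK hk y hy hnc
  obtain ⟨σ, hσ⟩ := exists_conjAut K y hy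
  have hfield : IsField ↥K := isField_of_fieldSubalgebra K hK hk.ne_zero
  have hfin : (Module.finrank F ↥K).Prime := by rw [hK.finrank_eq]; exact hk
  have hσne : σ ≠ 1 := by
    obtain ⟨a, ha, hne⟩ := hnc
    intro h1
    apply hne
    have h2 := hσ ⟨a, ha⟩
    rw [h1, AlgEquiv.one_apply] at h2
    calc (y : Mat d F) * a = (y : Mat d F) * a *
          (((y⁻¹ : Matrix.GeneralLinearGroup (Fin d ⊕ Fin d) F) : Mat d F) * (y : Mat d F)) := by
          rw [Units.inv_mul, mul_one]
      _ = ((y : Mat d F) * a *
          ((y⁻¹ : Matrix.GeneralLinearGroup (Fin d ⊕ Fin d) F) : Mat d F)) * (y : Mat d F) := by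
          simp only [mul_assoc]
      _ = a * (y : Mat d F) := by rw [← h2]
  have hT : ∀ (a : ↥K) (v : Vec d F), Matrix.toLin' (y : Mat d F) (a • v) =
      σ a • Matrix.toLin' (y : Mat d F) v := by
    intro a v
    show Matrix.toLin' (y : Mat d F) ((a : Mat d F) *ᵥ v) =
      ((σ a : ↥K) : Mat d F) *ᵥ Matrix.toLin' (y : Mat d F) v
    rw [Matrix.toLin'_apply, Matrix.toLin'_apply, hσ, Matrix.mulVec_mulVec, Matrix.mulVec_mulVec]
    congr 1
    simp only [mul_assoc, Units.inv_mul, mul_one]
  have key := semilinear_fixed_bound (V := Vec d F) hfield hfin σ hσne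
    (Matrix.toLin' (y : Mat d F)) hT
  rw [hK.finrank_eq] at key
  have hV : Module.finrank F (Vec d F) = 2 * d := by
    rw [Module.finrank_fintype_fun_eq_card, Fintype.card_sum, Fintype.card_fin]
    ring
  rw [hV] at key
  exact key

end Cfsg.Agent.H54.Fx

universe u in
example : Cfsg.Agent.H77.Fx.StSemi.{u} := Cfsg.Agent.H54.Fx.semi
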