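import Mathlib
import Cfsg.Agent.H54.BSW7
import Cfsg.Agent.H19.ZId6

/-!
# From the Brauer–Suzuki–Wall structure to `PSL(2, q)` (helper54)

`psl_of_struct`: a finite simple group `G` with a subgroup `Q` of order `q > 3` such that
`2 |G| = q (q + 1) (q - 1)`, `C_G(x) = Q` for `x ∈ Q^#` and `N_G(Q) = Q D` with `|D| = (q - 1) / 2`,
`Q ∩ D = 1`, is a Zassenhaus group on the cosets of `N_G(Q)` and hence isomorphic to `PSL(2, F)`
for a finite field `F` of odd order.
-/

set_option autoImplicit false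
set_option linter.unusedSectionVars false
set_option linter.unusedVariables false
set_option linter.style.haveILetI false

namespace Cfsg.Agent.H54.GW

open Cfsg MulAction

universe u

/-- An element whose order is coprime to the index of a normal subgroup lies in it. -/
theorem mem_of_coprime_index {H : Type*} [Group H] [Finite H] (N : Subgroup H) [N.Normal] (x : H)
    (h : (orderOf x).Coprime N.index) : x ∈ N := by
  rw [← QuotientGroup.eq_one_iff]
  have h1 : ((x : H ⧸ N)) ^ orderOf x = 1 := by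
    rw [← QuotientGroup.mk_pow, pow_orderOf_eq_one]; rfl
  have h2 : ((x : H ⧸ N)) ^ N.index = 1 := by
    rw [Subgroup.index_eq_card]; exact pow_card_eq_one'
  have h3 : orderOf (x : H ⧸ N) ∣ Nat.gcd (orderOf x) N.index :=
    Nat.dvd_gcd (orderOf_dvd_of_pow_eq_one h1) (orderOf_dvd_of_pow_eq_one h2)
  rw [Nat.Coprime.gcd_eq_one h] at h3
  exact orderOf_eq_one_iff.mp (Nat.dvd_one.mp h3)

theorem orderOf_conj' {G : Type*} [Group G] (h x : G) : orderOf (h * x * h⁻¹) = orderOf x := by
  have : h * x * h⁻¹ = MulAut.conj h x := by simp [MulAut.conj_apply]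
  rw [this, MulEquiv.orderOf_eq]

/-- The index of `Q` in `N = Q D` when `Q ∩ D = 1` and `Q` is normal in `N`. -/
theorem index_subgroupOf_sup {G : Type*} [Group G] (Q D N : Subgroup G)
    (hQN : (Q.subgroupOf N).Normal) (hN : N = Q ⊔ D) (hQD : Q ⊓ D = ⊥) :
    (Q.subgroupOf N).index = Nat.card D := by
  have hQle : Q ≤ N := by rw [hN]; exact le_sup_left
  have hDle : D ≤ N := by rw [hN]; exact le_sup_right
  have h1 : Q.subgroupOf N ⊔ D.subgroupOf N = ⊤ := by
    rw [← Subgroup.subgroupOf_sup hQle hDle, ← hN]; exact Subgroup.subgroupOf_self _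
  have h2 : Q.subgroupOf N ⊓ D.subgroupOf N = ⊥ := by
    rw [eq_bot_iff]
    intro x hx
    rw [Subgroup.mem_inf, Subgroup.mem_subgroupOf, Subgroup.mem_subgroupOf] at hx
    have h3 : (x : G) ∈ Q ⊓ D := Subgroup.mem_inf.mpr hx
    rw [hQD, Subgroup.mem_bot] at h3
    rw [Subgroup.mem_bot]
    exact Subtype.ext h3
  calc (Q.subgroupOf N).index = (Q.subgroupOf N).relIndex ⊤ := (Subgroup.relIndex_top_right _).symm
    _ = (Q.subgroupOf N).relIndex (Q.subgroupOf N ⊔ D.subgroupOf N) := by rw [h1]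
    _ = (Q.subgroupOf N).relIndex (D.subgroupOf N) := Subgroup.relIndex_sup_left _ _
    _ = (Q.subgroupOf N ⊓ D.subgroupOf N).relIndex (D.subgroupOf N) :=
        (Subgroup.inf_relIndex_right _ _).symm
    _ = Nat.card (D.subgroupOf N) := by rw [h2, Subgroup.relIndex_bot_left]
    _ = Nat.card D := Nat.card_congr (Subgroup.subgroupOfEquivOfLe hDle).toEquiv

theorem coprime_two_mul_add_one (d : ℕ) : Nat.Coprime (2 * d + 1) d := by
  apply Nat.isCoprime_iff_coprime.mp
  exact ⟨1, -2, by push_cast; ring⟩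

set_option maxHeartbeats 1000000 in
theorem psl_of_struct {G : Type u} [Group G] [Finite G] [IsSimpleGroup G] (Q D : Subgroup G)
    (hcard : 2 * Nat.card G = Nat.card Q * (Nat.card Q + 1) * (Nat.card Q - 1))
    (hQ : ∀ x ∈ Q, x ≠ 1 → Subgroup.centralizer ({x} : Set G) = Q)
    (hD : 2 * Nat.card D + 1 = Nat.card Q) (hQD : Q ⊓ D = ⊥)
    (hN : Subgroup.normalizer (Q : Set G) = Q ⊔ D) (hq : 3 < Nat.card Q) :
    ∃ (F : Type) (_ : Field F) (_ : Fintype F), Odd (Fintype.card F) ∧
      Nonempty (G ≃* Matrix.ProjectiveSpecialLinearGroup (Fin 2) F) := by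
  classical
  haveI : Fintype G := Fintype.ofFinite G
  obtain ⟨N, hNdef⟩ : ∃ N : Subgroup G, N = Subgroup.normalizer (Q : Set G) := ⟨_, rfl⟩
  rw [← hNdef] at hN
  have hQle : Q ≤ N := by rw [hN]; exact le_sup_left
  have hDle : D ≤ N := by rw [hN]; exact le_sup_right
  haveI hQN : (Q.subgroupOf N).Normal := by rw [hNdef]; exact Subgroup.normal_in_normalizer
  have hidx : (Q.subgroupOf N).index = Nat.card D := index_subgroupOf_sup Q D N hQN hN hQD
  have hcQ' : Nat.card (Q.subgroupOf N) = Nat.card Q :=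
    Nat.card_congr (Subgroup.subgroupOfEquivOfLe hQle).toEquiv
  have hcN : Nat.card N = Nat.card D * Nat.card Q := by
    rw [← Subgroup.index_mul_card (Q.subgroupOf N), hidx, hcQ']
  have hdpos : 0 < Nat.card D := Nat.card_pos
  have hqpos : 0 < Nat.card Q := Nat.card_pos
  haveI : Fintype (G ⧸ N) := Fintype.ofFinite _
  have hΩ : Fintype.card (G ⧸ N) = Nat.card Q + 1 := by
    rw [← Nat.card_eq_fintype_card, ← Subgroup.index_eq_card]
    have h1 := Subgroup.index_mul_card N
    rw [hcN] at h1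
    have h2 : Nat.card Q - 1 = 2 * Nat.card D := by omega
    rw [h2, ← h1] at hcard
    have h3 : N.index * (Nat.card D * Nat.card Q) = (Nat.card Q + 1) * (Nat.card D * Nat.card Q) := by
      nlinarith
    exact Nat.eq_of_mul_eq_mul_right (Nat.mul_pos hdpos hqpos) h3
  -- the base point
  obtain ⟨a, hadef⟩ : ∃ a : G ⧸ N, a = ((1 : G) : G ⧸ N) := ⟨_, rfl⟩
  have hfix : ∀ g h : G, g • (h : G ⧸ N) = (h : G ⧸ N) ↔ h⁻¹ * g * h ∈ N := by
    intro g h
    rw [MulAction.Quotient.smul_coe, QuotientGroup.eq, smul_eq_mul, ← N.inv_mem_iff]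
    have e : ((g * h)⁻¹ * h)⁻¹ = h⁻¹ * g * h := by group
    rw [e]
  have hstab : ∀ g : G, g • a = a ↔ g ∈ N := by
    intro g
    rw [hadef, hfix]
    have e : (1 : G)⁻¹ * g * 1 = g := by group
    rw [e]
  have htrans : ∀ α : G ⧸ N, ∃ g : G, g • α = a := by
    intro α
    induction α using QuotientGroup.induction_on with
    | H k =>
      refine ⟨k⁻¹, ?_⟩
      rw [MulAction.Quotient.smul_coe, smul_eq_mul, inv_mul_cancel, hadef]
  have hcop : Nat.Coprime (Nat.card Q) (Nat.card D) := by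
    rw [← hD]; exact coprime_two_mul_add_one _
  -- nonidentity elements of `Q` fix only the base point
  have K1 : ∀ x ∈ Q, x ≠ 1 → ∀ c : G ⧸ N, x • c = c → c = a := by
    intro x hx hx1 c hc
    induction c using QuotientGroup.induction_on with
    | H h =>
      rw [hfix] at hc
      have hyQ : h⁻¹ * x * h ∈ Q := by
        have h1 := mem_of_coprime_index (Q.subgroupOf N) (⟨h⁻¹ * x * h, hc⟩ : N) (by
          rw [Subgroup.orderOf_mk, hidx]
          have h2 : orderOf (h⁻¹ * x * h) = orderOf x := by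
            have := orderOf_conj' h⁻¹ x
            rwa [inv_inv] at this
          rw [h2]
          exact Nat.Coprime.coprime_dvd_left (Subgroup.orderOf_dvd_natCard Q hx) hcop)
        exact Subgroup.mem_subgroupOf.mp h1
      have hh : h⁻¹ ∈ Subgroup.normalizer (Q : Set G) :=
        Cfsg.Agent.H54.BSW.mem_normalizer_of_conj hQ hx hx1 hyQ (by rw [inv_inv])
      rw [← hNdef] at hh
      rw [hadef, QuotientGroup.eq, mul_one]
      exact hh
  have hQa : ∀ x ∈ Q, x • a = a := fun x hx => (hstab x).mpr (hQle hx)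
  -- `Q` is regular on the other points
  have hreg : ∀ b c : G ⧸ N, b ≠ a → c ≠ a → ∃ x ∈ Q, x • b = c := by
    intro b c hb hc
    have hinj : Function.Injective (fun x : Q => (x : G) • b) := by
      intro x y hxy
      have h1 : ((y : G)⁻¹ * x) • b = b := by
        rw [mul_smul]
        show (y : G)⁻¹ • ((x : G) • b) = b
        have h2 : (x : G) • b = (y : G) • b := hxy
        rw [h2, inv_smul_smul]
      by_contra hne
      have h3 : (y : G)⁻¹ * x ≠ 1 := by
        intro h
        apply hne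
        apply Subtype.ext
        have : (x : G) = y * ((y : G)⁻¹ * x) := by group
        rw [this, h, mul_one]
      exact hb (K1 _ (Q.mul_mem (Q.inv_mem y.2) x.2) h3 b h1)
    have hsub : (Finset.univ.image (fun x : Q => (x : G) • b)) ⊆ Finset.univ.erase a := by
      intro ω hω
      rw [Finset.mem_image] at hω
      obtain ⟨x, -, rfl⟩ := hω
      rw [Finset.mem_erase]
      refine ⟨?_, Finset.mem_univ _⟩
      intro h
      apply hb
      have h1 : (x : G) • b = (x : G) • a := by rw [h, hQa x x.2]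
      exact smul_left_cancel _ h1
    have hcardim : (Finset.univ.image (fun x : Q => (x : G) • b)).card = Nat.card Q := by
      rw [Finset.card_image_of_injective _ hinj, Finset.card_univ, Nat.card_eq_fintype_card]
    have hcarder : (Finset.univ.erase a : Finset (G ⧸ N)).card = Nat.card Q := by
      rw [Finset.card_erase_of_mem (Finset.mem_univ _), Finset.card_univ, hΩ]
      omega
    have heq := Finset.eq_of_subset_of_card_le hsub (by rw [hcardim, hcarder])
    have hcmem : c ∈ Finset.univ.image (fun x : Q => (x : G) • b) := by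
      rw [heq, Finset.mem_erase]
      exact ⟨hc, Finset.mem_univ _⟩
    rw [Finset.mem_image] at hcmem
    obtain ⟨x, -, hx⟩ := hcmem
    exact ⟨x, x.2, hx⟩
  -- 2-transitivity
  have h2t : IsMultiplyPretransitive G (G ⧸ N) 2 := by
    rw [MulAction.is_two_pretransitive_iff]
    intro α β γ δ hαβ hγδ
    obtain ⟨g₁, h1⟩ := htrans α
    obtain ⟨g₂, h2⟩ := htrans γ
    have hb : g₁ • β ≠ a := by
      intro h
      apply hαβ
      have : g₁ • α = g₁ • β := by rw [h1, h]
      exact smul_left_cancel _ this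
    have hd : g₂ • δ ≠ a := by
      intro h
      apply hγδ
      have : g₂ • γ = g₂ • δ := by rw [h2, h]
      exact smul_left_cancel _ this
    obtain ⟨x, hx, hxe⟩ := hreg _ _ hb hd
    refine ⟨g₂⁻¹ * x * g₁, ?_, ?_⟩
    · rw [mul_smul, mul_smul, h1, hQa x hx, ← h2, inv_smul_smul]
    · rw [mul_smul, mul_smul, hxe, inv_smul_smul]
  -- three-point property
  have h3p : ∀ g : G, ∀ α β γ : G ⧸ N, α ≠ β → β ≠ γ → α ≠ γ → g • α = α → g • β = β →
      g • γ = γ → g = 1 := by
    intro g α β γ hαβ hβγ hαγ hα hβ hγ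
    obtain ⟨k, hk⟩ := htrans α
    have hg'a : (k * g * k⁻¹) • a = a := by
      rw [mul_smul, mul_smul, ← hk, inv_smul_smul, hα]
    have hg'b : (k * g * k⁻¹) • (k • β) = k • β := by
      rw [mul_smul, mul_smul, inv_smul_smul, hβ]
    have hg'c : (k * g * k⁻¹) • (k • γ) = k • γ := by
      rw [mul_smul, mul_smul, inv_smul_smul, hγ]
    have hb : k • β ≠ a := by
      intro h
      apply hαβ
      have : k • α = k • β := by rw [hk, h]
      exact smul_left_cancel _ this
    have hc : k • γ ≠ a := by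
      intro h
      apply hαγ
      have : k • α = k • γ := by rw [hk, h]
      exact smul_left_cancel _ this
    have hbc : k • β ≠ k • γ := fun h => hβγ (smul_left_cancel _ h)
    obtain ⟨x, hx, hxe⟩ := hreg _ _ hb hc
    have hx1 : x ≠ 1 := by
      intro h
      rw [h, one_smul] at hxe
      exact hbc hxe
    have hg'N : k * g * k⁻¹ ∈ N := (hstab _).mp hg'a
    have hg'N' : (k * g * k⁻¹)⁻¹ ∈ Subgroup.normalizer (Q : Set G) := by
      rw [← hNdef]; exact N.inv_mem hg'N
    have hw1 : (k * g * k⁻¹)⁻¹ * x⁻¹ * (k * g * k⁻¹) ∈ Q := by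
      have := (Subgroup.mem_set_normalizer_iff.mp hg'N' x⁻¹).mp (Q.inv_mem hx)
      rwa [inv_inv] at this
    have hwQ : (k * g * k⁻¹)⁻¹ * x⁻¹ * (k * g * k⁻¹) * x ∈ Q := Q.mul_mem hw1 hx
    have hwfix : ((k * g * k⁻¹)⁻¹ * x⁻¹ * (k * g * k⁻¹) * x) • (k • β) = k • β := by
      rw [mul_smul, mul_smul, mul_smul, hxe, hg'c, ← hxe, inv_smul_smul]
      rw [inv_smul_eq_iff, hg'b]
    have hw : (k * g * k⁻¹)⁻¹ * x⁻¹ * (k * g * k⁻¹) * x = 1 := by
      by_contra hne
      exact hb (K1 _ hwQ hne _ hwfix)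
    have hcomm : (k * g * k⁻¹) * x = x * (k * g * k⁻¹) := by
      have e : (k * g * k⁻¹) * x =
          x * (k * g * k⁻¹) * ((k * g * k⁻¹)⁻¹ * x⁻¹ * (k * g * k⁻¹) * x) := by group
      rw [e, hw, mul_one]
    have hg'Q : k * g * k⁻¹ ∈ Q := by
      rw [← hQ x hx hx1]
      exact Cfsg.Agent.H54.BSW.mem_cent.mpr hcomm
    have hg'1 : k * g * k⁻¹ = 1 := by
      by_contra hne
      exact hb (K1 _ hg'Q hne _ hg'b)
    have e : g = k⁻¹ * (k * g * k⁻¹) * k := by group
    rw [e, hg'1]; group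
  -- three distinct points
  have h3card : 2 < Fintype.card (G ⧸ N) := by rw [hΩ]; omega
  obtain ⟨p₁, p₂, p₃, h12, h13, h23⟩ := Fintype.two_lt_card_iff.mp h3card
  -- a second point
  obtain ⟨b, hb⟩ : ∃ b : G ⧸ N, b ≠ a := by
    by_cases h : p₁ = a
    · exact ⟨p₂, fun h' => h12 (h.trans h'.symm)⟩
    · exact ⟨p₁, h⟩
  have hab : a ≠ b := fun h => hb h.symm
  have hcG := Cfsg.Agent.H19.card_eq_of_two_pretransitive h2t hab
  rw [Nat.card_eq_fintype_card (α := G ⧸ N), hΩ] at hcG
  have hcab : Nat.card (stabilizer G a ⊓ stabilizer G b : Subgroup G) = Nat.card D := by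
    have h1 := Subgroup.index_mul_card N
    rw [hcN, Subgroup.index_eq_card, Nat.card_eq_fintype_card, hΩ] at h1
    rw [← h1] at hcG
    have h2 : (Nat.card Q + 1) * (Nat.card Q + 1) - (Nat.card Q + 1) =
        (Nat.card Q + 1) * Nat.card Q := by
      have : (Nat.card Q + 1) * (Nat.card Q + 1) =
          (Nat.card Q + 1) * Nat.card Q + (Nat.card Q + 1) := by ring
      omega
    rw [h2] at hcG
    have h3 : (Nat.card Q + 1) * Nat.card Q * Nat.card D = (Nat.card Q + 1) * Nat.card Q *
        Nat.card (stabilizer G a ⊓ stabilizer G b : Subgroup G) := by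
      rw [← hcG]; ring
    exact (Nat.eq_of_mul_eq_mul_left (Nat.mul_pos (Nat.succ_pos _) hqpos) h3).symm
  have hZ : IsZassenhausGroup G (G ⧸ N) := by
    refine ⟨⟨?_⟩, h2t, h3p, ?_, ?_⟩
    · intro g₁ g₂ h
      have h1 : ∀ ω : G ⧸ N, (g₂⁻¹ * g₁) • ω = ω := by
        intro ω
        rw [mul_smul, h ω, inv_smul_smul]
      have h2 := h3p (g₂⁻¹ * g₁) p₁ p₂ p₃ h12 h23 h13 (h1 _) (h1 _) (h1 _)
      have e : g₁ = g₂ * (g₂⁻¹ * g₁) := by group
      rw [e, h2, mul_one]
    · have h1 : (stabilizer G a ⊓ stabilizer G b : Subgroup G) ≠ ⊥ := by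
        intro h
        rw [h, Subgroup.card_bot] at hcab
        omega
      obtain ⟨g, hg1⟩ := (Subgroup.ne_bot_iff_exists_ne_one).mp h1
      refine ⟨g, fun h => hg1 (Subtype.ext h), a, b, hab, ?_, ?_⟩
      · exact (Subgroup.mem_inf.mp g.2).1
      · exact (Subgroup.mem_inf.mp g.2).2
    · intro N' hN' hpre
      rcases hN'.eq_bot_or_eq_top with h | h
      · exfalso
        subst h
        obtain ⟨g, hg⟩ := hpre.exists_smul_eq a b
        have h1 : (g : G) = 1 := Subgroup.mem_bot.mp g.2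
        have h2 : (g : G) • a = b := hg
        rw [h1, one_smul] at h2
        exact hab h2
      · subst h
        refine ⟨a, ?_⟩
        have hQne : Q ≠ ⊥ := by
          intro h
          rw [h, Subgroup.card_bot] at hq
          omega
        obtain ⟨x, hx1⟩ := (Subgroup.ne_bot_iff_exists_ne_one).mp hQne
        intro hbot
        have hmem : (⟨(x : G), Subgroup.mem_top _⟩ : (⊤ : Subgroup G)) ∈
            (⊥ : Subgroup (⊤ : Subgroup G)) := by
          rw [← hbot]
          refine mem_stabilizer_iff.mpr ?_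
          exact hQa x x.2
        rw [Subgroup.mem_bot] at hmem
        apply hx1
        apply Subtype.ext
        have h6 : ((⟨(x : G), Subgroup.mem_top _⟩ : (⊤ : Subgroup G)) : G) =
            ((1 : (⊤ : Subgroup G)) : G) := congrArg Subtype.val hmem
        exact h6
  have hd : 2 * Nat.card (stabilizer G a ⊓ stabilizer G b : Subgroup G) =
      Fintype.card (G ⧸ N) - 2 := by
    rw [hcab, hΩ]; omega
  have hFle : Q ≤ stabilizer G a := fun x hx => mem_stabilizer_iff.mpr (hQa x hx)
  have hFcard : Nat.card Q + 1 = Fintype.card (G ⧸ N) := hΩ.symm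
  have hfin : ∃ (p f : ℕ) (K : Type) (_ : Field K) (_ : Fintype K), p.Prime ∧ p ≠ 2 ∧
      Fintype.card K = p ^ f ∧ Fintype.card (G ⧸ N) = p ^ f + 1 ∧ ringChar K ≠ 2 ∧
      Nonempty (G ≃* Matrix.ProjectiveSpecialLinearGroup (Fin 2) K) := by
    rcases Nat.even_or_odd (Nat.card (stabilizer G a ⊓ stabilizer G b : Subgroup G)) with he | ho
    · exact Cfsg.Agent.H19.zass_psl_even hZ hab he hd Q hFle hFcard K1
    · exact Cfsg.Agent.H19.zass_psl_odd hZ hab ho hd Q hFle hFcard K1
  obtain ⟨p, f, K, iK, iKf, hp, hp2, hcK, -, -, hiso⟩ := hfin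
  refine ⟨K, iK, iKf, ?_, hiso⟩
  rw [hcK]
  exact (hp.odd_of_ne_two hp2).pow

end Cfsg.Agent.H54.GW
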