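import Mathlib

/-!
# Dihedral and cyclic lemmas for the dihedral Brauer–Suzuki–Wall set-up (helper54)
-/

set_option autoImplicit false
set_option linter.unusedSectionVars false
set_option linter.unusedVariables false
set_option linter.style.haveILetI false

namespace Cfsg.Agent.H54.GW

open DihedralGroup

theorem dih_r_mem_zpowers {n : ℕ} [NeZero n] (j : ZMod n) :
    (r j : DihedralGroup n) ∈ Subgroup.zpowers (r 1 : DihedralGroup n) := by
  rw [Subgroup.mem_zpowers_iff]
  refine ⟨(j.val : ℤ), ?_⟩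
  rw [r_one_zpow]
  congr 1
  simp

theorem dih_two : ∀ g x : DihedralGroup 2, g * g = 1 ∧ g * x * g⁻¹ = x⁻¹ := by decide

/-- In a dihedral group of order `2n`, the elements outside a cyclic subgroup of order `n` are
involutions inverting it. -/
theorem dih_out {n : ℕ} (hn : 2 ≤ n) (C : Subgroup (DihedralGroup n)) (hC : IsCyclic C)
    (hcard : Nat.card C = n) :
    ∀ g : DihedralGroup n, g ∉ C → g * g = 1 ∧ ∀ x ∈ C, g * x * g⁻¹ = x⁻¹ := by
  haveI : NeZero n := ⟨by omega⟩
  obtain ⟨c, hc⟩ := hC.exists_generator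
  have hgen : ∀ x ∈ C, ∃ k : ℤ, x = (c : DihedralGroup n) ^ k := by
    intro x hx
    obtain ⟨k, hk⟩ := Subgroup.mem_zpowers_iff.mp (hc ⟨x, hx⟩)
    refine ⟨k, ?_⟩
    rw [← Subgroup.coe_zpow, hk]
  rcases hcv : (c : DihedralGroup n) with i | i
  · have hrot : ∀ x ∈ C, ∃ j : ZMod n, x = r j := by
      intro x hx
      obtain ⟨k, rfl⟩ := hgen x hx
      rw [hcv, r_zpow]
      exact ⟨_, rfl⟩
    have hle : C ≤ Subgroup.zpowers (r 1 : DihedralGroup n) := by
      intro x hx
      obtain ⟨j, rfl⟩ := hrot x hx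
      exact dih_r_mem_zpowers j
    have heq : C = Subgroup.zpowers (r 1 : DihedralGroup n) := by
      apply Subgroup.eq_of_le_of_card_ge hle
      rw [Nat.card_zpowers, orderOf_r_one, hcard]
    intro g hg
    rcases g with j | j
    · exfalso
      apply hg
      rw [heq]
      exact dih_r_mem_zpowers j
    · refine ⟨sr_mul_self j, ?_⟩
      intro x hx
      obtain ⟨k, rfl⟩ := hrot x hx
      rw [sr_mul_r, inv_sr, sr_mul_sr, inv_r]
      congr 1
      ring
  · have h2 : orderOf (c : DihedralGroup n) = 2 := by rw [hcv]; exact orderOf_sr i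
    have hn2 : n = 2 := by
      rw [← hcard, ← h2, Subgroup.orderOf_coe]
      exact (orderOf_eq_card_of_forall_mem_zpowers hc).symm
    subst hn2
    intro g hg
    exact ⟨(dih_two g 1).1, fun x _ => (dih_two g x).2⟩

/-- A central involution of a dihedral group of order `2n ≥ 4` lies in a cyclic subgroup of
order `n`. -/
theorem dih_exists_rot {n : ℕ} (hn : 2 ≤ n) (z : DihedralGroup n) (hz : orderOf z = 2)
    (hcen : ∀ g, g * z = z * g) :
    ∃ ρ : DihedralGroup n, orderOf ρ = n ∧ z ∈ Subgroup.zpowers ρ := by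
  haveI : NeZero n := ⟨by omega⟩
  rcases z with i | i
  · exact ⟨r 1, orderOf_r_one, dih_r_mem_zpowers i⟩
  · have h := hcen (r 1)
    rw [r_mul_sr, sr_mul_r] at h
    have h1 : i - 1 = i + 1 := sr.inj h
    have h2 : ((2 : ℕ) : ZMod n) = 0 := by
      have : (2 : ZMod n) = (i + 1) - (i - 1) := by ring
      rw [Nat.cast_ofNat, this, h1]
      ring
    have h3 : n ∣ 2 := (ZMod.natCast_eq_zero_iff 2 n).mp h2
    have hn2 : n = 2 := Nat.le_antisymm (Nat.le_of_dvd two_pos h3) hn
    subst hn2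
    exact ⟨sr i, hz, Subgroup.mem_zpowers _⟩

section Transfer

variable {G : Type*} [Group G]

/-- Transfer of `dih_out` to a subgroup isomorphic to a dihedral group. -/
theorem out_of_cyclic (S : Subgroup G) {n : ℕ} (hn : 2 ≤ n) (e : ↥S ≃* DihedralGroup n)
    (S₀ : Subgroup G) (hle : S₀ ≤ S) (hcyc : IsCyclic ↥S₀) (hcard : Nat.card S₀ = n) :
    ∀ s ∈ S, s ∉ S₀ → s * s = 1 ∧ ∀ x ∈ S₀, s * x * s⁻¹ = x⁻¹ := by
  obtain ⟨C, hCdef⟩ : ∃ C : Subgroup (DihedralGroup n),
      C = (S₀.subgroupOf S).map e.toMonoidHom := ⟨_, rfl⟩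
  have e1 : ↥S₀ ≃* ↥((S₀.subgroupOf S).map e.toMonoidHom) :=
    (Subgroup.subgroupOfEquivOfLe hle).symm.trans
      ((S₀.subgroupOf S).equivMapOfInjective e.toMonoidHom e.injective)
  have hCcyc : IsCyclic C := by
    rw [hCdef]
    exact isCyclic_of_surjective e1 e1.surjective
  have hCcard : Nat.card C = n := by
    rw [hCdef]
    exact (Nat.card_congr e1.symm.toEquiv).trans hcard
  have key := dih_out hn C hCcyc hCcard
  intro s hs hs0
  have hsC : e ⟨s, hs⟩ ∉ C := by
    rw [hCdef]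
    rintro ⟨x, hx, hxe⟩
    have h1 : x = ⟨s, hs⟩ := e.injective hxe
    rw [h1] at hx
    exact hs0 (Subgroup.mem_subgroupOf.mp hx)
  obtain ⟨k1, k2⟩ := key _ hsC
  constructor
  · have h1 : (⟨s, hs⟩ : S) * ⟨s, hs⟩ = 1 := e.injective (by rw [map_mul, k1, map_one])
    exact congrArg Subtype.val h1
  · intro x hx
    have hxC : e ⟨x, hle hx⟩ ∈ C := by
      rw [hCdef]
      exact ⟨⟨x, hle hx⟩, Subgroup.mem_subgroupOf.mpr hx, rfl⟩
    have h2 := k2 _ hxC
    have h3 : (⟨s, hs⟩ : S) * ⟨x, hle hx⟩ * (⟨s, hs⟩ : S)⁻¹ = (⟨x, hle hx⟩ : S)⁻¹ :=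
      e.injective (by rw [map_mul, map_mul, map_inv, map_inv, h2])
    exact congrArg Subtype.val h3

/-- Transfer of `dih_exists_rot`. -/
theorem exists_cyclic_of_central (S : Subgroup G) {n : ℕ} (hn : 2 ≤ n)
    (e : ↥S ≃* DihedralGroup n) (t : G) (htS : t ∈ S) (ht : orderOf t = 2)
    (htZ : ∀ s ∈ S, s * t = t * s) :
    ∃ ρ ∈ S, orderOf ρ = n ∧ t ∈ Subgroup.zpowers ρ := by
  have hz : orderOf (e ⟨t, htS⟩) = 2 := by rw [MulEquiv.orderOf_eq, Subgroup.orderOf_mk, ht]
  have hcen : ∀ g, g * e ⟨t, htS⟩ = e ⟨t, htS⟩ * g := by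
    intro g
    obtain ⟨σ, rfl⟩ := e.surjective g
    rw [← map_mul, ← map_mul]
    congr 1
    exact Subtype.ext (htZ σ σ.2)
  obtain ⟨ρ, hρ, hzρ⟩ := dih_exists_rot hn _ hz hcen
  refine ⟨(e.symm ρ : G), (e.symm ρ).2, ?_, ?_⟩
  · rw [Subgroup.orderOf_coe, MulEquiv.orderOf_eq, hρ]
  · obtain ⟨k, hk⟩ := Subgroup.mem_zpowers_iff.mp hzρ
    rw [Subgroup.mem_zpowers_iff]
    refine ⟨k, ?_⟩
    have h1 : (e.symm ρ) ^ k = ⟨t, htS⟩ := by rw [← map_zpow, hk, e.symm_apply_apply]
    rw [← Subgroup.coe_zpow, h1]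

/-- A finite cyclic group has at most one involution. -/
theorem cyc_invol [Finite G] (C : Subgroup G) (hC : IsCyclic ↥C) {t c : G} (htC : t ∈ C)
    (htt : t * t = 1) (ht1 : t ≠ 1) (hcC : c ∈ C) (hcc : c * c = 1) : c = 1 ∨ c = t := by
  classical
  by_contra hne
  push Not at hne
  haveI : Fintype ↥C := Fintype.ofFinite _
  have h := IsCyclic.card_pow_eq_one_le (α := ↥C) (n := 2) (by norm_num)
  have hsub : ({1, ⟨t, htC⟩, ⟨c, hcC⟩} : Finset ↥C) ⊆
      Finset.univ.filter (fun a : ↥C => a ^ 2 = 1) := by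
    intro a ha
    simp only [Finset.mem_insert, Finset.mem_singleton] at ha
    rw [Finset.mem_filter]
    refine ⟨Finset.mem_univ _, ?_⟩
    rcases ha with rfl | rfl | rfl
    · exact one_pow 2
    · apply Subtype.ext
      rw [pow_two]
      exact htt
    · apply Subtype.ext
      rw [pow_two]
      exact hcc
  have h3 : ({1, ⟨t, htC⟩, ⟨c, hcC⟩} : Finset ↥C).card = 3 := by
    rw [Finset.card_insert_of_notMem, Finset.card_insert_of_notMem, Finset.card_singleton]
    · rw [Finset.mem_singleton]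
      intro h
      exact hne.2 (congrArg Subtype.val h).symm
    · simp only [Finset.mem_insert, Finset.mem_singleton]
      rintro (h | h)
      · exact ht1 (congrArg Subtype.val h).symm
      · exact hne.1 (congrArg Subtype.val h).symm
  have h4 := Finset.card_le_card hsub
  omega

/-- An element of an odd order subgroup squaring to one is trivial. -/
theorem odd_sq [Finite G] (O : Subgroup G) (hodd : Odd (Nat.card O)) {y : G} (hy : y ∈ O)
    (hyy : y * y = 1) : y = 1 := by
  have h1 : orderOf y ∣ 2 := orderOf_dvd_of_pow_eq_one (by rw [pow_two]; exact hyy)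
  have h2 : orderOf y ∣ Nat.card O := Subgroup.orderOf_dvd_natCard O hy
  have h3 : orderOf y ∣ Nat.gcd (Nat.card O) 2 := Nat.dvd_gcd h2 h1
  rw [Nat.Coprime.gcd_eq_one hodd.coprime_two_right] at h3
  exact orderOf_eq_one_iff.mp (Nat.dvd_one.mp h3)

/-- Elements commuting with `x` normalize the cyclic group generated by `x`. -/
theorem mem_normalizer_zpowers {a x : G} (h : a * x = x * a) :
    a ∈ Subgroup.normalizer ((Subgroup.zpowers x : Subgroup G) : Set G) := by
  have hc : ∀ k : ℤ, a * x ^ k * a⁻¹ = x ^ k := by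
    intro k
    have h1 : Commute a (x ^ k) := (show Commute a x from h).zpow_right k
    rw [h1.eq, mul_inv_cancel_right]
  rw [Subgroup.mem_set_normalizer_iff]
  intro y
  constructor
  · intro hy
    obtain ⟨k, rfl⟩ := Subgroup.mem_zpowers_iff.mp hy
    rw [hc]
    exact hy
  · intro hy
    obtain ⟨k, hk⟩ := Subgroup.mem_zpowers_iff.mp hy
    have h2 : y = x ^ k := by
      have e : y = a⁻¹ * (a * y * a⁻¹) * a := by group
      rw [e, ← hk]
      have h3 := hc k
      have e2 : a⁻¹ * x ^ k * a = a⁻¹ * (a * x ^ k * a⁻¹) * a := by rw [h3]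
      rw [e2]; group
    rw [h2]
    exact Subgroup.zpow_mem_zpowers x k

end Transfer

end Cfsg.Agent.H54.GW
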