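import Mathlib
import Cfsg.Prelude.Def_Transfer
import Cfsg.Agent.H2.Transfer
import Cfsg.Agent.H60.V4Gen
import Cfsg.Agent.H60.ZD8Fusion
import Cfsg.Agent.H54.BSW1

/-!
# Conjugacy of involutions in simple groups with Klein four Sylow 2-subgroups, and small lemmas
(helper54)
-/

set_option autoImplicit false
set_option linter.unusedSectionVars false
set_option linter.unusedVariables false
set_option linter.style.haveILetI false

namespace Cfsg.Agent.H54.GW

open Cfsg Cfsg.Agent.H54.BSW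

/-- In a simple group that is not a 2-group, `O^2(G) = G`. -/
theorem pResidual_eq_top_of_simple {G : Type*} [Group G] [Finite G] [IsSimpleGroup G]
    (S : Sylow 2 G) (hS : (S : Subgroup G) ≠ ⊤) : Cfsg.pResidual 2 G = ⊤ := by
  haveI : Fact (Nat.Prime 2) := ⟨Nat.prime_two⟩
  rcases (Cfsg.Agent.H2.pResidual_normal (G := G) 2).eq_bot_or_eq_top with h | h
  · exfalso
    apply hS
    have hP : IsPGroup 2 G := by
      intro g
      obtain ⟨k, m, hm, hkm⟩ := Nat.exists_eq_two_pow_mul_odd (orderOf_pos g).ne'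
      refine ⟨k, ?_⟩
      have h1 : g ^ 2 ^ k ∈ Cfsg.pResidual 2 G := by
        unfold Cfsg.pResidual
        apply Subgroup.subset_closure
        show Nat.Coprime (orderOf (g ^ 2 ^ k)) 2
        have h2 : orderOf (g ^ 2 ^ k) ∣ m :=
          orderOf_dvd_of_pow_eq_one (by rw [← pow_mul, ← hkm, pow_orderOf_eq_one])
        exact (Odd.of_dvd_nat hm h2).coprime_two_right
      rw [h, Subgroup.mem_bot] at h1
      exact h1
    exact (S.is_maximal' (Q := ⊤) (hP.to_subgroup ⊤) le_top).symm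
  · exact h

/-- Burnside: in a simple group a nontrivial proper abelian Sylow 2-subgroup is not central in its
normalizer. -/
theorem not_normalizer_le_centralizer {G : Type*} [Group G] [Finite G] [IsSimpleGroup G]
    (P : Sylow 2 G) (hP1 : (P : Subgroup G) ≠ ⊤) (hP2 : (P : Subgroup G) ≠ ⊥) :
    ¬ (Subgroup.normalizer ((P : Subgroup G) : Set G) ≤
      Subgroup.centralizer ((P : Subgroup G) : Set G)) := by
  intro h
  haveI : Fact (Nat.Prime 2) := ⟨Nat.prime_two⟩
  have hc := MonoidHom.ker_transferSylow_isComplement' P h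
  have hcard := hc.card_mul_card
  rcases (MonoidHom.normal_ker (MonoidHom.transferSylow P h)).eq_bot_or_eq_top with hk | hk
  · rw [hk, Subgroup.card_bot, one_mul] at hcard
    exact hP1 (Subgroup.eq_top_of_card_eq _ hcard)
  · rw [hk, Subgroup.card_top] at hcard
    have hpos : 0 < Nat.card G := Nat.card_pos
    have h1 : Nat.card (P : Subgroup G) = 1 :=
      Nat.eq_of_mul_eq_mul_left hpos (hcard.trans (mul_one _).symm)
    exact hP2 (Subgroup.card_eq_one.mp h1)

/-- A simple group embeds in the symmetric group on the cosets of a proper subgroup. -/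
theorem simple_card_dvd_factorial {G : Type*} [Group G] [Finite G] [IsSimpleGroup G]
    (H : Subgroup G) (hH : H ≠ ⊤) : Nat.card G ∣ (H.index).factorial := by
  have hker : (MulAction.toPermHom G (G ⧸ H)).ker = ⊥ := by
    rcases (MonoidHom.normal_ker (MulAction.toPermHom G (G ⧸ H))).eq_bot_or_eq_top with h | h
    · exact h
    · exfalso
      apply hH
      rw [← Subgroup.normalCore_eq_ker] at h
      exact top_unique (h ▸ Subgroup.normalCore_le H)
  have hinj : Function.Injective (MulAction.toPermHom G (G ⧸ H)) :=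
    (MonoidHom.ker_eq_bot_iff _).mp hker
  have h1 := Subgroup.card_dvd_of_injective _ hinj
  rwa [Nat.card_perm, ← Subgroup.index_eq_card] at h1

/-- Klein four Sylow 2-subgroup not central in its normalizer: all involutions are conjugate. -/
theorem conj_of_four {G : Type*} [Group G] [Finite G] (P : Sylow 2 G)
    (h4 : Nat.card (P : Subgroup G) = 4) (he : ∀ c ∈ (P : Subgroup G), c * c = 1)
    (hnc : ¬ (Subgroup.normalizer ((P : Subgroup G) : Set G) ≤
      Subgroup.centralizer ((P : Subgroup G) : Set G))) :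
    ∀ u v : G, orderOf u = 2 → orderOf v = 2 → IsConj u v := by
  classical
  haveI : Fact (Nat.Prime 2) := ⟨Nat.prime_two⟩
  have hcomm : ∀ a ∈ (P : Subgroup G), ∀ b ∈ (P : Subgroup G), a * b = b * a := by
    intro a ha b hb
    have h1 := he (a * b) (Subgroup.mul_mem _ ha hb)
    have h2 := he a ha
    have h3 := he b hb
    calc a * b = (a * b)⁻¹ := (inv_eq_of_mul_eq_one_left h1).symm
      _ = b⁻¹ * a⁻¹ := mul_inv_rev a b
      _ = b * a := by rw [inv_eq_of_mul_eq_one_left h3, inv_eq_of_mul_eq_one_left h2]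
  obtain ⟨g, hgN, hgC⟩ := SetLike.not_le_iff_exists.mp hnc
  rw [Subgroup.mem_centralizer_iff] at hgC
  push Not at hgC
  obtain ⟨x, hxP, hxg⟩ := hgC
  have hxP' : x ∈ (P : Subgroup G) := hxP
  have hgnorm := Subgroup.mem_set_normalizer_iff.mp hgN
  have hx1 : x ≠ 1 := by
    rintro rfl
    exact hxg (by rw [one_mul, mul_one])
  have hxx := he x hxP'
  have hyV : g * x * g⁻¹ ∈ (P : Subgroup G) := (hgnorm x).mp hxP'
  have hyx : g * x * g⁻¹ ≠ x := by
    intro h
    apply hxg
    exact (mul_inv_eq_iff_eq_mul.mp h).symm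
  have hy1 : g * x * g⁻¹ ≠ 1 := by
    intro h; apply hx1
    have e : x = g⁻¹ * (g * x * g⁻¹) * g := by group
    rw [e, h]; group
  have hy'V : g * (g * x * g⁻¹) * g⁻¹ ∈ (P : Subgroup G) := (hgnorm _).mp hyV
  have hy'y : g * (g * x * g⁻¹) * g⁻¹ ≠ g * x * g⁻¹ := by
    intro h; apply hyx
    have e : g * x * g⁻¹ = g⁻¹ * (g * (g * x * g⁻¹) * g⁻¹) * g := by group
    rw [e, h]; group
  have hy'1 : g * (g * x * g⁻¹) * g⁻¹ ≠ 1 := by
    intro h; apply hy1
    have e : g * x * g⁻¹ = g⁻¹ * (g * (g * x * g⁻¹) * g⁻¹) * g := by group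
    rw [e, h]; group
  have hy'x : g * (g * x * g⁻¹) * g⁻¹ ≠ x := by
    intro h
    have hgg : (g * g) * x = x * (g * g) := by
      have h1 : (g * g) * x * (g * g)⁻¹ = x := by
        calc (g * g) * x * (g * g)⁻¹ = g * (g * x * g⁻¹) * g⁻¹ := by group
          _ = x := h
      exact mul_inv_eq_iff_eq_mul.mp h1
    obtain ⟨k, m, hm, hkm⟩ := Nat.exists_eq_two_pow_mul_odd (orderOf_pos g).ne'
    obtain ⟨j, hj⟩ := hm
    have hgmN : g ^ m ∈ Subgroup.normalizer ((P : Subgroup G) : Set G) :=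
      Subgroup.pow_mem _ hgN m
    have hpow : (g ^ m) ^ 2 ^ k = 1 := by
      rw [← pow_mul, mul_comm, ← hkm, pow_orderOf_eq_one]
    have hgmP := Cfsg.Agent.H60.mem_sylow_of_mem_normalizer_of_pow P (g ^ m) hgmN k hpow
    have h1 := hcomm _ hgmP x hxP'
    have h2 : g ^ m = (g * g) ^ j * g := by rw [hj, pow_succ, pow_mul, pow_two]
    have h3 : Commute ((g * g) ^ j) x := (show Commute (g * g) x from hgg).pow_left j
    apply hxg
    rw [h2] at h1
    have h5 : (g * g) ^ j * (g * x) = (g * g) ^ j * (x * g) := by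
      calc (g * g) ^ j * (g * x) = (g * g) ^ j * g * x := by rw [mul_assoc]
        _ = x * ((g * g) ^ j * g) := h1
        _ = (x * (g * g) ^ j) * g := by rw [mul_assoc]
        _ = ((g * g) ^ j * x) * g := by rw [h3.eq]
        _ = (g * g) ^ j * (x * g) := by rw [mul_assoc]
    exact (mul_left_cancel h5).symm
  have hxinv : x⁻¹ = x := inv_eq_of_mul_eq_one_left hxx
  have hxy1 : x * (g * x * g⁻¹) ≠ 1 := by
    intro h; apply hyx
    have h1 := eq_inv_of_mul_eq_one_right h
    rw [h1, hxinv]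
  have hfour := Cfsg.Agent.H60.mem_four (P : Subgroup G) h4 x (g * x * g⁻¹) hxP' hyV hx1 hy1
    (Ne.symm hyx) hxy1
  have hy'eq : g * (g * x * g⁻¹) * g⁻¹ = x * (g * x * g⁻¹) := by
    rcases hfour _ hy'V with h | h | h | h
    · exact absurd h hy'1
    · exact absurd h hy'x
    · exact absurd h hy'y
    · exact h
  have hVconj : ∀ v ∈ (P : Subgroup G), v ≠ 1 → ∃ c : G, c * x * c⁻¹ = v := by
    intro v hv hv1
    rcases hfour v hv with h | h | h | h
    · exact absurd h hv1
    · exact ⟨1, by rw [h]; group⟩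
    · exact ⟨g, h.symm⟩
    · exact ⟨g * g, by rw [h, ← hy'eq]; group⟩
  have hconjx : ∀ u : G, u ≠ 1 → u * u = 1 → ∃ c : G, c * x * c⁻¹ = u := by
    intro u hu1 huu
    have hup : IsPGroup 2 (Subgroup.zpowers u) := by
      rintro ⟨v, hv⟩
      obtain ⟨i, rfl⟩ := Subgroup.mem_zpowers_iff.mp hv
      refine ⟨1, Subtype.ext ?_⟩
      show (u ^ i) ^ 2 ^ 1 = 1
      rw [pow_one, ← zpow_natCast, ← zpow_mul, mul_comm, zpow_mul, zpow_natCast, pow_two, huu,
        one_zpow]
    obtain ⟨Q, hQ⟩ := hup.exists_le_sylow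
    obtain ⟨a, ha⟩ := MulAction.exists_smul_eq G P Q
    have huQ : u ∈ ((a • P : Sylow 2 G) : Subgroup G) := by
      rw [ha]; exact hQ (Subgroup.mem_zpowers u)
    rw [Sylow.coe_subgroup_smul] at huQ
    obtain ⟨s, hs, hsu⟩ := huQ
    have hsu' : a * s * a⁻¹ = u := by simpa using hsu
    have hs1 : s ≠ 1 := by
      intro h; apply hu1
      rw [← hsu', h]; group
    obtain ⟨c, hc⟩ := hVconj s hs hs1
    exact ⟨a * c, by rw [← hsu', ← hc]; group⟩
  intro u v hu hv
  obtain ⟨huu, hu1⟩ := ord2_iff.mp hu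
  obtain ⟨hvv, hv1⟩ := ord2_iff.mp hv
  obtain ⟨a, rfl⟩ := hconjx u hu1 huu
  obtain ⟨b, rfl⟩ := hconjx v hv1 hvv
  rw [isConj_iff]
  exact ⟨b * a⁻¹, by group⟩

end Cfsg.Agent.H54.GW
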