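import Mathlib
import Cfsg.Agent.H20.HtDefs

/-!
# S3371-NT1 (team project of helper20)

`q` an odd prime and `q ^ d = 2 ^ u + 1` force `d = 1` or `q = 3 ∧ d = 2`.
-/

set_option autoImplicit false

namespace Cfsg.Agent.H54.Ht

/-- An odd divisor of a power of two is one. -/
theorem eq_one_of_odd_of_dvd_two_pow {m u : ℕ} (hm : Odd m) (hd : m ∣ 2 ^ u) : m = 1 := by
  obtain ⟨a, -, rfl⟩ := (Nat.dvd_prime_pow Nat.prime_two).1 hd
  rcases Nat.eq_zero_or_pos a with h | h
  · rw [h, pow_zero]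
  · exfalso
    have h2 : Even (2 ^ a) := (Nat.even_pow' h.ne').2 even_two
    exact (Nat.not_even_iff_odd.2 hm) h2

/-- `(r + 1) ^ (2 k + 1) = r * m + 1` with `m` odd, for `r` even. -/
theorem odd_pow_sub_one (r : ℕ) (hr : Even r) (k : ℕ) :
    ∃ m : ℕ, Odd m ∧ (r + 1) ^ (2 * k + 1) = r * m + 1 := by
  induction k with
  | zero => exact ⟨1, odd_one, by ring⟩
  | succ k ih =>
    obtain ⟨m, hm, he⟩ := ih
    refine ⟨(r + 1) ^ 2 * m + (r + 2), ?_, ?_⟩
    · have h1 : Odd ((r + 1) ^ 2 * m) := ((hr.add_one).pow).mul hm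
      have h2 : Even (r + 2) := hr.add even_two
      exact h1.add_even h2
    · have : 2 * (k + 1) + 1 = (2 * k + 1) + 2 := by ring
      rw [this, pow_add, he]
      ring

/-- S3371-NT1. -/
theorem nt1 : Cfsg.Agent.H20.Ht.StmtNT1 := by
  intro q d u hq hq2 h
  have hqodd : Odd q := hq.odd_of_ne_two hq2
  have hq3 : 3 ≤ q := by
    have := hq.two_le
    omega
  obtain ⟨r, rfl⟩ : ∃ r, q = r + 1 := ⟨q - 1, by omega⟩
  have hr : Even r := by
    rcases Nat.even_or_odd r with h1 | h1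
    · exact h1
    · exact absurd hqodd (Nat.not_odd_iff_even.2 (h1.add_one))
  rcases Nat.even_or_odd' d with ⟨e, rfl | rfl⟩
  · -- `d = 2 e`
    right
    have he : e ≠ 0 := by
      rintro rfl
      simp at h
    have hxodd : Odd ((r + 1) ^ e) := hqodd.pow
    obtain ⟨y, hy⟩ := hxodd
    have hprod : 4 * (y * (y + 1)) = 2 ^ u := by
      rw [← Nat.add_sub_cancel (n := 2 ^ u) (m := 1), ← h, pow_mul', hy]
      have : (2 * y + 1) ^ 2 = 4 * (y * (y + 1)) + 1 := by ring
      rw [this, Nat.add_sub_cancel]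
    have hy1 : y ∣ 2 ^ u := Dvd.intro_left (4 * (y + 1)) (by rw [← hprod]; ring)
    have hy2 : y + 1 ∣ 2 ^ u := Dvd.intro_left (4 * y) (by rw [← hprod]; ring)
    have hy3 : y = 1 := by
      rcases Nat.even_or_odd y with hev | hodd
      · have := eq_one_of_odd_of_dvd_two_pow hev.add_one hy2
        have hy0 : y = 0 := by omega
        rw [hy0] at hprod
        have : 0 < 2 ^ u := by positivity
        omega
      · exact eq_one_of_odd_of_dvd_two_pow hodd hy1
    rw [hy3] at hy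
    have hx3 : (r + 1) ^ e = 3 := by omega
    have hdvd : r + 1 ∣ 3 := by
      rw [← hx3]
      exact dvd_pow_self _ he
    have hq : r + 1 = 3 := by
      have := (Nat.prime_dvd_prime_iff_eq hq Nat.prime_three).1 hdvd
      exact this
    refine ⟨hq, ?_⟩
    rw [hq] at hx3
    have he1 : e = 1 := by
      have : (3 : ℕ) ^ e = 3 ^ 1 := by rw [hx3]; norm_num
      exact Nat.pow_right_injective (le_refl 2 |>.trans (by norm_num : 2 ≤ 3)) this
    omega
  · -- `d = 2 e + 1`
    left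
    obtain ⟨m, hm, he⟩ := odd_pow_sub_one r hr e
    rw [he] at h
    have hrm : r * m = 2 ^ u := by omega
    have hm1 : m = 1 := eq_one_of_odd_of_dvd_two_pow hm (Dvd.intro_left r hrm)
    rw [hm1, mul_one] at he
    have : (r + 1) ^ (2 * e + 1) = (r + 1) ^ 1 := by rw [he, pow_one]
    exact Nat.pow_right_injective (by omega : 2 ≤ r + 1) this

end Cfsg.Agent.H54.Ht

example : Cfsg.Agent.H20.Ht.StmtNT1 := Cfsg.Agent.H54.Ht.nt1
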