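import Mathlib
import Cfsg.Agent.H20.HtDefs

/-!
# S3371-NT2 (team project of helper20)

`q` an odd prime, `2 ≤ j` and `q ^ d + 1 = 2 ^ j` force `d = 1`.
-/

set_option autoImplicit false

namespace Cfsg.Agent.H54.Ht

/-- An odd divisor of a power of two is one (copy for this file). -/
theorem eq_one_of_odd_of_dvd_two_pow' {m u : ℕ} (hm : Odd m) (hd : m ∣ 2 ^ u) : m = 1 := by
  obtain ⟨a, -, rfl⟩ := (Nat.dvd_prime_pow Nat.prime_two).1 hd
  rcases Nat.eq_zero_or_pos a with h | h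
  · rw [h, pow_zero]
  · exfalso
    have h2 : Even (2 ^ a) := (Nat.even_pow' h.ne').2 even_two
    exact (Nat.not_even_iff_odd.2 hm) h2

/-- `q ^ (2 k + 1) + 1 = (q + 1) * m` with `m` odd, for `q` odd. -/
theorem odd_pow_add_one (q : ℕ) (hq : Odd q) (k : ℕ) :
    ∃ m : ℕ, Odd m ∧ q ^ (2 * k + 1) + 1 = (q + 1) * m := by
  induction k with
  | zero => exact ⟨1, odd_one, by ring⟩
  | succ k ih =>
    obtain ⟨m, hm, he⟩ := ih
    have hm1 : 1 ≤ m := hm.pos
    have hq1 : 1 ≤ q := hq.pos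
    have hle : q - 1 ≤ q ^ 2 * m := by
      calc q - 1 ≤ q := Nat.sub_le q 1
        _ = q * 1 := (mul_one q).symm
        _ ≤ q * q := Nat.mul_le_mul_left q hq1
        _ = q ^ 2 * 1 := by ring
        _ ≤ q ^ 2 * m := Nat.mul_le_mul_left _ hm1
    refine ⟨q ^ 2 * m - (q - 1), ?_, ?_⟩
    · have h1 : Odd (q ^ 2 * m) := (hq.pow).mul hm
      have h2 : Even (q - 1) := by
        obtain ⟨t, ht⟩ := hq
        exact ⟨t, by omega⟩
      exact Nat.Odd.sub_even hle h1 h2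
    · have e1 : 2 * (k + 1) + 1 = (2 * k + 1) + 2 := by ring
      have e2 : q ^ (2 * k + 1) = (q + 1) * m - 1 := by omega
      zify [hle, hq1] at he ⊢
      rw [e1, pow_add]
      have e3 : (q : ℤ) ^ (2 * k + 1) = (q + 1) * m - 1 := by linarith
      rw [e3]
      ring

/-- S3371-NT2. -/
theorem nt2 : Cfsg.Agent.H20.Ht.StmtNT2 := by
  intro q d j hq hq2 hj h
  have hqodd : Odd q := hq.odd_of_ne_two hq2
  obtain ⟨j', rfl⟩ : ∃ j', j = j' + 2 := ⟨j - 2, by omega⟩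
  have h4 : 2 ^ (j' + 2) = 4 * 2 ^ j' := by rw [pow_add]; ring
  rcases Nat.even_or_odd' d with ⟨e, rfl | rfl⟩
  · -- `d = 2 e`
    exfalso
    have hxodd : Odd (q ^ e) := hqodd.pow
    obtain ⟨y, hy⟩ := hxodd
    rw [pow_mul', hy, h4] at h
    have : (2 * y + 1) ^ 2 = 4 * (y * (y + 1)) + 1 := by ring
    rw [this] at h
    omega
  · -- `d = 2 e + 1`
    obtain ⟨m, hm, he⟩ := odd_pow_add_one q hqodd e
    rw [he] at h
    have hm1 : m = 1 := eq_one_of_odd_of_dvd_two_pow' hm (Dvd.intro_left (q + 1) h)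
    rw [hm1, mul_one] at he
    have h5 : q ^ (2 * e + 1) = q ^ 1 := by rw [pow_one]; omega
    exact Nat.pow_right_injective hq.two_le h5

end Cfsg.Agent.H54.Ht

example : Cfsg.Agent.H20.Ht.StmtNT2 := Cfsg.Agent.H54.Ht.nt2
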