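import Cfsg.Agent.H59.JzKillDefs
import Cfsg.Agent.H52.SrDefs
import Cfsg.Agent.H82.JtDich
import Cfsg.Agent.H32.SrVNG
import Cfsg.Agent.S2950
import Cfsg.Agent.S2948

/-!
# K-FOUR (sub-piece K6 of JZ-KILL, S2951 / S2952)

In the situation (R) the structure statement SR applies to `(S, L, K)` (the hypothesis `hfix`
follows from `|Ω₁Z(S)| = 2`), so `V = Ω₁Z(O₂(L))` is the independent product of four-groups
permuted by `L = N_G(V)`; helper82's block core then shows that three involutions with the same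
fixed points on `V` centralize `V`.
-/

set_option autoImplicit false
open Cfsg

namespace Cfsg.Agent.H54.JzK

open Cfsg.Agent.H64.Jz Cfsg.Agent.H59.JzK Cfsg.Agent.H52.Sr

universe u

/-- The SR structure in the situation (R), together with `N_G(V) = L`. -/
theorem struct_of_rctx (hSR : Cfsg.Agent.H52.Sr.StStruct.{u}) (hZ2 : StZ2.{u})
    {G : Type u} [Group G] [Finite G] (S : Sylow 2 G) (M K L T' K' L' : Subgroup G)
    (hR : RCtx S M K L T' K' L') :
    Subgroup.normalizer (Vof L : Set G) = L ∧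
    (⨆ i : Orb (S : Subgroup G) K, wOf i.1) = Vof L ∧
    iSupIndep (fun i : Orb (S : Subgroup G) K => wOf i.1) ∧
    (∀ i : Orb (S : Subgroup G) K, IsJComponent (S : Subgroup G) i.1 ∧ i.1 ≤ L ∧
      Nat.card ↥(wOf i.1) = 4) ∧
    (∀ l ∈ L, ∀ i : Orb (S : Subgroup G) K, ∃ j : Orb (S : Subgroup G) K,
      (wOf i.1).map (MulAut.conj l).toMonoidHom = wOf j.1) ∧
    (∀ i j : Orb (S : Subgroup G) K, i ≠ j → wOf i.1 ≤ Subgroup.centralizer (j.1 : Set G)) ∧
    (∀ i : Orb (S : Subgroup G) K, wOf i.1 ⊓ Subgroup.centralizer (i.1 : Set G) = ⊥) := by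
  obtain ⟨hB, hX, hB', hne⟩ := hR
  have hcardZ : Nat.card ↥(omegaCenterOf (S : Subgroup G)) = 2 := hZ2 S L T' K' L' hB' hne
  obtain ⟨⟨hL, hN, hZ⟩, hO, hMloc, hMJ, hSmax, -, hK, hLmax, hKL⟩ := hB
  obtain ⟨L0, hL0max, hKL0, huniq, -, hSyl0⟩ :=
    Cfsg.Agent.S2950.result hL hN hZ hO S M hMloc hMJ (S : Subgroup G) hSmax K hK
  have hLL0 : L = L0 := huniq L hLmax hKL
  have hSyl : IsSylowTwoIn (S : Subgroup G) L := hLL0 ▸ hSyl0
  have hKleL : K ≤ L := le_sup_left.trans hKL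
  have hLM : ¬ L ≤ M := fun h => hK.2.1 (hKleL.trans h)
  have hJS : thompsonSubgroupOf 2 (S : Subgroup G) ≤ (S : Subgroup G) := by
    unfold thompsonSubgroupOf
    exact Subgroup.map_subtype_le _
  have hov : L ∈ jOvergroups (S : Subgroup G) :=
    (Cfsg.Agent.S2948.result hL hN hZ hO S M hMloc hMJ (S : Subgroup G) hSmax L hLmax.1 hLM
      (S : Subgroup G) hSyl hJS).2.2.1
  have hJK : IsJComponent (S : Subgroup G) K := hK.1.1
  obtain ⟨hLV, hV2, hVQ, hQL, hQ2⟩ := Cfsg.Agent.H32.Sr.vng L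
  have hQS : pCoreOf 2 L ≤ (S : Subgroup G) :=
    Cfsg.Agent.Helper55.J48.pCoreOf_le_of_sylowIn hSyl
  have hfix : ∀ v ∈ omegaCenterOf (pCoreOf 2 L),
      v ∈ Subgroup.centralizer ((S : Subgroup G) : Set G) →
      v ∈ Subgroup.centralizer (K : Set G) → v = 1 := by
    intro v hv hvS hvK
    by_contra hv1
    have hvZ : v ∈ omegaCenterOf (S : Subgroup G) := by
      unfold omegaCenterOf omegaOne
      apply Subgroup.subset_closure
      refine ⟨⟨hQS (hVQ hv), hvS⟩, ?_⟩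
      rw [pow_two]
      exact hV2 v hv
    have hZelts : ∀ x ∈ omegaCenterOf (S : Subgroup G), x = 1 ∨ x = v := by
      intro x hx
      by_contra hcon
      push Not at hcon
      obtain ⟨hx1, hxv⟩ := hcon
      have : Finite ↥(omegaCenterOf (S : Subgroup G)) := Nat.finite_of_card_ne_zero (by omega)
      let f : Fin 3 → ↥(omegaCenterOf (S : Subgroup G)) :=
        ![⟨1, Subgroup.one_mem _⟩, ⟨v, hvZ⟩, ⟨x, hx⟩]
      have hf : Function.Injective f := by
        intro i j hij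
        fin_cases i <;> fin_cases j <;> simp_all [f, Subtype.ext_iff, eq_comm]
      have hle := Nat.card_le_card_of_injective f hf
      rw [hcardZ] at hle
      simp at hle
    have hKC : K ≤ Subgroup.centralizer (omegaCenterOf (S : Subgroup G) : Set G) := by
      intro k hk
      rw [Subgroup.mem_centralizer_iff]
      intro x hx
      rcases hZelts x hx with h | h
      · rw [h]; simp
      · rw [h]; exact (Subgroup.mem_centralizer_iff.mp hvK k hk).symm
    have hKN : K ≤ Subgroup.normalizer ((S : Subgroup G) : Set G) := hKC.trans (hZ S)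
    have hKS : K ≤ (S : Subgroup G) := by
      rw [← hJK.2.1, Subgroup.commutator_le]
      intro k hk j hj
      have h1 : k * j * k⁻¹ ∈ (S : Subgroup G) :=
        (Subgroup.mem_normalizer_iff.mp (hKN hk) j).mp (hJS hj)
      rw [commutatorElement_def]
      exact Subgroup.mul_mem _ h1 (Subgroup.inv_mem _ (hJS hj))
    have hK2 : IsPGroup 2 ↥K := S.isPGroup'.to_le hKS
    have h3 : (pCoreOf 2 K).relIndex K = 3 := hJK.2.2.1
    obtain ⟨n, hn⟩ := IsPGroup.iff_card.mp hK2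
    have hdvd : (pCoreOf 2 K).relIndex K ∣ Nat.card ↥K := Subgroup.relIndex_dvd_card _ _
    rw [h3, hn] at hdvd
    have h32 := Nat.Prime.dvd_of_dvd_pow Nat.prime_three hdvd
    omega
  have hS2 : IsPGroup 2 ↥(S : Subgroup G) := S.isPGroup'
  have hS1 : (S : Subgroup G) ≠ ⊥ := hSmax.1.2.1
  obtain ⟨h1, h2, h3, h4, h5, h6⟩ :=
    hSR hL hN hZ (S : Subgroup G) hS2 hS1 L hov K hJK hKleL hfix
  refine ⟨?_, h1, h2, h3, h4, h5, h6⟩
  have hVne : Vof L ≠ ⊥ := by
    intro hb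
    let i0 : Orb (S : Subgroup G) K := ⟨K, 1, Subgroup.one_mem _, by ext x; simp⟩
    have hle : wOf i0.1 ≤ Vof L := by
      show wOf i0.1 ≤ omegaCenterOf (pCoreOf 2 L)
      rw [← h1]
      exact le_iSup (fun i : Orb (S : Subgroup G) K => wOf i.1) i0
    rw [hb, le_bot_iff] at hle
    have hc := (h3 i0).2.2
    rw [hle] at hc
    simp at hc
  have hV2g : IsPGroup 2 ↥(Vof L) := hQ2.to_le hVQ
  exact hLmax.2 _ ⟨Vof L, hV2g, hVne, rfl⟩ hLV

/-- K-FOUR (with the SR structure statement and `StZ2` as extra hypotheses). -/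
theorem kFour (hSR : Cfsg.Agent.H52.Sr.StStruct.{u}) (hZ2 : StZ2.{u}) : StKFour.{u} := by
  intro G _ _ S M K L T' K' L' hR b₁ hb₁ b₂ hb₂ h11 h22 hcomm hfixed
  obtain ⟨hNV, h1, h2, h3, h4, -, -⟩ := struct_of_rctx hSR hZ2 S M K L T' K' L' hR
  obtain ⟨-, hV2, -, -, -⟩ := Cfsg.Agent.H32.Sr.vng L
  left
  let U' : Subgroup G := Vof L ⊓ Subgroup.centralizer ({b₁} : Set G)
  have hWV : ∀ i : Orb (S : Subgroup G) K, wOf i.1 ≤ Vof L := fun i => by
    rw [← h1]
    exact le_iSup (fun i : Orb (S : Subgroup G) K => wOf i.1) i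
  have hmemU : ∀ v ∈ Vof L, (b₁ * v = v * b₁ ↔ v ∈ U') := by
    intro v hv
    constructor
    · intro h
      refine Subgroup.mem_inf.mpr ⟨hv, ?_⟩
      rw [Subgroup.mem_centralizer_iff]
      intro x hx
      rw [Set.mem_singleton_iff] at hx
      rw [hx]
      exact h
    · intro h
      exact (Subgroup.mem_centralizer_iff.mp (Subgroup.mem_inf.mp h).2) b₁ (Set.mem_singleton _)
  have hblk : ∀ u ∈ L, ∀ i : Orb (S : Subgroup G) K, ∃ j : Orb (S : Subgroup G) K,
      ∀ w ∈ wOf i.1, u * w * u⁻¹ ∈ wOf j.1 := by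
    intro u hu i
    obtain ⟨j, hj⟩ := h4 u hu i
    refine ⟨j, fun w hw => ?_⟩
    rw [← hj]
    exact ⟨w, hw, by simp [MulAut.conj_apply]⟩
  have hb₁L : b₁ ∈ L := hNV ▸ hb₁
  have hb₂L : b₂ ∈ L := hNV ▸ hb₂
  have hcore : ∀ i : Orb (S : Subgroup G) K, wOf i.1 ≤ U' := by
    intro i
    refine Cfsg.Agent.H82.Jt.core (Vof L) U' (fun i : Orb (S : Subgroup G) K => wOf i.1)
      hV2 hWV h2 (fun i => (h3 i).2.2) b₁ b₂ ?_ i
    intro u hu
    rcases hu with h | h | h
    · rw [h]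
      exact ⟨h11, hblk _ hb₁L, hmemU⟩
    · rw [h]
      refine ⟨h22, hblk _ hb₂L, fun v hv => ?_⟩
      rw [← hmemU v hv]
      exact ((hfixed v hv).1).symm
    · rw [h]
      refine ⟨?_, hblk _ (L.mul_mem hb₂L hb₁L), fun v hv => ?_⟩
      · calc b₂ * b₁ * (b₂ * b₁) = b₂ * (b₁ * b₂) * b₁ := by group
          _ = b₂ * (b₂ * b₁) * b₁ := by rw [hcomm]
          _ = (b₂ * b₂) * (b₁ * b₁) := by group
          _ = 1 := by rw [h11, h22, one_mul]
      · rw [← hmemU v hv, ← hcomm]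
        exact ((hfixed v hv).2).symm
  have hVU : Vof L ≤ U' := by
    rw [← h1]
    exact iSup_le hcore
  rw [Subgroup.mem_centralizer_iff]
  intro v hv
  exact ((hmemU v hv).mpr (hVU hv)).symm

end Cfsg.Agent.H54.JzK

universe v in
example (hSR : Cfsg.Agent.H52.Sr.StStruct.{v}) (hZ2 : Cfsg.Agent.H64.Jz.StZ2.{v}) :
    Cfsg.Agent.H59.JzK.StKFour.{v} := Cfsg.Agent.H54.JzK.kFour hSR hZ2
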