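import Cfsg.Agent.H12.JkTI
import Cfsg.Agent.H83.JkCent
import Cfsg.Agent.H54.JkFour

/-!
# K-CONJ (JZ-KILL, S2951 / S2952): every element of `V = Ω₁Z(O₂(L))` is `L`-conjugate into
`C_G(J(S))`

In the situation (R): `V` is the product of the four-groups `W_{K_i}` (SR structure), each
`K_i` is transitive on `W_{K_i} ∖ 1` and `Ω₁Z(J(S)) ∩ W_{K_i} ≠ 1` (S2946, taken as a
hypothesis), so block-by-block conjugation moves `u ∈ V` into `Ω₁Z(J(S)) ≤ C_G(J(S))`.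
Consequences: helper12's `kCent_of`, `kTI_of` give K-CENT and K-TI.
-/

set_option autoImplicit false
open Cfsg

namespace Cfsg.Agent.H54.JzK

open Cfsg.Agent.H64.Jz Cfsg.Agent.H59.JzK Cfsg.Agent.H52.Sr

universe u

/-- K-CONJ, with S2946 (as a closed Prop), the SR structure statement and `StZ2` as hypotheses. -/
theorem conjJ (h46 : Cfsg.Agent.H83.Jk.St46.{u}) (hSR : Cfsg.Agent.H52.Sr.StStruct.{u})
    (hZ2 : StZ2.{u}) : Cfsg.Agent.H12.Jk.StKConjJ.{u} := by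
  intro G _ _ S M K L T' K' L' hR u hu
  obtain ⟨hNV, h1, h2, h3, h4, h5, h6⟩ := struct_of_rctx hSR hZ2 S M K L T' K' L' hR
  obtain ⟨⟨⟨hL, hN, hZ⟩, hO, hMloc, hMJ, hSmax, -, hK, hLmax, hKL⟩, -, -, -⟩ := hR
  have hS2 : IsPGroup 2 ↥(S : Subgroup G) := S.isPGroup'
  have hS1 : (S : Subgroup G) ≠ ⊥ := hSmax.1.2.1
  obtain ⟨-, hV2, -, -, -⟩ := Cfsg.Agent.H32.Sr.vng L
  have hWV : ∀ i : Orb (S : Subgroup G) K, wOf i.1 ≤ Vof L := fun i => by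
    rw [← h1]
    exact le_iSup (fun i : Orb (S : Subgroup G) K => wOf i.1) i
  have htrans : ∀ i : Orb (S : Subgroup G) K, ∀ w ∈ wOf i.1,
      ∃ k ∈ i.1, k * w * k⁻¹ ∈
        omegaCenterOf (thompsonSubgroupOf 2 (S : Subgroup G)) ⊓ wOf i.1 := by
    intro i
    obtain ⟨hci, hiL, hcard4⟩ := h3 i
    have h46' := (h46 hL hN hZ (S : Subgroup G) hS2 hS1 i.1 hci
      (omegaCenterOf (thompsonSubgroupOf 2 (S : Subgroup G))) rfl).1
    have hZne : omegaCenterOf (thompsonSubgroupOf 2 (S : Subgroup G)) ⊓ wOf i.1 ≠ ⊥ := by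
      intro h
      rw [h, Subgroup.card_bot] at h46'
      exact absurd h46' (by norm_num)
    exact Cfsg.Agent.H83.JzConj.trans_of_odd hci.2.2.2.2.2 hcard4
      (Subgroup.le_normalizer.trans (Cfsg.Agent.H59.Sp.le i.1)) hci.1 (h6 i) hZne
  have hcomm : ∀ i j : Orb (S : Subgroup G) K,
      ∀ a ∈ wOf i.1, ∀ b ∈ wOf j.1, a * b = b * a := by
    intro i j a ha b hb
    exact Cfsg.Agent.H82.Jt.comm_of_sq hV2 (hWV i ha) (hWV j hb)
  have hcent : ∀ i j : Orb (S : Subgroup G) K, i ≠ j →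
      ∀ w ∈ wOf i.1, ∀ k ∈ j.1, k * w = w * k := by
    intro i j hij w hw k hk
    exact (Subgroup.mem_centralizer_iff.mp (h5 i j hij hw)) k hk
  have huV : u ∈ ⨆ i : Orb (S : Subgroup G) K, wOf i.1 := by
    rw [h1]
    exact hu
  obtain ⟨k, hk, hku⟩ := Cfsg.Agent.H83.JzConj.conj_into
    (fun i : Orb (S : Subgroup G) K => wOf i.1) (fun i => i.1)
    (omegaCenterOf (thompsonSubgroupOf 2 (S : Subgroup G))) hcomm hcent htrans huV
  have hkL : k ∈ L := by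
    have hle : (⨆ i : Orb (S : Subgroup G) K, i.1) ≤ L := iSup_le fun i => (h3 i).2.1
    exact hle hk
  obtain ⟨-, hu'C, -⟩ := Cfsg.Agent.H63.Sn.mem_omegaCenterOf _ hku.1
  exact ⟨k, hkL, hu'C⟩

/-- K-CENT, via helper12's reduction. -/
theorem kCent (h46 : Cfsg.Agent.H83.Jk.St46.{u}) (hSR : Cfsg.Agent.H52.Sr.StStruct.{u})
    (hZ2 : StZ2.{u}) : StKCent.{u} :=
  Cfsg.Agent.H12.Jk.kCent_of (conjJ h46 hSR hZ2)

/-- K-TI, via helper12's reduction. -/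
theorem kTI (h46 : Cfsg.Agent.H83.Jk.St46.{u}) (hSR : Cfsg.Agent.H52.Sr.StStruct.{u})
    (hZ2 : StZ2.{u}) : StKTI.{u} :=
  Cfsg.Agent.H12.Jk.kTI_of (conjJ h46 hSR hZ2)

end Cfsg.Agent.H54.JzK

universe v in
example (h46 : Cfsg.Agent.H83.Jk.St46.{v}) (hSR : Cfsg.Agent.H52.Sr.StStruct.{v})
    (hZ2 : Cfsg.Agent.H64.Jz.StZ2.{v}) : Cfsg.Agent.H12.Jk.StKConjJ.{v} :=
  Cfsg.Agent.H54.JzK.conjJ h46 hSR hZ2

universe v in
example (h46 : Cfsg.Agent.H83.Jk.St46.{v}) (hSR : Cfsg.Agent.H52.Sr.StStruct.{v})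
    (hZ2 : Cfsg.Agent.H64.Jz.StZ2.{v}) : Cfsg.Agent.H59.JzK.StKTI.{v} :=
  Cfsg.Agent.H54.JzK.kTI h46 hSR hZ2

universe v in
example (h46 : Cfsg.Agent.H83.Jk.St46.{v}) (hSR : Cfsg.Agent.H52.Sr.StStruct.{v})
    (hZ2 : Cfsg.Agent.H64.Jz.StZ2.{v}) : Cfsg.Agent.H59.JzK.StKCent.{v} :=
  Cfsg.Agent.H54.JzK.kCent h46 hSR hZ2
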