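import Cfsg.Agent.H52.JwDefs
import Cfsg.Agent.S2952
import Cfsg.Agent.H4.JkA
import Cfsg.Agent.H59.PushKill2
import Cfsg.Agent.H53.POf
import Cfsg.Agent.Helper55.J48

/-!
# W-P6 (piece 10 of the JW project, S2953)

For `P = ⟨K, T⟩` in the situation `Base S M T K L`: `|P : O₂(P)| = 6` and `P / O₂(P)` is not
abelian.  `K ⊴ P` (S2952), `|P : T| = 3` and the core `Q` of `T` in `P` has index at most 2 in
`T` (helper59's `pstruct`); `Q = O₂(P)`; `Q ≠ T` and `P/Q` is not abelian because `T` is not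
normal in `P` (else `K = [K, J(T)] ≤ T` would be a 2-group).
-/

set_option autoImplicit false
open Cfsg

namespace Cfsg.Agent.H54.Jw

open Cfsg.Agent.H64.Jz Cfsg.Agent.H52.Jw

universe u

theorem p6 : Cfsg.Agent.H52.Jw.StP6.{u} := by
  intro G _ _ S M T K L hB
  have hB' := hB
  obtain ⟨⟨hL, hN, hZ⟩, hO, hMloc, hMJ, hTmax, hTS, hK, hLmax, hKL⟩ := hB'
  obtain ⟨hov, hOKL, -⟩ := Cfsg.Agent.H4.Jk.ka S M T K L hB
  have hT2 : IsPGroup 2 ↥T := hTmax.1.1
  obtain ⟨hgen, hcomm, hidx3, -, -, -⟩ := hK.1.1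
  have hJT : thompsonSubgroupOf 2 T ≤ T := by
    unfold thompsonSubgroupOf
    exact Subgroup.map_subtype_le _
  have hOK : pCoreOf 2 K ≤ K := by
    unfold pCoreOf
    exact Subgroup.map_subtype_le _
  have hOT : pCoreOf 2 K ≤ T :=
    hOKL.trans (Cfsg.Agent.Helper55.J48.pCoreOf_le_of_sylowIn hov.1)
  have hKnot2 : ¬ IsPGroup 2 ↥K := by
    intro hK2
    obtain ⟨n, hn⟩ := IsPGroup.iff_card.mp hK2
    have hdvd : (pCoreOf 2 K).relIndex K ∣ Nat.card ↥K := Subgroup.relIndex_dvd_card _ _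
    rw [hidx3, hn] at hdvd
    have h32 := Nat.Prime.dvd_of_dvd_pow Nat.prime_three hdvd
    omega
  have hKT : ¬ K ≤ Subgroup.normalizer (T : Set G) := by
    intro hKN
    apply hKnot2
    have hKleT : K ≤ T := by
      rw [← hcomm, Subgroup.commutator_le]
      intro k hk j hj
      have h1 : k * j * k⁻¹ ∈ T := (Subgroup.mem_normalizer_iff.mp (hKN hk) j).mp (hJT hj)
      rw [commutatorElement_def]
      exact Subgroup.mul_mem _ h1 (Subgroup.inv_mem _ (hJT hj))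
    exact hT2.to_le hKleT
  have hKP : K ≤ K ⊔ T := le_sup_left
  have hTP : T ≤ K ⊔ T := le_sup_right
  have hKn : (K.subgroupOf (K ⊔ T)).Normal :=
    Cfsg.Agent.S2952.result hL hN hZ hO S M hMloc hMJ T hTmax K hK
  have hPK : K ⊔ T ≤ Subgroup.normalizer (K : Set G) :=
    (Subgroup.normal_subgroupOf_iff_le_normalizer hKP).mp hKn
  have hTK : T ≤ Subgroup.normalizer (K : Set G) := hTP.trans hPK
  have hsup : K.subgroupOf (K ⊔ T) ⊔ T.subgroupOf (K ⊔ T) = ⊤ := by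
    rw [← Subgroup.subgroupOf_sup hKP hTP, Subgroup.subgroupOf_self]
  have hT0 : IsPGroup 2 (T.subgroupOf (K ⊔ T)) := hT2.comap_subtype
  have h3 : (T.subgroupOf (K ⊔ T)).index = 3 :=
    Cfsg.Agent.H59.PushKill.index_eq_three (K.subgroupOf (K ⊔ T)) (T.subgroupOf (K ⊔ T))
      ((pCoreOf 2 K).subgroupOf (K ⊔ T)) hsup hT0
      (fun x hx => hOK hx) (fun x hx => hOT hx)
      (by rw [Subgroup.relIndex_subgroupOf hKP]; exact hidx3)
  have h3' : T.relIndex (K ⊔ T) = 3 := h3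
  obtain ⟨Q, hQT, hPQ, hQidx, hdich⟩ :=
    Cfsg.Agent.H59.PushKill.pstruct K T (pCoreOf 2 K) hT2 hTK hOK hOT hidx3 hgen
  have hQ2 : IsPGroup 2 ↥Q := hT2.to_le hQT
  have hQle : Q ≤ pCoreOf 2 (K ⊔ T) :=
    Cfsg.Agent.H53.le_pCoreOf (hQT.trans hTP) hPQ hQ2
  have hOPn : K ⊔ T ≤ Subgroup.normalizer (pCoreOf 2 (K ⊔ T) : Set G) :=
    Cfsg.Agent.Helper55.Uq.le_normalizer_pCoreOf' (K ⊔ T)
  have hOPP : pCoreOf 2 (K ⊔ T) ≤ K ⊔ T := by
    unfold pCoreOf
    exact Subgroup.map_subtype_le _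
  have hOP2 : IsPGroup 2 ↥(pCoreOf 2 (K ⊔ T)) := Cfsg.Agent.Helper55.Uq.pCoreOf_isPGroup (K ⊔ T)
  have hle : pCoreOf 2 (K ⊔ T) ≤ Q := by
    rcases hdich (pCoreOf 2 (K ⊔ T)) hOPP
      (fun x hx => Cfsg.Agent.H59.PushKill.cj_eq_of_mem_normalizer (hOPn hx)) with h | h
    · exact h
    · exact absurd (hOP2.to_le h) hKnot2
  have hQeq : pCoreOf 2 (K ⊔ T) = Q := le_antisymm hle hQle
  have hQT' : ¬ T ≤ Q := by
    intro h
    have hTQ : T = Q := le_antisymm h hQT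
    apply hKT
    rw [hTQ]
    exact hKP.trans hPQ
  have hidx2 : Q.relIndex T = 2 := by
    have h1 : Q.relIndex T ≠ 1 := fun h => hQT' (Subgroup.relIndex_eq_one.mp h)
    have h0 : Q.relIndex T ≠ 0 := by
      have : (Q.subgroupOf T).index ≠ 0 := Subgroup.index_ne_zero_of_finite
      exact this
    omega
  refine ⟨?_, ?_⟩
  · rw [hQeq, ← Subgroup.relIndex_mul_relIndex Q T (K ⊔ T) hQT hTP, hidx2, h3']
  · intro hcomm'
    apply hKT
    intro k hk
    rw [Subgroup.mem_normalizer_iff]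
    intro t
    constructor
    · intro ht
      have hc := hcomm' (Subgroup.commutator_mem_commutator (hKP hk) (hTP ht))
      rw [hQeq, commutatorElement_def] at hc
      have hcT : k * t * k⁻¹ * t⁻¹ ∈ T := hQT hc
      have e : k * t * k⁻¹ = (k * t * k⁻¹ * t⁻¹) * t := by group
      have h5 := T.mul_mem hcT ht
      rw [← e] at h5
      exact h5
    · intro ht
      have hc := hcomm' (Subgroup.commutator_mem_commutator ((K ⊔ T).inv_mem (hKP hk)) (hTP ht))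
      rw [hQeq, commutatorElement_def] at hc
      have hcT : k⁻¹ * (k * t * k⁻¹) * k⁻¹⁻¹ * (k * t * k⁻¹)⁻¹ ∈ T := hQT hc
      have e : t = (k⁻¹ * (k * t * k⁻¹) * k⁻¹⁻¹ * (k * t * k⁻¹)⁻¹) * (k * t * k⁻¹) := by group
      have h5 := T.mul_mem hcT ht
      rw [← e] at h5
      exact h5

end Cfsg.Agent.H54.Jw

universe v in
example : Cfsg.Agent.H52.Jw.StP6.{v} := Cfsg.Agent.H54.Jw.p6
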