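import Cfsg.Agent.H64.JzDefs
import Cfsg.Agent.S2947
import Cfsg.Agent.H48.JzSeTrans
import Cfsg.Agent.Helper55.UqBase

/-!
# JZ-NSE (piece 7 of the JZ project, S2951 / S2952)

A 2-local `L ⊇ N_G(J(S))` in the family of the Sylow 2-subgroup `S` has a straddling 2-subgroup:
otherwise `L` is strongly embedded (S2947), hence transitive on its involutions; `O₂(L) ≠ 1`
contains an involution, so every involution of `L` lies in `O₂(L)`, and `J(S)`, generated by
elements of order at most 2 of `S ≤ L`, lies in `O₂(L)`: excluded in the family of `S`.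
-/

set_option autoImplicit false
open Cfsg

namespace Cfsg.Agent.H54.Jz

universe u

theorem nse : Cfsg.Agent.H64.Jz.StNSE.{u} := by
  intro G _ _ hZN hO S L hLloc hLJ hLov
  obtain ⟨hL, hN, hZ⟩ := hZN
  by_contra hne
  have hemp : straddlingTwoSubgroups L = ∅ := Set.not_nonempty_iff_eq_empty.mp hne
  have hSE : IsStronglyEmbedded L :=
    (Cfsg.Agent.S2947.result hL hN hZ hO S L hLloc hLJ).mpr hemp
  obtain ⟨hSyl, hJ, hC⟩ := hLov
  have hSL : (S : Subgroup G) ≤ L := hSyl.1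
  have hQne : pCoreOf 2 L ≠ ⊥ := by
    intro hb
    apply hJ
    rw [hb] at hC ⊢
    intro x _
    apply hC
    rw [Subgroup.mem_centralizer_iff]
    intro y hy
    have hy1 : y = 1 := by simpa using hy
    rw [hy1]
    simp
  have hQ2 : IsPGroup 2 ↥(pCoreOf 2 L) := Cfsg.Agent.Helper55.Uq.pCoreOf_isPGroup L
  have hQL : pCoreOf 2 L ≤ L := by
    unfold pCoreOf
    exact Subgroup.map_subtype_le _
  have hQn : L ≤ Subgroup.normalizer (pCoreOf 2 L : Set G) :=
    Cfsg.Agent.Helper55.Uq.le_normalizer_pCoreOf' L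
  obtain ⟨z, hzQ, hz2⟩ : ∃ z ∈ pCoreOf 2 L, orderOf z = 2 := by
    have : Fact (Nat.Prime 2) := ⟨Nat.prime_two⟩
    rcases hQ2.card_eq_or_dvd with h1 | h2
    · exact absurd (Subgroup.eq_bot_of_card_eq _ h1) hQne
    · obtain ⟨x, hx⟩ := exists_prime_orderOf_dvd_card' 2 h2
      exact ⟨(x : G), x.2, by rw [Subgroup.orderOf_coe]; exact hx⟩
  have hinv : ∀ t ∈ L, orderOf t = 2 → t ∈ pCoreOf 2 L := by
    intro t htL ht
    obtain ⟨d, hdL, hd⟩ := Cfsg.Agent.H48.Jz.se_trans hSE hz2 (hQL hzQ) ht htL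
    rw [← hd]
    exact ((Subgroup.mem_normalizer_iff.mp (hQn hdL)) z).mp hzQ
  apply hJ
  unfold thompsonSubgroupOf thompsonSubgroup
  rw [Subgroup.map_le_iff_le_comap, sSup_le_iff]
  intro A hA a haA
  rw [Subgroup.mem_comap]
  have ha2 : a ^ 2 = 1 := hA.1.2 a haA
  have ha2' : ((a : ↥(S : Subgroup G)) : G) ^ 2 = 1 := by
    have := congrArg Subtype.val ha2
    simpa using this
  by_cases h1 : ((a : ↥(S : Subgroup G)) : G) = 1
  · rw [Subgroup.coe_subtype, h1]
    exact one_mem _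
  · have : Fact (Nat.Prime 2) := ⟨Nat.prime_two⟩
    exact hinv _ (hSL a.2) (orderOf_eq_prime ha2' h1)

end Cfsg.Agent.H54.Jz

universe v in
example : Cfsg.Agent.H64.Jz.StNSE.{v} := Cfsg.Agent.H54.Jz.nse
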