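import Cfsg.Agent.H54.SylTools

/-!
# S4274-H (helper54, for helper26): no simple group of order `87780 = 2² · 3 · 5 · 7 · 11 · 19`.
-/

set_option autoImplicit false

namespace Cfsg.Agent.H54.Ord175560

open Subgroup Cfsg.Agent.H21 Cfsg.Agent.H54.ST

/-- The divisors of `87780`. -/
theorem dvd_87780 {n : ℕ} (h : n ∣ 87780) :
    ∃ a b c d e f, (a = 1 ∨ a = 2 ∨ a = 4) ∧ (b = 1 ∨ b = 3) ∧ (c = 1 ∨ c = 5) ∧
      (d = 1 ∨ d = 7) ∧ (e = 1 ∨ e = 11) ∧ (f = 1 ∨ f = 19) ∧ n = a * b * c * d * e * f := by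
  have h1 : (87780 : ℕ) = 4 * (3 * (5 * (7 * (11 * 19)))) := by norm_num
  rw [h1] at h
  obtain ⟨a, r1, ha, hr1, rfl⟩ := Nat.dvd_mul.mp h
  obtain ⟨b, r2, hb, hr2, rfl⟩ := Nat.dvd_mul.mp hr1
  obtain ⟨c, r3, hc, hr3, rfl⟩ := Nat.dvd_mul.mp hr2
  obtain ⟨d, r4, hd, hr4, rfl⟩ := Nat.dvd_mul.mp hr3
  obtain ⟨e, f, he, hf, rfl⟩ := Nat.dvd_mul.mp hr4
  refine ⟨a, b, c, d, e, f, ?_, ?_, ?_, ?_, ?_, ?_, by ring⟩
  · have h4 := Nat.le_of_dvd (by norm_num) ha
    interval_cases a <;> omega
  · exact (Nat.dvd_prime (by norm_num)).mp hb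
  · exact (Nat.dvd_prime (by norm_num)).mp hc
  · exact (Nat.dvd_prime (by norm_num)).mp hd
  · exact (Nat.dvd_prime (by norm_num)).mp he
  · exact (Nat.dvd_prime (by norm_num)).mp hf

theorem cand5 {n : ℕ} (h1 : n ∣ 17556) (h2 : n % 5 = 1) (h3 : 19 ≤ n) :
    n = 21 ∨ n = 66 ∨ n = 76 ∨ n = 231 ∨ n = 266 ∨ n = 836 ∨ n = 1596 ∨ n = 2926 ∨
      n = 17556 := by
  obtain ⟨a, b, c, d, e, f, ha, hb, hc, hd, he, hf, rfl⟩ :=
    dvd_87780 (h1.trans (by norm_num))
  rcases ha with rfl | rfl | rfl <;> rcases hb with rfl | rfl <;> rcases hc with rfl | rfl <;>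
    rcases hd with rfl | rfl <;> rcases he with rfl | rfl <;> rcases hf with rfl | rfl <;> omega

theorem cand7 {n : ℕ} (h1 : n ∣ 12540) (h2 : n % 7 = 1) (h3 : 19 ≤ n) :
    n = 22 ∨ n = 57 ∨ n = 190 ∨ n = 330 ∨ n = 1254 ∨ n = 4180 := by
  obtain ⟨a, b, c, d, e, f, ha, hb, hc, hd, he, hf, rfl⟩ :=
    dvd_87780 (h1.trans (by norm_num))
  rcases ha with rfl | rfl | rfl <;> rcases hb with rfl | rfl <;> rcases hc with rfl | rfl <;>
    rcases hd with rfl | rfl <;> rcases he with rfl | rfl <;> rcases hf with rfl | rfl <;> omega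

theorem cand11 {n : ℕ} (h1 : n ∣ 7980) (h2 : n % 11 = 1) (h3 : 19 ≤ n) :
    n = 133 ∨ n = 210 ∨ n = 1596 := by
  obtain ⟨a, b, c, d, e, f, ha, hb, hc, hd, he, hf, rfl⟩ :=
    dvd_87780 (h1.trans (by norm_num))
  rcases ha with rfl | rfl | rfl <;> rcases hb with rfl | rfl <;> rcases hc with rfl | rfl <;>
    rcases hd with rfl | rfl <;> rcases he with rfl | rfl <;> rcases hf with rfl | rfl <;> omega

theorem cand19 {n : ℕ} (h1 : n ∣ 4620) (h2 : n % 19 = 1) (h3 : 19 ≤ n) :
    n = 20 ∨ n = 77 ∨ n = 210 ∨ n = 1540 := by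
  obtain ⟨a, b, c, d, e, f, ha, hb, hc, hd, he, hf, rfl⟩ :=
    dvd_87780 (h1.trans (by norm_num))
  rcases ha with rfl | rfl | rfl <;> rcases hb with rfl | rfl <;> rcases hc with rfl | rfl <;>
    rcases hd with rfl | rfl <;> rcases he with rfl | rfl <;> rcases hf with rfl | rfl <;> omega

/-- Uniqueness of the Sylow subgroup, numerically. -/
theorem uniq_of (q M : ℕ) (hM : M ∣ 87780) (hq : ∀ a b c d e f, (a = 1 ∨ a = 2 ∨ a = 4) →
    (b = 1 ∨ b = 3) → (c = 1 ∨ c = 5) → (d = 1 ∨ d = 7) → (e = 1 ∨ e = 11) → (f = 1 ∨ f = 19) →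
    a * b * c * d * e * f ∣ M → (a * b * c * d * e * f) % q = 1 → a * b * c * d * e * f = 1) :
    ∀ k : ℕ, k ∣ M → k % q = 1 → k = 1 := by
  intro k hk hkq
  obtain ⟨a, b, c, d, e, f, ha, hb, hc, hd, he, hf, rfl⟩ := dvd_87780 (hk.trans hM)
  exact hq a b c d e f ha hb hc hd he hf hk hkq

theorem uniq_1463 : ∀ k : ℕ, k ∣ 1463 → k % 7 = 1 → k = 1 := by
  apply uniq_of 7 1463 (by norm_num)
  intro a b c d e f ha hb hc hd he hf h1 h2
  rcases ha with rfl | rfl | rfl <;> rcases hb with rfl | rfl <;> rcases hc with rfl | rfl <;>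
    rcases hd with rfl | rfl <;> rcases he with rfl | rfl <;> rcases hf with rfl | rfl <;>
    omega

theorem uniq_665 : ∀ k : ℕ, k ∣ 665 → k % 7 = 1 → k = 1 := by
  apply uniq_of 7 665 (by norm_num)
  intro a b c d e f ha hb hc hd he hf h1 h2
  rcases ha with rfl | rfl | rfl <;> rcases hb with rfl | rfl <;> rcases hc with rfl | rfl <;>
    rcases hd with rfl | rfl <;> rcases he with rfl | rfl <;> rcases hf with rfl | rfl <;>
    omega

theorem uniq_2090 : ∀ k : ℕ, k ∣ 2090 → k % 11 = 1 → k = 1 := by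
  apply uniq_of 11 2090 (by norm_num)
  intro a b c d e f ha hb hc hd he hf h1 h2
  rcases ha with rfl | rfl | rfl <;> rcases hb with rfl | rfl <;> rcases hc with rfl | rfl <;>
    rcases hd with rfl | rfl <;> rcases he with rfl | rfl <;> rcases hf with rfl | rfl <;>
    omega

theorem uniq_1045 : ∀ k : ℕ, k ∣ 1045 → k % 11 = 1 → k = 1 := by
  apply uniq_of 11 1045 (by norm_num)
  intro a b c d e f ha hb hc hd he hf h1 h2
  rcases ha with rfl | rfl | rfl <;> rcases hb with rfl | rfl <;> rcases hc with rfl | rfl <;>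
    rcases hd with rfl | rfl <;> rcases he with rfl | rfl <;> rcases hf with rfl | rfl <;>
    omega

theorem uniq_165 : ∀ k : ℕ, k ∣ 165 → k % 11 = 1 → k = 1 := by
  apply uniq_of 11 165 (by norm_num)
  intro a b c d e f ha hb hc hd he hf h1 h2
  rcases ha with rfl | rfl | rfl <;> rcases hb with rfl | rfl <;> rcases hc with rfl | rfl <;>
    rcases hd with rfl | rfl <;> rcases he with rfl | rfl <;> rcases hf with rfl | rfl <;>
    omega

theorem uniq_190 : ∀ k : ℕ, k ∣ 190 → k % 19 = 1 → k = 1 := by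
  apply uniq_of 19 190 (by norm_num)
  intro a b c d e f ha hb hc hd he hf h1 h2
  rcases ha with rfl | rfl | rfl <;> rcases hb with rfl | rfl <;> rcases hc with rfl | rfl <;>
    rcases hd with rfl | rfl <;> rcases he with rfl | rfl <;> rcases hf with rfl | rfl <;>
    omega

theorem uniq_95 : ∀ k : ℕ, k ∣ 95 → k % 19 = 1 → k = 1 := by
  apply uniq_of 19 95 (by norm_num)
  intro a b c d e f ha hb hc hd he hf h1 h2
  rcases ha with rfl | rfl | rfl <;> rcases hb with rfl | rfl <;> rcases hc with rfl | rfl <;>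
    rcases hd with rfl | rfl <;> rcases he with rfl | rfl <;> rcases hf with rfl | rfl <;>
    omega

theorem totient_15 : Nat.totient 15 = 8 := by
  rw [show (15 : ℕ) = 3 * 5 from rfl, Nat.totient_mul (by norm_num),
    Nat.totient_prime (by norm_num), Nat.totient_prime (by norm_num)]

theorem totient_209 : Nat.totient 209 = 180 := by
  rw [show (209 : ℕ) = 11 * 19 from rfl, Nat.totient_mul (by norm_num),
    Nat.totient_prime (by norm_num), Nat.totient_prime (by norm_num)]

/-- There is no simple group of order `87780 = 2² · 3 · 5 · 7 · 11 · 19`. -/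
theorem no_simple_87780 {G : Type*} [Group G] [Finite G] [IsSimpleGroup G]
    (h : Nat.card G = 87780) : False := by
  classical
  have hnp : ¬ (Nat.card G).Prime := by rw [h]; norm_num
  have hG : ¬ IsMulCommutative G := not_comm_of_not_prime hnp
  have : Fact (Nat.Prime 3) := ⟨by norm_num⟩
  have : Fact (Nat.Prime 5) := ⟨by norm_num⟩
  have : Fact (Nat.Prime 7) := ⟨by norm_num⟩
  have : Fact (Nat.Prime 11) := ⟨by norm_num⟩
  have : Fact (Nat.Prime 19) := ⟨by norm_num⟩
  have h5N : Nat.card G = 5 * 17556 := by rw [h]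
  have h7N : Nat.card G = 7 * 12540 := by rw [h]
  have h11N : Nat.card G = 11 * 7980 := by rw [h]
  have h19N : Nat.card G = 19 * 4620 := by rw [h]
  have h19f : ∀ n : ℕ, 2 * Nat.card G ∣ n.factorial → 19 ≤ n := by
    intro n hn
    exact (Nat.Prime.dvd_factorial (by norm_num)).mp (Dvd.dvd.trans (by rw [h]; norm_num) hn)
  obtain ⟨n5, hn5⟩ : ∃ n, n = Nat.card (Sylow 5 G) := ⟨_, rfl⟩
  obtain ⟨n7, hn7⟩ : ∃ n, n = Nat.card (Sylow 7 G) := ⟨_, rfl⟩
  obtain ⟨n11, hn11⟩ : ∃ n, n = Nat.card (Sylow 11 G) := ⟨_, rfl⟩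
  obtain ⟨n19, hn19⟩ : ∃ n, n = Nat.card (Sylow 19 G) := ⟨_, rfl⟩
  have D5 : ∀ P : Sylow 5 G, Nat.card (P : Subgroup G) = 5 ∧
      Nat.card (normalizer ((P : Subgroup G) : Set G)) * n5 = 87780 ∧
      ∃ e c, Nat.card (centralizer ((P : Subgroup G) : Set G)) = 5 * c ∧
        5 * c * e = Nat.card (normalizer ((P : Subgroup G) : Set G)) ∧ e ≠ 1 ∧ e ∣ 4 := by
    intro P
    obtain ⟨a, -, -, -, b, c⟩ := syl_data hG h5N (by norm_num) P
    rw [← hn5, h] at b
    exact ⟨a, b, c⟩
  have D7 : ∀ P : Sylow 7 G, Nat.card (P : Subgroup G) = 7 ∧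
      Nat.card (normalizer ((P : Subgroup G) : Set G)) * n7 = 87780 ∧
      ∃ e c, Nat.card (centralizer ((P : Subgroup G) : Set G)) = 7 * c ∧
        7 * c * e = Nat.card (normalizer ((P : Subgroup G) : Set G)) ∧ e ≠ 1 ∧ e ∣ 6 := by
    intro P
    obtain ⟨a, -, -, -, b, c⟩ := syl_data hG h7N (by norm_num) P
    rw [← hn7, h] at b
    exact ⟨a, b, c⟩
  have D11 : ∀ P : Sylow 11 G, Nat.card (P : Subgroup G) = 11 ∧
      Nat.card (normalizer ((P : Subgroup G) : Set G)) * n11 = 87780 ∧
      ∃ e c, Nat.card (centralizer ((P : Subgroup G) : Set G)) = 11 * c ∧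
        11 * c * e = Nat.card (normalizer ((P : Subgroup G) : Set G)) ∧ e ≠ 1 ∧ e ∣ 10 := by
    intro P
    obtain ⟨a, -, -, -, b, c⟩ := syl_data hG h11N (by norm_num) P
    rw [← hn11, h] at b
    exact ⟨a, b, c⟩
  have D19 : ∀ P : Sylow 19 G, Nat.card (P : Subgroup G) = 19 ∧
      Nat.card (normalizer ((P : Subgroup G) : Set G)) * n19 = 87780 ∧
      ∃ e c, Nat.card (centralizer ((P : Subgroup G) : Set G)) = 19 * c ∧
        19 * c * e = Nat.card (normalizer ((P : Subgroup G) : Set G)) ∧ e ≠ 1 ∧ e ∣ 18 := by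
    intro P
    obtain ⟨a, -, -, -, b, c⟩ := syl_data hG h19N (by norm_num) P
    rw [← hn19, h] at b
    exact ⟨a, b, c⟩
  have C5 : n5 = 21 ∨ n5 = 66 ∨ n5 = 76 ∨ n5 = 231 ∨ n5 = 266 ∨ n5 = 836 ∨ n5 = 1596 ∨
      n5 = 2926 ∨ n5 = 17556 := by
    obtain ⟨-, a, b, c, -, -⟩ := syl_data hG h5N (by norm_num) (default : Sylow 5 G)
    rw [← hn5] at a b c
    exact cand5 a b (h19f _ c)
  have C7 : n7 = 22 ∨ n7 = 57 ∨ n7 = 190 ∨ n7 = 330 ∨ n7 = 1254 ∨ n7 = 4180 := by
    obtain ⟨-, a, b, c, -, -⟩ := syl_data hG h7N (by norm_num) (default : Sylow 7 G)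
    rw [← hn7] at a b c
    exact cand7 a b (h19f _ c)
  have C11 : n11 = 133 ∨ n11 = 210 ∨ n11 = 1596 := by
    obtain ⟨-, a, b, c, -, -⟩ := syl_data hG h11N (by norm_num) (default : Sylow 11 G)
    rw [← hn11] at a b c
    exact cand11 a b (h19f _ c)
  have C19 : n19 = 20 ∨ n19 = 77 ∨ n19 = 210 ∨ n19 = 1540 := by
    obtain ⟨-, a, b, c, -, -⟩ := syl_data hG h19N (by norm_num) (default : Sylow 19 G)
    rw [← hn19] at a b c
    exact cand19 a b (h19f _ c)
  -- Step A: `n₇ = 4180`
  have keyA1 : ∀ P : Sylow 7 G, 19 ∣ Nat.card (centralizer ((P : Subgroup G) : Set G)) →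
      ¬ 4389 ∣ Nat.card (normalizer ((P : Subgroup G) : Set G)) → False := by
    intro P h19 hnd
    obtain ⟨Q, hQC, hPQ⟩ := exists_sylow_le_centralizer (P : Subgroup G) h19N (by norm_num) h19
    obtain ⟨hQc, hQN, e, c, hC, hce, he1, he⟩ := D19 Q
    have h7 : 7 ∣ Nat.card (centralizer ((Q : Subgroup G) : Set G)) := by
      have h0 := Subgroup.card_dvd_of_le hPQ
      rwa [(D7 P).1] at h0
    have he18 : e ≤ 18 := Nat.le_of_dvd (by norm_num) he
    have hCQ : Nat.card (centralizer ((Q : Subgroup G) : Set G)) = 1463 ∧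
        Nat.card (normalizer ((Q : Subgroup G) : Set G)) = 4389 := by
      rcases C19 with rfl | rfl | rfl | rfl <;> interval_cases e <;> omega
    have hle := normalizer_le_of_unique (Q : Subgroup G) P hPQ (by rw [hCQ.1]; exact uniq_1463)
    have h1 := Subgroup.card_dvd_of_le hle
    rw [hCQ.2] at h1
    exact hnd h1
  have keyA2 : ∀ P : Sylow 7 G, 11 ∣ Nat.card (centralizer ((P : Subgroup G) : Set G)) →
      False := by
    intro P h11
    obtain ⟨Q, hQC, hPQ⟩ := exists_sylow_le_centralizer (P : Subgroup G) h11N (by norm_num) h11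
    obtain ⟨hQc, hQN, e, c, hC, hce, he1, he⟩ := D11 Q
    have h7 : 7 ∣ Nat.card (centralizer ((Q : Subgroup G) : Set G)) := by
      have h0 := Subgroup.card_dvd_of_le hPQ
      rwa [(D7 P).1] at h0
    have he10 : e ≤ 10 := Nat.le_of_dvd (by norm_num) he
    rcases C11 with rfl | rfl | rfl <;> interval_cases e <;> omega
  have keyA3 : ∀ P : Sylow 7 G, 5 ∣ Nat.card (centralizer ((P : Subgroup G) : Set G)) →
      ¬ 1330 ∣ Nat.card (normalizer ((P : Subgroup G) : Set G)) → False := by
    intro P h5 hnd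
    obtain ⟨F, hFC, hPF⟩ := exists_sylow_le_centralizer (P : Subgroup G) h5N (by norm_num) h5
    obtain ⟨hFc, hFN, e, c, hC, hce, he1, he⟩ := D5 F
    have h7 : 7 ∣ Nat.card (centralizer ((F : Subgroup G) : Set G)) := by
      have h0 := Subgroup.card_dvd_of_le hPF
      rwa [(D7 P).1] at h0
    have he4 : e ≤ 4 := Nat.le_of_dvd (by norm_num) he
    have hCF : Nat.card (centralizer ((F : Subgroup G) : Set G)) = 665 ∧
        Nat.card (normalizer ((F : Subgroup G) : Set G)) = 1330 := by
      rcases C5 with rfl | rfl | rfl | rfl | rfl | rfl | rfl | rfl | rfl <;>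
        interval_cases e <;> omega
    have hle := normalizer_le_of_unique (F : Subgroup G) P hPF (by rw [hCF.1]; exact uniq_665)
    have h1 := Subgroup.card_dvd_of_le hle
    rw [hCF.2] at h1
    exact hnd h1
  have hn7v : n7 = 4180 := by
    obtain ⟨hPc, hN, e, c, hC, hce, he1, he⟩ := D7 default
    have he6 : e ≤ 6 := Nat.le_of_dvd (by norm_num) he
    rcases C7 with rfl | rfl | rfl | rfl | rfl | rfl
    · exfalso
      apply keyA1 default
      · interval_cases e <;> omega
      · omega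
    · exfalso
      apply keyA2 default
      interval_cases e <;> omega
    · exfalso
      apply keyA2 default
      interval_cases e <;> omega
    · exfalso
      apply keyA1 default
      · interval_cases e <;> omega
      · omega
    · exfalso
      apply keyA3 default
      · interval_cases e <;> omega
      · omega
    · rfl
  subst hn7v
  have hC7 : ∀ P : Sylow 7 G, Nat.card (centralizer ((P : Subgroup G) : Set G)) = 7 := by
    intro P
    obtain ⟨hPc, hN, e, c, hC, hce, he1, he⟩ := D7 P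
    have he6 : e ≤ 6 := Nat.le_of_dvd (by norm_num) he
    interval_cases e <;> omega
  -- Step B: `n₅ = 2926`
  have keyB7 : ∀ F : Sylow 5 G, 7 ∣ Nat.card (centralizer ((F : Subgroup G) : Set G)) →
      False := by
    intro F h7
    obtain ⟨Q, hQC, hFQ⟩ := exists_sylow_le_centralizer (F : Subgroup G) h7N (by norm_num) h7
    have h0 := Subgroup.card_dvd_of_le hFQ
    rw [(D5 F).1, hC7 Q] at h0
    omega
  have keyB11 : ∀ F : Sylow 5 G, 11 ∣ Nat.card (centralizer ((F : Subgroup G) : Set G)) →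
      (∀ k : ℕ, k ∣ Nat.card (centralizer ((F : Subgroup G) : Set G)) → k % 11 = 1 → k = 1) →
      ∃ (Q : Sylow 11 G) (t : ℕ), t % 5 = 1 ∧
        Nat.card (normalizer ((Q : Subgroup G) : Set G)) =
          t * Nat.card (normalizer ((F : Subgroup G) : Set G)) := by
    intro F h11 hu
    obtain ⟨Q, hQC, hFQ⟩ := exists_sylow_le_centralizer (F : Subgroup G) h11N (by norm_num) h11
    have hle := normalizer_le_of_unique (F : Subgroup G) Q hQC hu
    obtain ⟨t, ht, hc⟩ := card_eq_mul_of_normalizer_le 5 F _ hle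
    exact ⟨Q, t, ht, hc⟩
  have keyB19 : ∀ F : Sylow 5 G, 19 ∣ Nat.card (centralizer ((F : Subgroup G) : Set G)) →
      (∀ k : ℕ, k ∣ Nat.card (centralizer ((F : Subgroup G) : Set G)) → k % 19 = 1 → k = 1) →
      ∃ (Q : Sylow 19 G) (t : ℕ), t % 5 = 1 ∧
        Nat.card (normalizer ((Q : Subgroup G) : Set G)) =
          t * Nat.card (normalizer ((F : Subgroup G) : Set G)) := by
    intro F h19 hu
    obtain ⟨Q, hQC, hFQ⟩ := exists_sylow_le_centralizer (F : Subgroup G) h19N (by norm_num) h19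
    have hle := normalizer_le_of_unique (F : Subgroup G) Q hQC hu
    obtain ⟨t, ht, hc⟩ := card_eq_mul_of_normalizer_le 5 F _ hle
    exact ⟨Q, t, ht, hc⟩
  have hn5v : n5 = 2926 := by
    obtain ⟨hPc, hN, e, c, hC, hce, he1, he⟩ := D5 default
    have he4 : e ≤ 4 := Nat.le_of_dvd (by norm_num) he
    rcases C5 with rfl | rfl | rfl | rfl | rfl | rfl | rfl | rfl | rfl
    · -- 21
      exfalso
      have hCv : Nat.card (centralizer (((default : Sylow 5 G) : Subgroup G) : Set G)) = 2090 ∨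
          Nat.card (centralizer (((default : Sylow 5 G) : Subgroup G) : Set G)) = 1045 := by
        interval_cases e <;> omega
      have hNv : Nat.card (normalizer (((default : Sylow 5 G) : Subgroup G) : Set G)) = 4180 := by
        omega
      obtain ⟨Q, t, ht, hc⟩ := keyB11 default (by rcases hCv with h1 | h1 <;> rw [h1] <;> norm_num)
        (by rcases hCv with h1 | h1 <;> rw [h1] <;> [exact uniq_2090; exact uniq_1045])
      obtain ⟨-, hQN, -⟩ := D11 Q
      rw [hNv] at hc
      rcases C11 with rfl | rfl | rfl <;> omega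
    · -- 66
      exfalso
      apply keyB7 default
      interval_cases e <;> omega
    · exfalso; interval_cases e <;> omega
    · -- 231
      exfalso
      have hCv : Nat.card (centralizer (((default : Sylow 5 G) : Subgroup G) : Set G)) = 190 ∨
          Nat.card (centralizer (((default : Sylow 5 G) : Subgroup G) : Set G)) = 95 := by
        interval_cases e <;> omega
      have hNv : Nat.card (normalizer (((default : Sylow 5 G) : Subgroup G) : Set G)) = 380 := by
        omega
      obtain ⟨Q, t, ht, hc⟩ := keyB19 default (by rcases hCv with h1 | h1 <;> rw [h1] <;> norm_num)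
        (by rcases hCv with h1 | h1 <;> rw [h1] <;> [exact uniq_190; exact uniq_95])
      obtain ⟨-, hQN, -⟩ := D19 Q
      rw [hNv] at hc
      rcases C19 with rfl | rfl | rfl | rfl <;> omega
    · -- 266
      exfalso
      have hCv : Nat.card (centralizer (((default : Sylow 5 G) : Subgroup G) : Set G)) = 165 := by
        interval_cases e <;> omega
      have hNv : Nat.card (normalizer (((default : Sylow 5 G) : Subgroup G) : Set G)) = 330 := by
        omega
      obtain ⟨Q, t, ht, hc⟩ := keyB11 default (by rw [hCv]; norm_num)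
        (by rw [hCv]; exact uniq_165)
      obtain ⟨-, hQN, -⟩ := D11 Q
      rw [hNv] at hc
      rcases C11 with rfl | rfl | rfl <;> omega
    · exfalso; interval_cases e <;> omega
    · exfalso; interval_cases e <;> omega
    · rfl
    · exfalso; interval_cases e <;> omega
  subst hn5v
  have hC5 : ∀ F : Sylow 5 G, Nat.card (centralizer ((F : Subgroup G) : Set G)) = 15 := by
    intro F
    obtain ⟨hPc, hN, e, c, hC, hce, he1, he⟩ := D5 F
    have he4 : e ≤ 4 := Nat.le_of_dvd (by norm_num) he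
    interval_cases e <;> omega
  -- Step C: counting
  have c7 : Nat.card {g : G // orderOf g = 7} = 25080 := by
    rw [card_orderOf_eq_prime 7 default (D7 default).1, ← hn7]
  have c5 : Nat.card {g : G // orderOf g = 5} = 11704 := by
    rw [card_orderOf_eq_prime 5 default (D5 default).1, ← hn5]
  have c15 : 23408 ≤ Nat.card {g : G // orderOf g = 15} := by
    have h1 := card_orderOf_ge (G := G) 5 15 (by norm_num) (fun P => (D5 P).1) (fun P => by
      obtain ⟨z, hz, ho⟩ := exists_orderOf_mul 5 3 (by norm_num) P (D5 P).1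
        (by rw [hC5 P]; norm_num)
      exact ⟨z, hz, by rw [ho]⟩)
    rw [← hn5, totient_15] at h1
    omega
  have keyC7 : ∀ P : Sylow 19 G, 7 ∣ Nat.card (centralizer ((P : Subgroup G) : Set G)) →
      False := by
    intro P h7
    obtain ⟨Q, hQC, hPQ⟩ := exists_sylow_le_centralizer (P : Subgroup G) h7N (by norm_num) h7
    have h0 := Subgroup.card_dvd_of_le hPQ
    rw [(D19 P).1, hC7 Q] at h0
    omega
  have keyC5 : ∀ P : Sylow 19 G, 5 ∣ Nat.card (centralizer ((P : Subgroup G) : Set G)) →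
      False := by
    intro P h5
    obtain ⟨Q, hQC, hPQ⟩ := exists_sylow_le_centralizer (P : Subgroup G) h5N (by norm_num) h5
    have h0 := Subgroup.card_dvd_of_le hPQ
    rw [(D19 P).1, hC5 Q] at h0
    omega
  obtain ⟨hPc, hN, e, c, hC, hce, he1, he⟩ := D19 default
  have he18 : e ≤ 18 := Nat.le_of_dvd (by norm_num) he
  rcases C19 with rfl | rfl | rfl | rfl
  · apply keyC7 default
    interval_cases e <;> omega
  · apply keyC5 default
    interval_cases e <;> omega
  · -- 210
    have hC19 : ∀ P : Sylow 19 G, Nat.card (centralizer ((P : Subgroup G) : Set G)) = 209 := by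
      intro P
      obtain ⟨hPc', hN', e', c', hC', hce', he1', he'⟩ := D19 P
      have he18' : e' ≤ 18 := Nat.le_of_dvd (by norm_num) he'
      interval_cases e' <;> omega
    have c209 : 37800 ≤ Nat.card {g : G // orderOf g = 209} := by
      have h1 := card_orderOf_ge (G := G) 19 209 (by norm_num) (fun P => (D19 P).1) (fun P => by
        obtain ⟨z, hz, ho⟩ := exists_orderOf_mul 19 11 (by norm_num) P (D19 P).1
          (by rw [hC19 P]; norm_num)
        exact ⟨z, hz, by rw [ho]⟩)
      rw [← hn19, totient_209] at h1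
      omega
    have hsum := sum_card_orderOf_le (G := G) {7, 5, 15, 209}
    rw [Finset.sum_insert (by decide), Finset.sum_insert (by decide),
      Finset.sum_insert (by decide), Finset.sum_singleton, h] at hsum
    omega
  · -- 1540
    have c19 : Nat.card {g : G // orderOf g = 19} = 27720 := by
      rw [card_orderOf_eq_prime 19 default (D19 default).1, ← hn19]
    have hsum := sum_card_orderOf_le (G := G) {7, 5, 15, 19}
    rw [Finset.sum_insert (by decide), Finset.sum_insert (by decide),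
      Finset.sum_insert (by decide), Finset.sum_singleton, h] at hsum
    omega

end Cfsg.Agent.H54.Ord175560

example {G : Type*} [Group G] [Finite G] [IsSimpleGroup G] (h : Nat.card G = 87780) : False :=
  Cfsg.Agent.H54.Ord175560.no_simple_87780 h
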