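import Mathlib
import Cfsg.Agent.H26.P2Defs
import Cfsg.Agent.H81.Reg
import Cfsg.Agent.H82.Extra
import Cfsg.Agent.H28.BrBase
import Cfsg.Agent.H4.Chars
import Cfsg.Agent.H4.PaQb

/-!
# S4705 (helper26's project), helper54's common lemmas for P2-TWO and P2-MIX
-/

set_option autoImplicit false
set_option linter.unusedSectionVars false

namespace Cfsg.Agent.H54.P2

open Cfsg Cfsg.Agent.H26.P2
open scoped ComplexConjugate

universe u

section

variable {G : Type u} [Group G] [Finite G] {p : ℕ} [Fact p.Prime] {P : Sylow p G} {χ : G → ℂ}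
  {μ : ↥(P : Subgroup G) →* ℂˣ} {s : ℕ}

theorem chi_one (hyp : Hyp p P χ μ s) : χ 1 = (p : ℂ) - 2 := by
  obtain ⟨h1, -⟩ := Cfsg.Agent.H81.irr_charDegree (⟨χ, hyp.irr⟩ : IrrCharacter G)
  have h2 : χ 1 = (charDegree χ : ℂ) := h1
  rw [h2, ← hyp.deg]
  push_cast
  ring

theorem chi_one_ne_zero (hyp : Hyp p P χ μ s) : χ 1 ≠ 0 :=
  Cfsg.Agent.H81.irr_one_ne_zero (⟨χ, hyp.irr⟩ : IrrCharacter G)

/-- `2`-elements are `p`-regular -/
theorem two_reg (hyp : Hyp p P χ μ s) (y : G) (i : ℕ) (hy : y ^ (2 ^ i) = 1) :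
    ¬ p ∣ orderOf y := by
  intro h
  have hp : p.Prime := Fact.out
  have h1 : p ∣ 2 ^ i := h.trans (orderOf_dvd_of_pow_eq_one hy)
  have h2 : p ∣ 2 := hp.dvd_of_dvd_pow h1
  have h3 := Nat.le_of_dvd (by norm_num) h2
  have := hyp.hp5
  omega

/-- central `2`-elements act trivially -/
theorem central_two_mul (hyp : Hyp p P χ μ s) (z : G) (hz : z ∈ Subgroup.center G) (i : ℕ)
    (hzi : z ^ (2 ^ i) = 1) (g : G) : χ (z * g) = χ g := by
  obtain ⟨c, hc, -, -⟩ := Cfsg.Agent.H82.irr_central_scalar (⟨χ, hyp.irr⟩ : IrrCharacter G) z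
    (fun g => Subgroup.mem_center_iff.mp hz g)
  have hc' : ∀ g : G, χ (z * g) = c * χ g := hc
  have h1 : χ z = c * χ 1 := by
    have := hc' 1
    rwa [mul_one] at this
  have h2 := hyp.two z hz i hzi
  have hc1 : c = 1 := by
    have : c * χ 1 = 1 * χ 1 := by rw [← h1, h2, one_mul]
    exact mul_right_cancel₀ (chi_one_ne_zero hyp) this
  rw [hc' g, hc1, one_mul]

/-- central elements act by scalars of absolute value one -/
theorem central_abs (hyp : Hyp p P χ μ s) (z : G) (hz : z ∈ Subgroup.center G) :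
    ∃ c : ℂ, (∀ g : G, χ (z * g) = c * χ g) ∧ c * conj c = 1 :=
  Cfsg.Agent.H28.Br.central_scalar (⟨χ, hyp.irr⟩ : IrrCharacter G) z hz

theorem chi_inv (hyp : Hyp p P χ μ s) (g : G) : χ g⁻¹ = conj (χ g) :=
  Cfsg.Agent.H81.irr_inv (⟨χ, hyp.irr⟩ : IrrCharacter G) g

end

/-- sum over a cyclic subgroup -/
theorem sum_zpowers {G : Type u} [Group G] [Finite G] (u : G) (f : G → ℂ)
    [Fintype ↥(Subgroup.zpowers u)] :
    ∑ c : ↥(Subgroup.zpowers u), f (c : G) = ∑ k ∈ Finset.range (orderOf u), f (u ^ k) := by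
  rw [← Fin.sum_univ_eq_sum_range (fun k => f (u ^ k)) (orderOf u)]
  rw [← Equiv.sum_comp (finEquivZPowers (isOfFinOrder_of_finite u))]
  rfl

/-- sum of a `4`-periodic function -/
theorem sum_range_four_mul (g : ℕ → ℂ) (a b c d : ℂ) (h0 : ∀ j, g (4 * j) = a)
    (h1 : ∀ j, g (4 * j + 1) = b) (h2 : ∀ j, g (4 * j + 2) = c) (h3 : ∀ j, g (4 * j + 3) = d)
    (M : ℕ) : ∑ k ∈ Finset.range (4 * M), g k = M * (a + b + c + d) := by
  induction M with
  | zero => simp
  | succ M ih =>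
    have e : 4 * (M + 1) = 4 * M + 1 + 1 + 1 + 1 := by ring
    have e1 : g (4 * M + 1 + 1) = c := h2 M
    have e2 : g (4 * M + 1 + 1 + 1) = d := h3 M
    rw [e, Finset.sum_range_succ, Finset.sum_range_succ, Finset.sum_range_succ,
      Finset.sum_range_succ, ih, h0, h1, e1, e2]
    push_cast
    ring

/-- the multiplicity of the trivial character of a subgroup in a character -/
theorem sum_subgroup_nat {G : Type u} [Group G] [Finite G] (H : Subgroup G) {χ : G → ℂ}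
    (hχ : IsCharacter G χ) [Fintype ↥H] :
    ∃ n : ℕ, ∑ c : ↥H, χ (c : G) = (n : ℂ) * (Nat.card ↥H : ℂ) := by
  obtain ⟨n, hn⟩ := Cfsg.Agent.H4.classInner_isCharacter_nat
    (Cfsg.Agent.H4.isCharacter_restrict H hχ)
    (Cfsg.Agent.H4.isCharacter_of_isIrrCharacter (Cfsg.Agent.H4.isIrrCharacter_one (G := ↥H)))
  refine ⟨n, ?_⟩
  have hne : (Nat.card ↥H : ℂ) ≠ 0 := by exact_mod_cast Nat.card_pos.ne'
  unfold classInner at hn
  simp only [map_one, mul_one] at hn
  rw [← hn]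
  field_simp

end Cfsg.Agent.H54.P2
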