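import Mathlib
import Cfsg.Agent.H26.P2Defs
import Cfsg.Agent.H54.P2Base
import Cfsg.Agent.H4.BrauerBasic

/-!
# P2-MIX (helper54, for helper26's S4705): a non-central `2`-element commutes with no non-central
`p`-regular element of odd order
-/

set_option autoImplicit false

namespace Cfsg.Agent.H54.P2

open Cfsg Cfsg.Agent.H26.P2
open scoped ComplexConjugate

universe u

/-- sum over a cyclic subgroup, general summand -/
theorem sum_zpowers' {G : Type u} [Group G] [Finite G] (u : G)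
    (h : ↥(Subgroup.zpowers u) → ℂ) [Fintype ↥(Subgroup.zpowers u)] :
    ∑ c : ↥(Subgroup.zpowers u), h c =
      ∑ k ∈ Finset.range (orderOf u), h ((⟨u, Subgroup.mem_zpowers u⟩ : ↥(Subgroup.zpowers u)) ^ k) := by
  rw [← Fin.sum_univ_eq_sum_range
    (fun k => h ((⟨u, Subgroup.mem_zpowers u⟩ : ↥(Subgroup.zpowers u)) ^ k)) (orderOf u)]
  rw [← Equiv.sum_comp (finEquivZPowers (isOfFinOrder_of_finite u))]
  apply Finset.sum_congr rfl
  intro k _
  congr 1

/-- sum of a periodic function over several periods -/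
theorem sum_range_periodic (c : ℕ → ℝ) (m : ℕ) (hper : ∀ k, c (k + m) = c k) (L : ℕ) :
    ∑ k ∈ Finset.range (m * L), c k = L * ∑ k ∈ Finset.range m, c k := by
  have hper' : ∀ L k : ℕ, c (m * L + k) = c k := by
    intro L
    induction L with
    | zero => intro k; simp
    | succ L ih =>
      intro k
      have e : m * (L + 1) + k = (m * L + k) + m := by ring
      rw [e, hper, ih]
  induction L with
  | zero => simp
  | succ L ih =>
    rw [Nat.mul_succ, Finset.sum_range_add, ih]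
    simp only [hper']
    push_cast
    ring

/-- P2-MIX -/
theorem mix : StMix.{u} := by
  intro G _ _ p _ P χ μ s hyp hE hOdd hA hB t w i hti htZ hwodd hwreg htw
  classical
  have hp : p.Prime := Fact.out
  have hp5 := hyp.hp5
  have hpR : (6 : ℝ) ≤ (p : ℝ) := by exact_mod_cast hp5
  have htt : t * t ∈ Subgroup.center G := hB t i hti
  have htti : (t * t) ^ (2 ^ i) = 1 := by rw [(Commute.refl t).mul_pow, hti, one_mul]
  have hχt : χ t = -1 := hA t i hti htZ htt
  have hcomm : Commute t w := htw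
  obtain ⟨d, hd⟩ : ∃ d : ℕ, d = orderOf (QuotientGroup.mk w : G ⧸ Subgroup.center G) := ⟨_, rfl⟩
  have hdk : ∀ k : ℕ, w ^ k ∈ Subgroup.center G ↔ d ∣ k := by
    intro k
    rw [hd, orderOf_dvd_iff_pow_eq_one, ← QuotientGroup.mk_pow, QuotientGroup.eq_one_iff]
  have hdn : d ∣ orderOf w := by
    rw [hd]
    exact orderOf_map_dvd (QuotientGroup.mk' (Subgroup.center G)) w
  have hdodd : Odd d := hwodd.of_dvd_nat hdn
  have hdpos : 0 < d := hdodd.pos
  suffices h1 : d = 1 by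
    have h2 := (hdk 1).mpr (by rw [h1])
    simpa using h2
  have hd2 : Nat.Coprime d 2 := Nat.coprime_two_right.mpr hdodd
  have hwk_odd : ∀ k : ℕ, Odd (orderOf (w ^ k)) := fun k => hwodd.of_dvd_nat (orderOf_pow_dvd k)
  have hwk_reg : ∀ k : ℕ, ¬ p ∣ orderOf (w ^ k) := fun k h => hwreg (h.trans (orderOf_pow_dvd k))
  -- central elements do not change absolute values
  have hZabs : ∀ z ∈ Subgroup.center G, ∀ g : G,
      Complex.normSq (χ (z * g)) = Complex.normSq (χ g) := by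
    intro z hz g
    obtain ⟨c, hc, hc1⟩ := central_abs hyp z hz
    have hn : Complex.normSq c = 1 := by
      rw [Complex.mul_conj] at hc1
      exact_mod_cast hc1
    rw [hc g, map_mul, hn, one_mul]
  have hmod : ∀ a : ℕ, Complex.normSq (χ (t * w ^ a)) = Complex.normSq (χ (t * w ^ (a % d))) := by
    intro a
    have hz : w ^ (d * (a / d)) ∈ Subgroup.center G := (hdk _).mpr (dvd_mul_right d _)
    have e : t * w ^ a = w ^ (d * (a / d)) * (t * w ^ (a % d)) := by
      conv_lhs => rw [← Nat.mod_add_div a d, pow_add]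
      rw [Subgroup.mem_center_iff.mp hz (w ^ (a % d)), ← mul_assoc,
        Subgroup.mem_center_iff.mp hz t, mul_assoc]
    rw [e, hZabs _ hz]
  -- the values of `χ` on the powers of `t * w`
  have ht2 : ∀ j : ℕ, t ^ (2 * j) ∈ Subgroup.center G := fun j => by
    rw [pow_mul, pow_two]
    exact Subgroup.pow_mem _ htt j
  have ht2i : ∀ j : ℕ, (t ^ j) ^ (2 ^ i) = 1 := fun j => by
    rw [← pow_mul, mul_comm, pow_mul, hti, one_pow]
  have hval_even : ∀ j : ℕ, χ ((t * w) ^ (2 * j)) = χ (w ^ (2 * j)) := fun j => by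
    rw [hcomm.mul_pow, central_two_mul hyp _ (ht2 j) i (ht2i _)]
  have hval_odd : ∀ j : ℕ, χ ((t * w) ^ (2 * j + 1)) = χ (t * w ^ (2 * j + 1)) := fun j => by
    rw [hcomm.mul_pow, pow_succ t, mul_assoc, central_two_mul hyp _ (ht2 j) i (ht2i _)]
  have hchi1 : Complex.normSq (χ 1) = ((p : ℝ) - 2) ^ 2 := by
    rw [chi_one hyp]
    have e : ((p : ℂ) - 2) = (((p : ℝ) - 2 : ℝ) : ℂ) := by push_cast; ring
    rw [e, Complex.normSq_ofReal]
    ring
  have hcc_a : ∀ j : ℕ, d ∣ 2 * j → Complex.normSq (χ ((t * w) ^ (2 * j))) = ((p : ℝ) - 2) ^ 2 := by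
    intro j hj
    have hz := (hdk _).mpr hj
    rw [hval_even, ← hchi1, ← hZabs _ hz 1, mul_one]
  have hcc_b : ∀ j : ℕ, ¬ d ∣ 2 * j → Complex.normSq (χ ((t * w) ^ (2 * j))) = 0 := by
    intro j hj
    rw [hval_even, hOdd _ (hwk_odd _) (hwk_reg _) (fun h => hj ((hdk _).mp h)), map_zero]
  have hcc_c : ∀ j : ℕ, d ∣ 2 * j + 1 → Complex.normSq (χ ((t * w) ^ (2 * j + 1))) = 1 := by
    intro j hj
    have hz := (hdk _).mpr hj
    rw [hval_odd, Subgroup.mem_center_iff.mp hz t, hZabs _ hz, hχt]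
    simp
  -- the two periodic sequences
  obtain ⟨cc, hcc⟩ : ∃ cc : ℕ → ℝ, ∀ k, cc k = Complex.normSq (χ ((t * w) ^ k)) :=
    ⟨_, fun _ => rfl⟩
  have hcc_even_dvd : ∀ k : ℕ, Even k → d ∣ k → cc k = ((p : ℝ) - 2) ^ 2 := by
    intro k hk hdvd
    obtain ⟨j, hj⟩ := hk
    have e : k = 2 * j := by omega
    subst e
    rw [hcc]
    exact hcc_a j hdvd
  have hcc_even_ndvd : ∀ k : ℕ, Even k → ¬ d ∣ k → cc k = 0 := by
    intro k hk hdvd
    obtain ⟨j, hj⟩ := hk
    have e : k = 2 * j := by omega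
    subst e
    rw [hcc]
    exact hcc_b j hdvd
  have hcc_odd_dvd : ∀ k : ℕ, Odd k → d ∣ k → cc k = 1 := by
    intro k hk hdvd
    obtain ⟨j, hj⟩ := hk
    subst hj
    rw [hcc]
    exact hcc_c j hdvd
  have hcc_odd : ∀ k : ℕ, Odd k → cc k = Complex.normSq (χ (t * w ^ k)) := by
    intro k hk
    obtain ⟨j, hj⟩ := hk
    subst hj
    rw [hcc, hval_odd]
  have hcc_nonneg : ∀ k : ℕ, 0 ≤ cc k := fun k => by
    rw [hcc]
    exact Complex.normSq_nonneg _
  have hper : ∀ k : ℕ, cc (k + 2 * d) = cc k := by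
    intro k
    rcases Nat.even_or_odd k with hk | hk
    · have hk' : Even (k + 2 * d) := hk.add (even_two_mul d)
      by_cases hdv : d ∣ k
      · rw [hcc_even_dvd k hk hdv, hcc_even_dvd _ hk' (Dvd.dvd.add hdv (dvd_mul_left d 2))]
      · rw [hcc_even_ndvd k hk hdv, hcc_even_ndvd _ hk'
          (fun h => hdv ((Nat.dvd_add_left (dvd_mul_left d 2)).mp h))]
    · have hk' : Odd (k + 2 * d) := hk.add_even (even_two_mul d)
      rw [hcc_odd k hk, hcc_odd _ hk', hmod (k + 2 * d), hmod k, Nat.add_mul_mod_self_right]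
  obtain ⟨sg, hsg⟩ : ∃ sg : ℕ → ℝ, ∀ k, sg k = (-1) ^ k * cc k := ⟨_, fun _ => rfl⟩
  have hsper : ∀ k : ℕ, sg (k + 2 * d) = sg k := by
    intro k
    rw [hsg, hsg, hper, pow_add, pow_mul]
    norm_num
  -- one period
  have h0mem : 0 ∈ Finset.range (2 * d) := Finset.mem_range.mpr (by omega)
  have hdmem : d ∈ (Finset.range (2 * d)).erase 0 :=
    Finset.mem_erase.mpr ⟨hdpos.ne', Finset.mem_range.mpr (by omega)⟩
  obtain ⟨R, hR⟩ : ∃ R : Finset ℕ, R = ((Finset.range (2 * d)).erase 0).erase d := ⟨_, rfl⟩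
  have hRmem : ∀ k ∈ R, k < 2 * d ∧ ¬ d ∣ k := by
    intro k hk
    rw [hR, Finset.mem_erase, Finset.mem_erase, Finset.mem_range] at hk
    obtain ⟨hkd, hk0, hk2⟩ := hk
    refine ⟨hk2, ?_⟩
    rintro ⟨q, rfl⟩
    have hq : q < 2 := by nlinarith
    interval_cases q
    · exact hk0 (by simp)
    · exact hkd (by simp)
  have hT1 : ∑ k ∈ Finset.range (2 * d), cc k = ((p : ℝ) - 2) ^ 2 + 1 + ∑ k ∈ R, cc k := by
    rw [← Finset.add_sum_erase _ _ h0mem, ← Finset.add_sum_erase _ _ hdmem, ← hR,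
      hcc_even_dvd 0 (by simp) (dvd_zero d), hcc_odd_dvd d hdodd (dvd_refl d)]
    ring
  have hT2 : ∑ k ∈ Finset.range (2 * d), sg k = ((p : ℝ) - 2) ^ 2 - 1 - ∑ k ∈ R, cc k := by
    rw [← Finset.add_sum_erase _ _ h0mem, ← Finset.add_sum_erase _ _ hdmem, ← hR]
    have e0 : sg 0 = ((p : ℝ) - 2) ^ 2 := by
      rw [hsg, hcc_even_dvd 0 (by simp) (dvd_zero d)]
      simp
    have ed : sg d = -1 := by
      rw [hsg, hcc_odd_dvd d hdodd (dvd_refl d), hdodd.neg_one_pow]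
      simp
    have eR : ∑ k ∈ R, sg k = - ∑ k ∈ R, cc k := by
      rw [← Finset.sum_neg_distrib]
      apply Finset.sum_congr rfl
      intro k hk
      rw [hsg]
      rcases Nat.even_or_odd k with he | ho
      · rw [hcc_even_ndvd k he (hRmem k hk).2]
        simp
      · rw [ho.neg_one_pow]
        ring
    rw [e0, ed, eR]
    ring
  -- the cyclic group generated by `t * w` and its sign character
  have htne : t ≠ 1 := fun h => htZ (h ▸ Subgroup.one_mem _)
  have h2t : 2 ∣ orderOf t := by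
    obtain ⟨a, -, ha⟩ := (Nat.dvd_prime_pow Nat.prime_two).mp (orderOf_dvd_of_pow_eq_one hti)
    have ha0 : a ≠ 0 := by
      intro h0
      rw [h0, pow_zero] at ha
      exact htne (orderOf_eq_one_iff.mp ha)
    rw [ha]
    exact dvd_pow_self 2 ha0
  have hcop : (orderOf t).Coprime (orderOf w) :=
    Nat.Coprime.coprime_dvd_left (orderOf_dvd_of_pow_eq_one hti)
      (Nat.Coprime.pow_left i (Nat.coprime_two_left.mpr hwodd))
  have hN : orderOf (t * w) = orderOf t * orderOf w :=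
    hcomm.orderOf_mul_eq_mul_orderOf_of_coprime hcop
  obtain ⟨L, hL⟩ : 2 * d ∣ orderOf (t * w) := by
    rw [hN]
    exact mul_dvd_mul h2t hdn
  have hLpos : 0 < L := by
    have h0 := orderOf_pos (t * w)
    rcases Nat.eq_zero_or_pos L with h | h
    · rw [h, mul_zero] at hL
      omega
    · exact h
  have hLR : (0 : ℝ) < L := by exact_mod_cast hLpos
  have hFA : Fintype ↥(Subgroup.zpowers (t * w)) := Fintype.ofFinite _
  have hχA : IsCharacter ↥(Subgroup.zpowers (t * w)) (fun a => χ (a : G)) :=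
    Cfsg.Agent.H4.isCharacter_restrict _ (Cfsg.Agent.H4.isCharacter_of_isIrrCharacter hyp.irr)
  obtain ⟨γ, hγdef⟩ : ∃ γ : ↥(Subgroup.zpowers (t * w)), (γ : G) = t * w :=
    ⟨⟨t * w, Subgroup.mem_zpowers _⟩, rfl⟩
  have hγpow : ∀ k : ℕ, ((γ ^ k : ↥(Subgroup.zpowers (t * w))) : G) = (t * w) ^ k := fun k => by
    rw [Subgroup.coe_pow, hγdef]
  have hγ : ∀ x : ↥(Subgroup.zpowers (t * w)), x ∈ Subgroup.zpowers γ := by
    intro x
    obtain ⟨k, hk⟩ := Subgroup.mem_zpowers_iff.mp x.2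
    refine Subgroup.mem_zpowers_iff.mpr ⟨k, Subtype.ext ?_⟩
    rw [Subgroup.coe_zpow, hγdef]
    exact hk
  have hordγ : orderOf γ = orderOf (t * w) := by
    rw [← Subgroup.orderOf_coe, hγdef]
  have hdvd : orderOf (-1 : ℂˣ) ∣ orderOf γ := by
    apply orderOf_dvd_of_pow_eq_one
    rw [hordγ, hL, mul_assoc, pow_mul]
    simp
  obtain ⟨eps, heps⟩ : ∃ eps : ↥(Subgroup.zpowers (t * w)) →* ℂˣ, eps γ = -1 :=
    ⟨monoidHomOfForallMemZpowers hγ hdvd, monoidHomOfForallMemZpowers_apply_gen hγ hdvd⟩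
  have hepsk : ∀ k : ℕ, ((eps (γ ^ k) : ℂˣ) : ℂ) = (-1) ^ k := fun k => by
    rw [map_pow, heps]
    simp
  have hψ : IsCharacter ↥(Subgroup.zpowers (t * w))
      ((fun a : ↥(Subgroup.zpowers (t * w)) => χ (a : G)) * (fun a => ((eps a : ℂˣ) : ℂ))) :=
    Cfsg.Agent.H4.isCharacter_mul hχA (Cfsg.Agent.H4.isCharacter_of_hom eps)
  obtain ⟨N₁, hN₁⟩ := Cfsg.Agent.H4.classInner_isCharacter_nat hχA hχA
  obtain ⟨N₂, hN₂⟩ := Cfsg.Agent.H4.classInner_isCharacter_nat hχA hψ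
  have hcardA : (Nat.card ↥(Subgroup.zpowers (t * w)) : ℂ) = ((2 * d * L : ℕ) : ℂ) := by
    rw [Nat.card_zpowers, hL]
  have hAne : ((2 * d * L : ℕ) : ℂ) ≠ 0 := by
    rw [← hcardA]
    exact_mod_cast Nat.card_pos.ne'
  have hsumeq : ∀ h : ↥(Subgroup.zpowers (t * w)) → ℂ,
      ∑ c : ↥(Subgroup.zpowers (t * w)), h c = ∑ k ∈ Finset.range (2 * d * L), h (γ ^ k) := by
    intro h
    rw [sum_zpowers' (t * w) h, hL]
    apply Finset.sum_congr rfl
    intro k _
    congr 1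
    apply Subtype.ext
    rw [hγpow, Subgroup.coe_pow]
  have hS1 : ∑ k ∈ Finset.range (2 * d * L), cc k = (N₁ : ℝ) * ((2 * d * L : ℕ) : ℝ) := by
    unfold classInner at hN₁
    rw [hsumeq, hcardA] at hN₁
    have e : ∀ k ∈ Finset.range (2 * d * L),
        χ ((γ ^ k : ↥(Subgroup.zpowers (t * w))) : G) *
          conj (χ ((γ ^ k : ↥(Subgroup.zpowers (t * w))) : G)) = ((cc k : ℝ) : ℂ) := by
      intro k _
      rw [hγpow, Complex.mul_conj, hcc]
    rw [Finset.sum_congr rfl e] at hN₁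
    have h2 : (∑ k ∈ Finset.range (2 * d * L), ((cc k : ℝ) : ℂ)) =
        (N₁ : ℂ) * ((2 * d * L : ℕ) : ℂ) := by
      rw [← hN₁]
      field_simp
    exact_mod_cast h2
  have hS2 : ∑ k ∈ Finset.range (2 * d * L), sg k = (N₂ : ℝ) * ((2 * d * L : ℕ) : ℝ) := by
    unfold classInner at hN₂
    rw [hsumeq, hcardA] at hN₂
    have e : ∀ k ∈ Finset.range (2 * d * L),
        χ ((γ ^ k : ↥(Subgroup.zpowers (t * w))) : G) *
          conj (((fun a : ↥(Subgroup.zpowers (t * w)) => χ (a : G)) *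
            (fun a => ((eps a : ℂˣ) : ℂ))) (γ ^ k)) = ((sg k : ℝ) : ℂ) := by
      intro k _
      rw [Pi.mul_apply, hepsk, hγpow, map_mul, map_pow, map_neg, map_one, ← mul_assoc,
        Complex.mul_conj, hsg, hcc]
      push_cast
      ring
    rw [Finset.sum_congr rfl e] at hN₂
    have h2 : (∑ k ∈ Finset.range (2 * d * L), ((sg k : ℝ) : ℂ)) =
        (N₂ : ℂ) * ((2 * d * L : ℕ) : ℂ) := by
      rw [← hN₂]
      field_simp
    exact_mod_cast h2
  have hE1 : ((p : ℝ) - 2) ^ 2 + 1 + ∑ k ∈ R, cc k = 2 * d * N₁ := by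
    rw [sum_range_periodic cc (2 * d) hper L, hT1] at hS1
    push_cast at hS1
    have h0 : (L : ℝ) * (((p : ℝ) - 2) ^ 2 + 1 + ∑ k ∈ R, cc k - 2 * d * N₁) = 0 := by linarith
    rcases mul_eq_zero.mp h0 with h | h
    · exact absurd h hLR.ne'
    · linarith
  have hE2 : ((p : ℝ) - 2) ^ 2 - 1 - ∑ k ∈ R, cc k = 2 * d * N₂ := by
    rw [sum_range_periodic sg (2 * d) hsper L, hT2] at hS2
    push_cast at hS2
    have h0 : (L : ℝ) * (((p : ℝ) - 2) ^ 2 - 1 - ∑ k ∈ R, cc k - 2 * d * N₂) = 0 := by linarith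
    rcases mul_eq_zero.mp h0 with h | h
    · exact absurd h hLR.ne'
    · linarith
  have hSnn : 0 ≤ ∑ k ∈ R, cc k := Finset.sum_nonneg (fun k _ => hcc_nonneg k)
  by_cases hS0 : ∑ k ∈ R, cc k = 0
  · have h3 : (d : ℝ) * N₁ = d * N₂ + 1 := by
      rw [hS0] at hE1 hE2
      linarith
    have h4 : d * N₁ = d * N₂ + 1 := by exact_mod_cast h3
    have h5 : d ∣ 1 := (Nat.dvd_add_right (dvd_mul_right d N₂)).mp (h4 ▸ dvd_mul_right d N₁)
    exact Nat.dvd_one.mp h5
  · exfalso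
    -- the squaring relation
    have hsq : ∀ k : ℕ, ¬ d ∣ k →
        χ (t * w ^ k) ^ 2 = ((p : ℂ) - 3) * χ (t * w ^ (2 * k)) := by
      intro k hk
      have hk2 : ¬ d ∣ 2 * k := fun h => hk (hd2.dvd_of_dvd_mul_left h)
      have hc : Commute t (w ^ k) := hcomm.pow_right k
      have hreg : ¬ p ∣ orderOf (t * w ^ k) := by
        intro h
        have h1 : (t * w ^ k) ^ (2 ^ i * orderOf w) = 1 := by
          rw [hc.mul_pow, pow_mul, hti, one_pow, one_mul, ← pow_mul, mul_comm (2 ^ i),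
            ← mul_assoc, mul_comm k, mul_assoc, pow_mul, pow_orderOf_eq_one, one_pow]
        have h2 := h.trans (orderOf_dvd_of_pow_eq_one h1)
        rcases (Nat.Prime.dvd_mul hp).mp h2 with h3 | h3
        · have h4 := Nat.le_of_dvd (by norm_num) (hp.dvd_of_dvd_pow h3)
          omega
        · exact hwreg h3
      have h1 := hE (t * w ^ k) hreg
      have e1 : (t * w ^ k) * (t * w ^ k) = (t * t) * w ^ (2 * k) := by
        rw [← pow_two, hc.mul_pow, pow_two t, ← pow_mul, mul_comm k 2]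
      have e2 : (t * w ^ k) ^ s = t * w ^ (2 * k) := by
        rw [hc.mul_pow, hyp.sTwo t i hti, hyp.sOdd (w ^ k) (hwk_odd k) (hwk_reg k), ← pow_mul,
          mul_comm k 2]
      rw [e1, e2, central_two_mul hyp _ htt i htti,
        hOdd _ (hwk_odd _) (hwk_reg _) (fun h => hk2 ((hdk _).mp h))] at h1
      linear_combination h1
    obtain ⟨n, hn⟩ : ∃ n : ℕ, n = orderOf w := ⟨_, rfl⟩
    have hnpos : 0 < n := hn ▸ orderOf_pos w
    have hwmod : ∀ e : ℕ, w ^ (e % n) = w ^ e := fun e => by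
      rw [hn]
      exact pow_mod_orderOf w e
    have hdmod : ∀ e : ℕ, d ∣ e % n ↔ d ∣ e := fun e => by rw [← hdk, ← hdk, hwmod]
    have hlowAll : ∀ k : ℕ, ¬ d ∣ k → χ (t * w ^ k) ≠ 0 →
        ((p : ℝ) - 3) ^ 2 ≤ Complex.normSq (χ (t * w ^ k)) := by
      intro k hk hne
      have hmemEx : ∀ e : ℕ, ¬ d ∣ e → χ (t * w ^ e) ≠ 0 →
          e % n ∈ (Finset.range n).filter (fun e => ¬ d ∣ e ∧ χ (t * w ^ e) ≠ 0) := by
        intro e h1 h2
        simp only [Finset.mem_filter, Finset.mem_range]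
        exact ⟨Nat.mod_lt e hnpos, fun h => h1 ((hdmod e).mp h), by rw [hwmod]; exact h2⟩
      have hne' : ((Finset.range n).filter (fun e => ¬ d ∣ e ∧ χ (t * w ^ e) ≠ 0)).Nonempty :=
        ⟨k % n, hmemEx k hk hne⟩
      obtain ⟨k₀, hk₀, hmin⟩ := Finset.exists_min_image _
        (fun e => Complex.normSq (χ (t * w ^ e))) hne'
      simp only [Finset.mem_filter, Finset.mem_range] at hk₀
      obtain ⟨-, hk₀d, hk₀ne⟩ := hk₀
      have hrel := hsq k₀ hk₀d
      have hne2 : χ (t * w ^ (2 * k₀)) ≠ 0 := by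
        intro h0
        rw [h0, mul_zero] at hrel
        exact hk₀ne ((pow_eq_zero_iff two_ne_zero).mp hrel)
      have hk₀2 : ¬ d ∣ 2 * k₀ := fun h => hk₀d (hd2.dvd_of_dvd_mul_left h)
      have hm1 := hmin ((2 * k₀) % n) (hmemEx _ hk₀2 hne2)
      simp only [hwmod] at hm1
      have hrelN : Complex.normSq (χ (t * w ^ k₀)) ^ 2 =
          ((p : ℝ) - 3) ^ 2 * Complex.normSq (χ (t * w ^ (2 * k₀))) := by
        have h := congrArg Complex.normSq hrel
        rw [map_pow, map_mul] at h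
        rw [h]
        congr 1
        have e : ((p : ℂ) - 3) = (((p : ℝ) - 3 : ℝ) : ℂ) := by push_cast; ring
        rw [e, Complex.normSq_ofReal]
        ring
      have hpos : 0 < Complex.normSq (χ (t * w ^ k₀)) := Complex.normSq_pos.mpr hk₀ne
      have hm0 : ((p : ℝ) - 3) ^ 2 ≤ Complex.normSq (χ (t * w ^ k₀)) := by
        by_contra hlt
        push Not at hlt
        nlinarith [sq_nonneg ((p : ℝ) - 3)]
      have hm2 := hmin (k % n) (hmemEx k hk hne)
      simp only [hwmod] at hm2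
      linarith
    obtain ⟨k₁, hk₁R, hk₁ne⟩ := Finset.exists_ne_zero_of_sum_ne_zero hS0
    obtain ⟨hk₁lt, hk₁d⟩ := hRmem k₁ hk₁R
    have hk₁odd : Odd k₁ := by
      rcases Nat.even_or_odd k₁ with he | ho
      · exact absurd (hcc_even_ndvd k₁ he hk₁d) hk₁ne
      · exact ho
    have hk₁val := hcc_odd k₁ hk₁odd
    have hχ1ne : χ (t * w ^ k₁) ≠ 0 := by
      intro h0
      apply hk₁ne
      rw [hk₁val, h0, map_zero]
    have hb1 : ((p : ℝ) - 3) ^ 2 ≤ cc k₁ := by
      rw [hk₁val]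
      exact hlowAll k₁ hk₁d hχ1ne
    have hk₁2 : ¬ d ∣ 2 * k₁ := fun h => hk₁d (hd2.dvd_of_dvd_mul_left h)
    have hχ2ne : χ (t * w ^ (2 * k₁)) ≠ 0 := by
      intro h0
      have hrel := hsq k₁ hk₁d
      rw [h0, mul_zero] at hrel
      exact hχ1ne ((pow_eq_zero_iff two_ne_zero).mp hrel)
    have hb2' : ((p : ℝ) - 3) ^ 2 ≤ Complex.normSq (χ (t * w ^ (2 * k₁))) :=
      hlowAll _ hk₁2 hχ2ne
    obtain ⟨r, hr⟩ : ∃ r : ℕ, r = (2 * k₁) % d := ⟨_, rfl⟩
    have hrlt : r < d := hr ▸ Nat.mod_lt _ hdpos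
    have hrd : ¬ d ∣ r := by
      rw [hr]
      exact fun h => hk₁2 ((Nat.dvd_mod_iff (dvd_refl d)).mp h)
    obtain ⟨k₂, hk₂⟩ : ∃ k₂ : ℕ, k₂ = if Odd r then r else r + d := ⟨_, rfl⟩
    have hk₂odd : Odd k₂ := by
      rw [hk₂]
      split_ifs with h
      · exact h
      · exact (Nat.not_odd_iff_even.mp h).add_odd hdodd
    have hk₂mod : k₂ % d = r := by
      rw [hk₂]
      split_ifs with h
      · exact Nat.mod_eq_of_lt hrlt
      · rw [Nat.add_mod_right]
        exact Nat.mod_eq_of_lt hrlt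
    have hk₂lt : k₂ < 2 * d := by
      rw [hk₂]
      split_ifs <;> omega
    have hk₂d : ¬ d ∣ k₂ := by
      intro h
      apply hrd
      rw [← hk₂mod]
      exact (Nat.dvd_mod_iff (dvd_refl d)).mpr h
    have hk₂ne : k₂ ≠ k₁ := by
      intro h
      have h1 : k₁ % d = (2 * k₁) % d := by rw [← h, hk₂mod, hr, h]
      have h2 : d ∣ 2 * k₁ - k₁ := (Nat.modEq_iff_dvd' (by omega)).mp h1
      apply hk₁d
      have e : 2 * k₁ - k₁ = k₁ := by omega
      rwa [e] at h2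
    have hk₂R : k₂ ∈ R := by
      rw [hR, Finset.mem_erase, Finset.mem_erase, Finset.mem_range]
      exact ⟨fun h => hk₂d (h ▸ dvd_refl d), fun h => hk₂d (h ▸ dvd_zero d), hk₂lt⟩
    have hb2 : ((p : ℝ) - 3) ^ 2 ≤ cc k₂ := by
      rw [hcc_odd k₂ hk₂odd, hmod k₂, hk₂mod, hr, ← hmod (2 * k₁)]
      exact hb2'
    have hlow : 2 * ((p : ℝ) - 3) ^ 2 ≤ ∑ k ∈ R, cc k := by
      have hsub : ({k₁, k₂} : Finset ℕ) ⊆ R := by
        intro x hx
        simp only [Finset.mem_insert, Finset.mem_singleton] at hx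
        rcases hx with rfl | rfl
        · exact hk₁R
        · exact hk₂R
      have h1 := Finset.sum_le_sum_of_subset_of_nonneg hsub (fun k _ _ => hcc_nonneg k)
      rw [Finset.sum_pair (Ne.symm hk₂ne)] at h1
      linarith
    have hup : ∑ k ∈ R, cc k ≤ ((p : ℝ) - 2) ^ 2 - 1 := by
      have h0 : (0 : ℝ) ≤ 2 * d * N₂ := by positivity
      linarith
    nlinarith [mul_pos (by linarith : (0 : ℝ) < (p : ℝ) - 3) (by linarith : (0 : ℝ) < (p : ℝ) - 5)]

example : Cfsg.Agent.H26.P2.StMix.{u} := mix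

end Cfsg.Agent.H54.P2
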