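import Mathlib
import Cfsg.Agent.H26.P2Defs
import Cfsg.Agent.H54.P2Base

/-!
# P2-TWO (helper54, for helper26's S4705): `χ = -1` on non-central `2`-elements with central
square, and every `2`-element has central square
-/

set_option autoImplicit false

namespace Cfsg.Agent.H54.P2

open Cfsg Cfsg.Agent.H26.P2
open scoped ComplexConjugate

universe u

/-- arithmetic core of TwoB -/
theorem no_int_root (q w : ℤ) (hq : 3 ≤ q) (h : w ^ 2 - 2 * q * w + 4 = 0) : False := by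
  have h1 : (w - q) ^ 2 = q ^ 2 - 4 := by linear_combination h
  have h2 : w - q < q := by nlinarith
  have h3 : -q < w - q := by nlinarith
  have ha : w - q ≤ q - 1 := by omega
  have hb : -(q - 1) ≤ w - q := by omega
  have h4 : (w - q) ^ 2 ≤ (q - 1) ^ 2 := by
    nlinarith [mul_nonneg (sub_nonneg.2 ha) (by linarith : (0 : ℤ) ≤ (w - q) + (q - 1))]
  nlinarith

theorem twoA_aux {G : Type u} [Group G] [Finite G] {p : ℕ} [Fact p.Prime] {P : Sylow p G}
    {χ : G → ℂ} {μ : ↥(P : Subgroup G) →* ℂˣ} {s : ℕ} (hyp : Hyp p P χ μ s) (hE : E1 p χ s) :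
    TwoA χ := by
  intro t i hti htZ htt
  have hreg := two_reg hyp t i hti
  have h1 := hE t hreg
  rw [hyp.sTwo t i hti] at h1
  have h2 : χ (t * t) = χ 1 :=
    hyp.two (t * t) htt i (by rw [(Commute.refl t).mul_pow, hti, one_mul])
  rw [h2, chi_one hyp] at h1
  have h3 : (χ t + 1) * (χ t - ((p : ℂ) - 2)) = 0 := by linear_combination h1
  rcases mul_eq_zero.mp h3 with h | h
  · exact eq_neg_of_add_eq_zero_left h
  · exfalso
    apply htZ
    apply hyp.scal t
    have ht : χ t = (p : ℂ) - 2 := sub_eq_zero.mp h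
    have hc : conj ((p : ℂ) - 2) = (p : ℂ) - 2 := by
      have e : ((p : ℂ) - 2) = (((p : ℝ) - 2 : ℝ) : ℂ) := by push_cast; ring
      rw [e, Complex.conj_ofReal]
    rw [ht, chi_one hyp, hc]

/-- P2-TWO -/
theorem two : StTwo.{u} := by
  intro G _ _ p _ P χ μ s hyp hE
  classical
  have hA := twoA_aux hyp hE
  refine ⟨hA, ?_⟩
  intro y i hyi
  by_contra hyy
  have hex : ∃ j : ℕ, (y ^ (2 ^ j)) ^ 2 ∈ Subgroup.center G :=
    ⟨i, by rw [hyi, one_pow]; exact Subgroup.one_mem _⟩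
  have hmin : ∀ j' : ℕ, j' < Nat.find hex → ¬ (y ^ (2 ^ j')) ^ 2 ∈ Subgroup.center G :=
    fun j' h => Nat.find_min hex h
  have hspec := Nat.find_spec hex
  have hne0 : Nat.find hex ≠ 0 := by
    intro h0
    rw [h0] at hspec
    apply hyy
    simpa [pow_two] using hspec
  obtain ⟨j, hj⟩ := Nat.exists_eq_succ_of_ne_zero hne0
  have hu2 : ¬ (y ^ (2 ^ j)) ^ 2 ∈ Subgroup.center G := hmin j (by omega)
  have hu4 : (y ^ (2 ^ j)) ^ 4 ∈ Subgroup.center G := by
    rw [hj] at hspec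
    have e : (y ^ (2 ^ j)) ^ 4 = (y ^ (2 ^ (j + 1))) ^ 2 := by
      rw [← pow_mul, ← pow_mul]
      congr 1
      ring
    rw [e]
    exact hspec
  obtain ⟨u, hu⟩ : ∃ u : G, u = y ^ (2 ^ j) := ⟨_, rfl⟩
  rw [← hu] at hu2 hu4
  have hui : u ^ (2 ^ i) = 1 := by rw [hu, ← pow_mul, mul_comm, pow_mul, hyi, one_pow]
  have hZ4 : ∀ k : ℕ, u ^ (4 * k) ∈ Subgroup.center G := fun k => by
    rw [pow_mul]
    exact Subgroup.pow_mem _ hu4 k
  have hpow2 : ∀ k : ℕ, (u ^ k) ^ (2 ^ i) = 1 := fun k => by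
    rw [← pow_mul, mul_comm, pow_mul, hui, one_pow]
  have huu : χ (u * u) = -1 := by
    apply hA (u * u) i
    · rw [← pow_two]
      exact hpow2 2
    · rw [← pow_two]
      exact hu2
    · have e : u * u * (u * u) = u ^ 4 := by
        rw [← pow_two, ← pow_two, ← pow_mul]
      rw [e]
      exact hu4
  obtain ⟨v, hv⟩ : ∃ v : ℂ, χ u = v := ⟨_, rfl⟩
  have hq : v ^ 2 + 1 = ((p : ℂ) - 3) * v := by
    have h1 := hE u (two_reg hyp u i hui)
    rw [hyp.sTwo u i hui, huu, hv] at h1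
    linear_combination h1
  have hp5 := hyp.hp5
  have hpR : (6 : ℝ) ≤ (p : ℝ) := by exact_mod_cast hp5
  have hreal : conj v = v := by
    have hre := congrArg Complex.re hq
    have him := congrArg Complex.im hq
    simp [pow_two] at hre him
    have him0 : v.im = 0 := by
      by_contra hne
      have h2a : 2 * v.re = (p : ℝ) - 3 := by
        have h0 : v.im * (2 * v.re - ((p : ℝ) - 3)) = 0 := by linarith
        rcases mul_eq_zero.mp h0 with h | h
        · exact absurd h hne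
        · linarith
      nlinarith [sq_nonneg v.im, sq_nonneg v.re]
    apply Complex.ext
    · simp
    · simp [him0]
  have hv0 : ∀ k : ℕ, χ (u ^ (4 * k)) = (p : ℂ) - 2 := fun k => by
    rw [hyp.two _ (hZ4 k) i (hpow2 _), chi_one hyp]
  have hv1 : ∀ k : ℕ, χ (u ^ (4 * k + 1)) = v := fun k => by
    rw [pow_succ, central_two_mul hyp _ (hZ4 k) i (hpow2 _), hv]
  have hv2 : ∀ k : ℕ, χ (u ^ (4 * k + 2)) = -1 := fun k => by
    have e : u ^ (4 * k + 2) = u ^ (4 * k) * (u * u) := by rw [pow_add, pow_two]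
    rw [e, central_two_mul hyp _ (hZ4 k) i (hpow2 _), huu]
  have hv3 : ∀ k : ℕ, χ (u ^ (4 * k + 3)) = v := fun k => by
    have e0 : u ^ (4 * (k + 1)) = u ^ (4 * k + 3) * u := by
      rw [← pow_succ]
      congr 1
    have e : u ^ (4 * k + 3) = u ^ (4 * (k + 1)) * u⁻¹ := by
      rw [e0, mul_assoc, mul_inv_cancel, mul_one]
    rw [e, central_two_mul hyp _ (hZ4 (k + 1)) i (hpow2 _), chi_inv hyp, hv, hreal]
  have hord : 4 ∣ orderOf u := by
    obtain ⟨a, -, ha⟩ := (Nat.dvd_prime_pow Nat.prime_two).mp (orderOf_dvd_of_pow_eq_one hui)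
    have ha2 : 2 ≤ a := by
      by_contra hlt
      apply hu2
      have h2 : orderOf u ∣ 2 := by
        rw [ha]
        exact pow_dvd_pow 2 (by omega : a ≤ 1)
      rw [orderOf_dvd_iff_pow_eq_one.mp h2]
      exact Subgroup.one_mem _
    rw [ha]
    exact pow_dvd_pow 2 ha2
  obtain ⟨M, hM⟩ := hord
  have hMpos : 0 < M := by
    have := orderOf_pos u
    omega
  have hFC : Fintype ↥(Subgroup.zpowers u) := Fintype.ofFinite _
  obtain ⟨n, hn⟩ := sum_subgroup_nat (Subgroup.zpowers u)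
    (Cfsg.Agent.H4.isCharacter_of_isIrrCharacter hyp.irr)
  rw [sum_zpowers u χ, hM, sum_range_four_mul (fun k => χ (u ^ k)) _ _ _ _ hv0 hv1 hv2 hv3 M,
    Nat.card_zpowers, hM] at hn
  have hMne : (M : ℂ) ≠ 0 := by exact_mod_cast hMpos.ne'
  have h2v : 2 * v = 4 * (n : ℂ) - ((p : ℂ) - 3) := by
    have h0 : (M : ℂ) * (2 * v - (4 * (n : ℂ) - ((p : ℂ) - 3))) = 0 := by
      push_cast at hn
      linear_combination hn
    have h1 := (mul_eq_zero.mp h0).resolve_left hMne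
    linear_combination h1
  have hw : ((4 * (n : ℤ) - ((p : ℤ) - 3)) ^ 2 -
      2 * ((p : ℤ) - 3) * (4 * (n : ℤ) - ((p : ℤ) - 3)) + 4 : ℤ) = 0 := by
    have hC : ((4 * (n : ℂ) - ((p : ℂ) - 3)) ^ 2 -
        2 * ((p : ℂ) - 3) * (4 * (n : ℂ) - ((p : ℂ) - 3)) + 4 : ℂ) = 0 := by
      rw [← h2v]
      linear_combination 4 * hq
    exact_mod_cast hC
  exact no_int_root ((p : ℤ) - 3) _ (by omega) hw

example : Cfsg.Agent.H26.P2.StTwo.{u} := two

end Cfsg.Agent.H54.P2
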