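import Mathlib
import Cfsg.Agent.H26.P2Defs
import Cfsg.Agent.H79.GaloisAct

/-!
# P2-XI (helper54, for helper26's S4705): the Galois conjugates `ξ_ν` of `χ`
-/

set_option autoImplicit false

namespace Cfsg.Agent.H54.P2

open Cfsg Cfsg.Agent.H26.P2

universe u

/-- P2-XI -/
theorem xi : StXi.{u} := by
  intro G _ _ p _ P χ μ s hyp
  classical
  have hp : p.Prime := Fact.out
  have hPcard := hyp.cardP
  have hdvd : p ∣ Nat.card G := by
    have h := Subgroup.card_subgroup_dvd_card (P : Subgroup G)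
    rwa [hPcard] at h
  obtain ⟨m, hm⟩ := hdvd
  have hpm : ¬ p ∣ m := by
    intro h
    have h2 : p ^ 2 ∣ Nat.card G := by
      rw [hm, pow_two]
      exact Nat.mul_dvd_mul_left p h
    have h3 := P.pow_dvd_card_of_pow_dvd_card h2
    rw [hPcard] at h3
    have h4 := Nat.le_of_dvd hp.pos h3
    have h5 : p < p ^ 2 := by
      have := hp.two_le
      nlinarith
    omega
  have hcop : p.Coprime m := (Nat.Prime.coprime_iff_not_dvd hp).mpr hpm
  have key : ∀ ν : ℕ, ∃ ξν : IrrCharacter G, ¬ p ∣ ν →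
      (∀ y : G, ¬ p ∣ orderOf y → ξν.1 y = χ (y ^ s)) ∧
      (∀ x : ↥(P : Subgroup G), ∀ z ∈ Subgroup.center G,
        ξν.1 ((x : G) * z) = χ ((x : G) ^ ν * z ^ s)) := by
    intro ν
    by_cases hν : p ∣ ν
    · exact ⟨⟨χ, hyp.irr⟩, fun h => absurd hν h⟩
    · obtain ⟨k, hk1, hk2⟩ := Nat.chineseRemainder hcop ν s
      have hkcop : k.Coprime (Nat.card G) := by
        rw [hm]
        apply Nat.Coprime.mul_right
        · rw [Nat.coprime_comm]
          exact (Nat.Prime.coprime_iff_not_dvd hp).mpr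
            (fun h => hν ((Nat.ModEq.dvd_iff hk1 (dvd_refl p)).mp h))
        · have hsm : s.Coprime m :=
            Nat.Coprime.coprime_dvd_right ⟨p, by rw [hm, mul_comm]⟩ hyp.sCop
          exact (Nat.ModEq.gcd_eq hk2).trans hsm
      have hreg : ∀ y : G, ¬ p ∣ orderOf y → y ^ k = y ^ s := by
        intro y hy
        have hoy : orderOf y ∣ m := by
          have h1 : orderOf y ∣ p * m := by rw [← hm]; exact orderOf_dvd_natCard y
          exact (Nat.Coprime.dvd_mul_left
            ((Nat.Prime.coprime_iff_not_dvd hp).mpr hy).symm).mp h1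
        exact pow_eq_pow_iff_modEq.mpr (Nat.ModEq.of_dvd hoy hk2)
      refine ⟨Cfsg.Agent.H79.irrPow k hkcop ⟨χ, hyp.irr⟩, fun _ => ⟨?_, ?_⟩⟩
      · intro y hy
        show χ (y ^ k) = χ (y ^ s)
        rw [hreg y hy]
      · intro x z hz
        show χ (((x : G) * z) ^ k) = χ ((x : G) ^ ν * z ^ s)
        have hcomm : Commute (x : G) z := Subgroup.mem_center_iff.mp hz (x : G)
        rw [hcomm.mul_pow, hreg z (hyp.zreg z hz)]
        have hox : orderOf (x : G) ∣ p := by
          rw [Subgroup.orderOf_coe]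
          have h := orderOf_dvd_natCard x
          rwa [hPcard] at h
        rw [pow_eq_pow_iff_modEq.mpr (Nat.ModEq.of_dvd hox hk1)]
  choose ξ hξ using key
  exact ⟨ξ, hξ⟩

example : Cfsg.Agent.H26.P2.StXi.{u} := xi

end Cfsg.Agent.H54.P2
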