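import Mathlib
import Cfsg.Prelude.Def_GeometricClasses
import Cfsg.Prelude.Def_LieClassical

/-!
# S5984-GLUE (team project of helper99)

Conjugating into the stabiliser of a pair of complementary totally singular subspaces is the same
as permuting some good pair.
-/

set_option autoImplicit false

open scoped MatrixGroups

namespace Cfsg.Agent.H54.Pair

variable {F : Type*} [Field F] [Fintype F]

/-- S5984-GLUE, first half. -/
theorem pair_of_conj {q n : ℕ} (D : Fin 2 → Submodule F (Fin n → F))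
    (hD : Cfsg.Geo.IsMDecomposition (n / 2) D)
    (hDs : ∀ i, Cfsg.Geo.IsTotallySingularFor (Cfsg.hermForm n F q) (D i))
    (x g : GL (Fin n) F) (hg : g ∈ Cfsg.GU n F q)
    (h : g⁻¹ * x * g ∈ Cfsg.Geo.decompositionStabilizer D) :
    ∃ (E : Fin 2 → Submodule F (Fin n → F)) (σ : Equiv.Perm (Fin 2)),
      Cfsg.Geo.IsMDecomposition (n / 2) E ∧
      (∀ i, Cfsg.Geo.IsTotallySingularFor (Cfsg.hermForm n F q) (E i)) ∧
      ∀ i, (E i).map (Matrix.toLin' (x : Matrix (Fin n) (Fin n) F)) = E (σ i) := by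
  obtain ⟨σ, hσ⟩ := h
  have hinj : Function.Injective (Matrix.toLin' (g : Matrix (Fin n) (Fin n) F)) := by
    intro u v huv
    have h1 := congrArg (Matrix.toLin' ((g⁻¹ : GL (Fin n) F) : Matrix (Fin n) (Fin n) F)) huv
    rw [Matrix.toLin'_apply, Matrix.toLin'_apply, Matrix.toLin'_apply, Matrix.toLin'_apply,
      Matrix.mulVec_mulVec, Matrix.mulVec_mulVec, Units.inv_mul, Matrix.one_mulVec,
      Matrix.one_mulVec] at h1
    exact h1
  have hsurj : Function.Surjective (Matrix.toLin' (g : Matrix (Fin n) (Fin n) F)) := by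
    intro v
    refine ⟨Matrix.toLin' ((g⁻¹ : GL (Fin n) F) : Matrix (Fin n) (Fin n) F) v, ?_⟩
    rw [Matrix.toLin'_apply, Matrix.toLin'_apply, Matrix.mulVec_mulVec, Units.mul_inv,
      Matrix.one_mulVec]
  refine ⟨fun i => (D i).map (Matrix.toLin' (g : Matrix (Fin n) (Fin n) F)), σ, ?_, ?_, ?_⟩
  · refine ⟨hD.two_le, hD.pos, ?_, ?_, ?_⟩
    · intro i
      rw [← hD.finrank_eq i]
      exact (LinearEquiv.finrank_eq (Submodule.equivMapOfInjective _ hinj (D i))).symm
    · rw [iSupIndep_def]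
      intro i
      have h1 := (iSupIndep_def.1 hD.indep) i
      rw [disjoint_iff] at h1 ⊢
      have h2 : (⨆ j, ⨆ (_ : j ≠ i), (D j).map (Matrix.toLin' (g : Matrix (Fin n) (Fin n) F))) =
          (⨆ j, ⨆ (_ : j ≠ i), D j).map (Matrix.toLin' (g : Matrix (Fin n) (Fin n) F)) := by
        simp only [Submodule.map_iSup]
      rw [h2, ← Submodule.map_inf _ hinj, h1, Submodule.map_bot]
    · rw [← Submodule.map_iSup, hD.iSup_eq_top, Submodule.map_top]
      exact LinearMap.range_eq_top.2 hsurj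
  · intro i u hu v hv
    obtain ⟨u', hu', rfl⟩ := hu
    obtain ⟨v', hv', rfl⟩ := hv
    rw [Matrix.toLin'_apply, Matrix.toLin'_apply]
    have h1 : Cfsg.hermForm n F q ((g : Matrix (Fin n) (Fin n) F).mulVec u')
        ((g : Matrix (Fin n) (Fin n) F).mulVec v') = Cfsg.hermForm n F q u' v' := hg u' v'
    rw [h1]
    exact hDs i u' hu' v' hv'
  · intro i
    show ((D i).map (Matrix.toLin' (g : Matrix (Fin n) (Fin n) F))).map
        (Matrix.toLin' (x : Matrix (Fin n) (Fin n) F)) =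
      (D (σ i)).map (Matrix.toLin' (g : Matrix (Fin n) (Fin n) F))
    rw [← hσ i, ← Submodule.map_comp, ← Submodule.map_comp, ← Matrix.toLin'_mul,
      ← Matrix.toLin'_mul]
    congr 2
    rw [Units.val_mul, Units.val_mul, ← mul_assoc, ← mul_assoc, Units.mul_inv, one_mul]

/-- S5984-GLUE, second half. -/
theorem conj_of_pair {n : ℕ} (D E : Fin 2 → Submodule F (Fin n → F)) (σ : Equiv.Perm (Fin 2))
    (x g : GL (Fin n) F)
    (hg : ∀ i, (D i).map (Matrix.toLin' (g : Matrix (Fin n) (Fin n) F)) = E i)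
    (hx : ∀ i, (E i).map (Matrix.toLin' (x : Matrix (Fin n) (Fin n) F)) = E (σ i)) :
    g⁻¹ * x * g ∈ Cfsg.Geo.decompositionStabilizer D := by
  refine ⟨σ, fun i => ?_⟩
  rw [Units.val_mul, Units.val_mul, Matrix.toLin'_mul, Matrix.toLin'_mul, Submodule.map_comp,
    Submodule.map_comp, hg i, hx i, ← hg (σ i), ← Submodule.map_comp, ← Matrix.toLin'_mul,
    Units.inv_mul, Matrix.toLin'_one, Submodule.map_id]

end Cfsg.Agent.H54.Pair

section Check

variable {F : Type*} [Field F] [Fintype F]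

example {q n : ℕ} (D : Fin 2 → Submodule F (Fin n → F))
    (hD : Cfsg.Geo.IsMDecomposition (n / 2) D)
    (hDs : ∀ i, Cfsg.Geo.IsTotallySingularFor (Cfsg.hermForm n F q) (D i))
    (x g : GL (Fin n) F) (hg : g ∈ Cfsg.GU n F q)
    (h : g⁻¹ * x * g ∈ Cfsg.Geo.decompositionStabilizer D) :
    ∃ (E : Fin 2 → Submodule F (Fin n → F)) (σ : Equiv.Perm (Fin 2)),
      Cfsg.Geo.IsMDecomposition (n / 2) E ∧
      (∀ i, Cfsg.Geo.IsTotallySingularFor (Cfsg.hermForm n F q) (E i)) ∧
      ∀ i, (E i).map (Matrix.toLin' (x : Matrix (Fin n) (Fin n) F)) = E (σ i) :=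
  Cfsg.Agent.H54.Pair.pair_of_conj D hD hDs x g hg h

example {n : ℕ} (D E : Fin 2 → Submodule F (Fin n → F)) (σ : Equiv.Perm (Fin 2))
    (x g : GL (Fin n) F)
    (hg : ∀ i, (D i).map (Matrix.toLin' (g : Matrix (Fin n) (Fin n) F)) = E i)
    (hx : ∀ i, (E i).map (Matrix.toLin' (x : Matrix (Fin n) (Fin n) F)) = E (σ i)) :
    g⁻¹ * x * g ∈ Cfsg.Geo.decompositionStabilizer D :=
  Cfsg.Agent.H54.Pair.conj_of_pair D E σ x g hg hx

end Check
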