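import Mathlib
import Cfsg.Prelude.Def_GeometricClasses
import Cfsg.Prelude.Def_LieClassical

/-!
# S5984-WODD1 (team project of helper99)

A diagonal element `diag(ζ, ζ⁻¹, 1, …, 1)` of odd prime order `r` in `SU_n(q)`, `n ≥ 4`, permutes no
pair of complementary totally singular subspaces.
-/

set_option autoImplicit false

open scoped MatrixGroups

namespace Cfsg.Agent.H54.Pair

variable {F : Type*} [Field F] [Fintype F]

/-- S5984-WODD1. -/
theorem exists_witness_order_one {q n r : ℕ} (hq : Fintype.card F = q ^ 2) (hn : 4 ≤ n)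
    (hr : r.Prime) (hr2 : r ≠ 2) (ζ : F) (hζ : ζ ^ r = 1) (hζ1 : ζ ≠ 1) (hζq : ζ ^ (q + 1) = 1) :
    ∃ M : Matrix (Fin n) (Fin n) F, M.det = 1 ∧
      (∀ u v : Fin n → F,
        Cfsg.hermForm n F q (M.mulVec u) (M.mulVec v) = Cfsg.hermForm n F q u v) ∧
      M ^ r = 1 ∧ (∀ z : F, M ≠ z • (1 : Matrix (Fin n) (Fin n) F)) ∧
      ¬ ∃ (E : Fin 2 → Submodule F (Fin n → F)) (σ : Equiv.Perm (Fin 2)),
        Cfsg.Geo.IsMDecomposition (n / 2) E ∧
        (∀ i, Cfsg.Geo.IsTotallySingularFor (Cfsg.hermForm n F q) (E i)) ∧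
        ∀ i, (E i).map (Matrix.toLin' M) = E (σ i) := by
  classical
  have _ := hq
  obtain ⟨i0, i1, i2, h01, h02, h12⟩ : ∃ i0 i1 i2 : Fin n, i0 ≠ i1 ∧ i0 ≠ i2 ∧ i1 ≠ i2 :=
    ⟨⟨0, by omega⟩, ⟨1, by omega⟩, ⟨2, by omega⟩, by simp [Fin.ext_iff], by simp [Fin.ext_iff],
      by simp [Fin.ext_iff]⟩
  have hζ0 : ζ ≠ 0 := by
    rintro rfl
    rw [zero_pow hr.ne_zero] at hζ
    exact zero_ne_one hζ
  have hrodd : Odd r := hr.odd_of_ne_two hr2
  have hζ2 : ζ⁻¹ ≠ ζ := by
    intro h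
    obtain ⟨m, hm⟩ := hrodd
    have h2 : ζ ^ 2 = 1 := by
      rw [pow_two]
      nth_rewrite 1 [← h]
      exact inv_mul_cancel₀ hζ0
    apply hζ1
    have h3 : ζ ^ r = ζ := by rw [hm, pow_succ, pow_mul, h2, one_pow, one_mul]
    rw [← h3]
    exact hζ
  obtain ⟨d, hd⟩ : ∃ d : Fin n → F,
      d = fun i => (if i = i0 then ζ else 1) * (if i = i1 then ζ⁻¹ else 1) := ⟨_, rfl⟩
  have hd0 : d i0 = ζ := by
    rw [hd]
    simp [h01]
  have hd1 : d i1 = ζ⁻¹ := by
    rw [hd]
    simp [h01.symm]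
  have hdo : ∀ i, i ≠ i0 → i ≠ i1 → d i = 1 := by
    intro i h0 h1
    rw [hd]
    simp [h0, h1]
  have hdpow : ∀ k : ℕ, ζ ^ k = 1 → ∀ i, d i ^ k = 1 := by
    intro k hk i
    by_cases h0 : i = i0
    · rw [h0, hd0, hk]
    · by_cases h1 : i = i1
      · rw [h1, hd1, inv_pow, hk, inv_one]
      · rw [hdo i h0 h1, one_pow]
  have hMr : Matrix.diagonal d ^ r = 1 := by
    rw [Matrix.diagonal_pow]
    have h1 : d ^ r = 1 := by
      funext i
      exact hdpow r hζ i
    rw [h1]
    exact Matrix.diagonal_one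
  refine ⟨Matrix.diagonal d, ?_, ?_, hMr, ?_, ?_⟩
  · rw [Matrix.det_diagonal, hd]
    show ∏ i, ((if i = i0 then ζ else 1) * (if i = i1 then ζ⁻¹ else 1)) = 1
    rw [Finset.prod_mul_distrib, Finset.prod_ite_eq' Finset.univ i0 (fun _ => ζ),
      Finset.prod_ite_eq' Finset.univ i1 (fun _ => ζ⁻¹)]
    simp [hζ0]
  · intro u v
    unfold Cfsg.hermForm
    apply Finset.sum_congr rfl
    intro i _
    rw [Matrix.mulVec_diagonal, Matrix.mulVec_diagonal, mul_pow]
    have h1 := hdpow (q + 1) hζq i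
    calc d i * u i * (d i ^ q * v i ^ q) = d i ^ (q + 1) * (u i * v i ^ q) := by ring
      _ = u i * v i ^ q := by rw [h1, one_mul]
  · intro z hz
    have h1 := congrFun (congrFun hz i0) i0
    have h2 := congrFun (congrFun hz i2) i2
    rw [Matrix.diagonal_apply_eq, Matrix.smul_apply, Matrix.one_apply_eq, smul_eq_mul,
      mul_one] at h1 h2
    rw [hd0] at h1
    rw [hdo i2 h02.symm h12.symm] at h2
    exact hζ1 (h1.trans h2.symm)
  · rintro ⟨E, σ, hE, hEs, hM⟩
    have hpow : ∀ (k : ℕ) (i : Fin 2),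
        (E i).map (Matrix.toLin' (Matrix.diagonal d ^ k)) = E ((σ ^ k) i) := by
      intro k
      induction k with
      | zero =>
        intro i
        simp
      | succ k ih =>
        intro i
        rw [pow_succ' (Matrix.diagonal d) k, Matrix.toLin'_mul, Submodule.map_comp, ih i, hM,
          pow_succ' σ k, Equiv.Perm.mul_apply]
    have hall : ∀ τ : Equiv.Perm (Fin 2), τ ^ 2 = 1 := by decide
    have hσr : σ ^ r = σ := by
      obtain ⟨m, hm⟩ := hrodd
      rw [hm, pow_succ, pow_mul, hall σ, one_pow, one_mul]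
    have hME : ∀ i, (E i).map (Matrix.toLin' (Matrix.diagonal d)) = E i := by
      intro i
      have h1 := hpow r i
      rw [hMr, Matrix.toLin'_one, Submodule.map_id, hσr] at h1
      rw [hM i, ← h1]
    have hdisj : E 0 ⊓ E 1 = ⊥ := by
      have h1 := hE.indep.pairwiseDisjoint (show (0 : Fin 2) ≠ 1 by decide)
      exact disjoint_iff.1 h1
    have htop : E 0 ⊔ E 1 = ⊤ := by
      rw [← hE.iSup_eq_top]
      exact le_antisymm (sup_le (le_iSup E 0) (le_iSup E 1))
        (iSup_le (Fin.forall_fin_two.2 ⟨le_sup_left, le_sup_right⟩))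
    obtain ⟨e0, he0⟩ : ∃ e0 : Fin n → F, e0 = Pi.single i0 1 := ⟨_, rfl⟩
    have he0mem : e0 ∈ E 0 ⊔ E 1 := by
      rw [htop]
      exact Submodule.mem_top
    obtain ⟨u, hu, w, hw, huw⟩ := Submodule.mem_sup.1 he0mem
    have hMe0 : Matrix.toLin' (Matrix.diagonal d) e0 = ζ • e0 := by
      funext x
      rw [Matrix.toLin'_apply, Matrix.mulVec_diagonal, he0, Pi.smul_apply, smul_eq_mul]
      by_cases hx : x = i0
      · rw [hx, hd0]
      · rw [Pi.single_eq_of_ne hx, mul_zero, mul_zero]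
    have hMu : Matrix.toLin' (Matrix.diagonal d) u ∈ E 0 := by
      rw [← hME 0]
      exact Submodule.mem_map_of_mem hu
    have hMw : Matrix.toLin' (Matrix.diagonal d) w ∈ E 1 := by
      rw [← hME 1]
      exact Submodule.mem_map_of_mem hw
    have hsum : (Matrix.toLin' (Matrix.diagonal d) u - ζ • u) +
        (Matrix.toLin' (Matrix.diagonal d) w - ζ • w) = 0 := by
      have h1 : Matrix.toLin' (Matrix.diagonal d) (u + w) = ζ • (u + w) := by
        rw [huw]
        exact hMe0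
      rw [map_add, smul_add] at h1
      rw [sub_add_sub_comm, h1, sub_self]
    have hu' : Matrix.toLin' (Matrix.diagonal d) u - ζ • u ∈ E 0 ⊓ E 1 := by
      refine ⟨(E 0).sub_mem hMu ((E 0).smul_mem ζ hu), ?_⟩
      have h1 : Matrix.toLin' (Matrix.diagonal d) u - ζ • u =
          -(Matrix.toLin' (Matrix.diagonal d) w - ζ • w) := eq_neg_of_add_eq_zero_left hsum
      rw [h1]
      exact (E 1).neg_mem ((E 1).sub_mem hMw ((E 1).smul_mem ζ hw))
    rw [hdisj, Submodule.mem_bot, sub_eq_zero] at hu'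
    have hw' : Matrix.toLin' (Matrix.diagonal d) w = ζ • w := by
      rw [hu', sub_self, zero_add, sub_eq_zero] at hsum
      exact hsum
    have heig : ∀ v : Fin n → F, Matrix.toLin' (Matrix.diagonal d) v = ζ • v →
        v = v i0 • e0 := by
      intro v hv
      funext x
      have h1 := congrFun hv x
      rw [Matrix.toLin'_apply, Matrix.mulVec_diagonal, Pi.smul_apply, smul_eq_mul] at h1
      rw [Pi.smul_apply, smul_eq_mul, he0]
      by_cases hx : x = i0
      · rw [hx, Pi.single_eq_same, mul_one]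
      · rw [Pi.single_eq_of_ne hx, mul_zero]
        have hdx : d x ≠ ζ := by
          by_cases hx1 : x = i1
          · rw [hx1, hd1]
            exact hζ2
          · rw [hdo x hx hx1]
            exact fun h => hζ1 h.symm
        have h2 : (d x - ζ) * v x = 0 := by rw [sub_mul, h1, sub_self]
        rcases mul_eq_zero.1 h2 with h3 | h3
        · exact absurd (sub_eq_zero.1 h3) hdx
        · exact h3
    have hu2 := heig u hu'
    have hw2 := heig w hw'
    have hab : u i0 + w i0 = 1 := by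
      have h1 := congrFun huw i0
      rw [Pi.add_apply, he0, Pi.single_eq_same] at h1
      exact h1
    have hform : Cfsg.hermForm n F q e0 e0 = 1 := by
      unfold Cfsg.hermForm
      rw [Finset.sum_eq_single i0]
      · rw [he0, Pi.single_eq_same, one_pow, mul_one]
      · intro b _ hb
        rw [he0, Pi.single_eq_of_ne hb, zero_mul]
      · intro h
        exact absurd (Finset.mem_univ i0) h
    obtain ⟨α, hα⟩ : ∃ α : F, α = u i0 := ⟨_, rfl⟩
    obtain ⟨β, hβ⟩ : ∃ β : F, β = w i0 := ⟨_, rfl⟩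
    rw [← hα] at hu2 hab
    rw [← hβ] at hw2 hab
    have hcase : α ≠ 0 ∨ β ≠ 0 := by
      by_contra hcon
      push Not at hcon
      rw [hcon.1, hcon.2, add_zero] at hab
      exact zero_ne_one hab
    rcases hcase with ha | hb
    · have hmem : e0 ∈ E 0 := by
        have h1 : e0 = α⁻¹ • u := by rw [hu2, smul_smul, inv_mul_cancel₀ ha, one_smul]
        rw [h1]
        exact (E 0).smul_mem _ hu
      have h2 := hEs 0 e0 hmem e0 hmem
      rw [hform] at h2
      exact one_ne_zero h2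
    · have hmem : e0 ∈ E 1 := by
        have h1 : e0 = β⁻¹ • w := by rw [hw2, smul_smul, inv_mul_cancel₀ hb, one_smul]
        rw [h1]
        exact (E 1).smul_mem _ hw
      have h2 := hEs 1 e0 hmem e0 hmem
      rw [hform] at h2
      exact one_ne_zero h2

end Cfsg.Agent.H54.Pair

section Check

variable {F : Type*} [Field F] [Fintype F]

example {q n r : ℕ} (hq : Fintype.card F = q ^ 2) (hn : 4 ≤ n)
    (hr : r.Prime) (hr2 : r ≠ 2) (ζ : F) (hζ : ζ ^ r = 1) (hζ1 : ζ ≠ 1) (hζq : ζ ^ (q + 1) = 1) :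
    ∃ M : Matrix (Fin n) (Fin n) F, M.det = 1 ∧
      (∀ u v : Fin n → F,
        Cfsg.hermForm n F q (M.mulVec u) (M.mulVec v) = Cfsg.hermForm n F q u v) ∧
      M ^ r = 1 ∧ (∀ z : F, M ≠ z • (1 : Matrix (Fin n) (Fin n) F)) ∧
      ¬ ∃ (E : Fin 2 → Submodule F (Fin n → F)) (σ : Equiv.Perm (Fin 2)),
        Cfsg.Geo.IsMDecomposition (n / 2) E ∧
        (∀ i, Cfsg.Geo.IsTotallySingularFor (Cfsg.hermForm n F q) (E i)) ∧
        ∀ i, (E i).map (Matrix.toLin' M) = E (σ i) :=
  Cfsg.Agent.H54.Pair.exists_witness_order_one hq hn hr hr2 ζ hζ hζ1 hζq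

end Check
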