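import Mathlib
import Cfsg.Prelude
import Cfsg.Agent.H85.RXDefs

set_option autoImplicit false

/-!
# S5047-S4 (team piece for helper85): the `S₄`-configuration forces order `3`
-/

namespace Cfsg.Agent.H54.RX

open Cfsg.Agent.H85.RT Cfsg.Agent.H85.RX

universe u

/-- An element whose square is an involution has order 4. -/
theorem orderOf_eq_four_of_sq {G : Type*} [Group G] (y c : G) (hy : y ^ 2 = c) (hc : c ≠ 1)
    (hcc : c * c = 1) : orderOf y = 4 := by
  have hp : Fact (Nat.Prime 2) := ⟨Nat.prime_two⟩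
  have h := orderOf_eq_prime_pow (x := y) (p := 2) (n := 1) (by rw [pow_one, hy]; exact hc) (by
    have h4 : y ^ 2 ^ (1 + 1) = y ^ 2 * y ^ 2 := by
      rw [← pow_add]
      norm_num
    rw [h4, hy, hcc])
  simpa using h

/-- S5047-S4. -/
theorem s4 (hom : StOddMul.{u}) : StS4.{u} := by
  intro G _ D hD a b f x ha hb hf hx hba hbaD hfa hxb
  have haa := Cfsg.Agent.H40.RootInv.sq_of_mem hD ha
  have hbb := Cfsg.Agent.H40.RootInv.sq_of_mem hD hb
  have hff := Cfsg.Agent.H40.RootInv.sq_of_mem hD hf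
  have hxx := Cfsg.Agent.H40.RootInv.sq_of_mem hD hx
  have hb1 := Cfsg.Agent.H40.RootInv.ne_one_of_mem hD hb
  have hf1 := Cfsg.Agent.H40.RootInv.ne_one_of_mem hD hf
  have hainv : a⁻¹ = a := inv_eq_of_mul_eq_one_left haa
  have hofa : orderOf (f * a) = 4 := orderOf_eq_four_of_sq _ _ hfa hb1 hbb
  have hoxb : orderOf (x * b) = 4 := orderOf_eq_four_of_sq _ _ hxb hf1 hff
  obtain ⟨c, hc, -, -, hcf, -, hfc, -, hcnef, -, -, -, -⟩ := d8_pack hD hf ha hofa
  have hcb : c = b := hc.trans hfa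
  have hbf : b * f = f * b := by rw [← hcb]; exact hcf
  have hfb : f * b = a * f * a := by rw [← hcb]; exact hfc
  have hbnef : b ≠ f := by rw [← hcb]; exact hcnef
  obtain ⟨c', hc', -, -, hc'x, -, -, hc'b, -, -, -, -, -⟩ := d8_pack hD hx hb hoxb
  have hc'f : c' = f := hc'.trans hxb
  have hfx : f * x = x * f := by rw [← hc'f]; exact hc'x
  have hfb' : f * b = x * b * x := by rw [← hc'f]; exact hc'b
  have E1 : x * b = f * b * x := by
    calc x * b = x * b * (x * x) := by rw [hxx, mul_one]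
      _ = (x * b * x) * x := by simp only [mul_assoc]
      _ = f * b * x := by rw [← hfb']
  have E2 : a * f = f * b * a := by
    calc a * f = a * f * (a * a) := by rw [haa, mul_one]
      _ = (a * f * a) * a := by simp only [mul_assoc]
      _ = f * b * a := by rw [← hfb]
  have R1 : a * x * b = f * (a * x) := by
    calc a * x * b = a * (x * b) := mul_assoc _ _ _
      _ = a * (f * b * x) := by rw [E1]
      _ = (a * f) * b * x := by simp only [mul_assoc]
      _ = (f * b * a) * b * x := by rw [E2]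
      _ = f * b * (a * b) * x := by simp only [mul_assoc]
      _ = f * b * (b * a) * x := by rw [hba]
      _ = f * (b * b) * a * x := by simp only [mul_assoc]
      _ = f * (a * x) := by rw [hbb, mul_one, mul_assoc]
  have R2 : a * x * f = f * b * (a * x) := by
    calc a * x * f = a * (x * f) := mul_assoc _ _ _
      _ = a * (f * x) := by rw [hfx]
      _ = (a * f) * x := (mul_assoc _ _ _).symm
      _ = f * b * a * x := by rw [E2]
      _ = f * b * (a * x) := mul_assoc _ _ _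
  have R3 : a * x * (f * b) = b * (a * x) := by
    calc a * x * (f * b) = (a * x * f) * b := (mul_assoc _ _ _).symm
      _ = f * b * (a * x) * b := by rw [R2]
      _ = f * b * (a * x * b) := mul_assoc _ _ _
      _ = f * b * (f * (a * x)) := by rw [R1]
      _ = f * (b * f) * (a * x) := by simp only [mul_assoc]
      _ = f * (f * b) * (a * x) := by rw [hbf]
      _ = (f * f) * b * (a * x) := by simp only [mul_assoc]
      _ = b * (a * x) := by rw [hff, one_mul]
  have hτ : a * x * (x * a) = 1 := by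
    calc a * x * (x * a) = a * (x * x) * a := by simp only [mul_assoc]
      _ = 1 := by rw [hxx, mul_one, haa]
  have hconj : a * (a * x) * a⁻¹ = (a * x)⁻¹ := by
    rw [hainv, ← eq_inv_of_mul_eq_one_right hτ]
    calc a * (a * x) * a = (a * a) * x * a := by simp only [mul_assoc]
      _ = x * a := by rw [haa, one_mul]
  have hpair := hD.pair a ha x hx
  obtain ⟨ρ, hρ⟩ : ∃ ρ : G, ρ = a * x := ⟨_, rfl⟩
  rw [← hρ] at R1 R2 R3 hconj ⊢
  have S2 : ρ ^ 2 * b = f * b * ρ ^ 2 := by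
    calc ρ ^ 2 * b = ρ * (ρ * b) := by rw [pow_two, mul_assoc]
      _ = ρ * (f * ρ) := by rw [R1]
      _ = (ρ * f) * ρ := (mul_assoc _ _ _).symm
      _ = f * b * ρ * ρ := by rw [R2]
      _ = f * b * ρ ^ 2 := by rw [pow_two]; simp only [mul_assoc]
  have S3 : ρ ^ 3 * b = b * ρ ^ 3 := by
    calc ρ ^ 3 * b = ρ * (ρ ^ 2 * b) := by rw [pow_succ' ρ 2, mul_assoc]
      _ = ρ * (f * b * ρ ^ 2) := by rw [S2]
      _ = (ρ * (f * b)) * ρ ^ 2 := (mul_assoc _ _ _).symm
      _ = b * ρ * ρ ^ 2 := by rw [R3]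
      _ = b * ρ ^ 3 := by rw [pow_succ' ρ 2]; simp only [mul_assoc]
  have S4 : ρ ^ 4 * b = f * ρ ^ 4 := by
    calc ρ ^ 4 * b = ρ * (ρ ^ 3 * b) := by rw [pow_succ' ρ 3, mul_assoc]
      _ = ρ * (b * ρ ^ 3) := by rw [S3]
      _ = (ρ * b) * ρ ^ 3 := (mul_assoc _ _ _).symm
      _ = f * ρ * ρ ^ 3 := by rw [R1]
      _ = f * ρ ^ 4 := by rw [pow_succ' ρ 3]; simp only [mul_assoc]
  rcases hpair with hcomm | hodd | ⟨h4, -⟩
  · exfalso
    have h2 : ρ ^ 2 = 1 := by
      rw [hρ]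
      exact sq_eq_one_of_comm haa hxx hcomm
    rw [h2, one_mul, mul_one] at S2
    have h3 : f * b = 1 * b := by
      rw [one_mul]
      exact S2.symm
    exact hf1 (mul_right_cancel h3)
  · rw [← hρ] at hodd
    have hσb : Commute (ρ ^ 3) b := S3
    have hσinv : a * ρ ^ 3 * a⁻¹ = (ρ ^ 3)⁻¹ := by
      rw [← conj_pow, hconj, inv_pow]
    have hσa : a * ρ ^ 3 = (ρ ^ 3)⁻¹ * a := by
      rw [← hσinv]
      simp only [mul_assoc, inv_mul_cancel, mul_one]
    have habD : a * b ∈ D := by rw [← hba]; exact hbaD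
    have hcD : ρ ^ 3 * (a * b) * (ρ ^ 3)⁻¹ ∈ D := hD.conj_mem _ habD _
    have hcomm' : (ρ ^ 3)⁻¹ * b = b * (ρ ^ 3)⁻¹ := (hσb.inv_left).eq
    have hac : a * (ρ ^ 3 * (a * b) * (ρ ^ 3)⁻¹) = b * ((ρ ^ 3)⁻¹) ^ 2 := by
      calc a * (ρ ^ 3 * (a * b) * (ρ ^ 3)⁻¹) = (a * ρ ^ 3) * (a * b) * (ρ ^ 3)⁻¹ := by
            simp only [mul_assoc]
        _ = (ρ ^ 3)⁻¹ * a * (a * b) * (ρ ^ 3)⁻¹ := by rw [hσa]
        _ = (ρ ^ 3)⁻¹ * (a * a) * b * (ρ ^ 3)⁻¹ := by simp only [mul_assoc]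
        _ = ((ρ ^ 3)⁻¹ * b) * (ρ ^ 3)⁻¹ := by rw [haa, mul_one]
        _ = b * (ρ ^ 3)⁻¹ * (ρ ^ 3)⁻¹ := by rw [hcomm']
        _ = b * ((ρ ^ 3)⁻¹) ^ 2 := by rw [pow_two, mul_assoc]
    have hub : Commute b (((ρ ^ 3)⁻¹) ^ 2) := ((hσb.inv_left).pow_left 2).symm
    have hoddu : Odd (orderOf (((ρ ^ 3)⁻¹) ^ 2)) := by
      have h1 : orderOf (((ρ ^ 3)⁻¹) ^ 2) ∣ orderOf ρ := by
        refine (orderOf_pow_dvd 2).trans ?_
        rw [orderOf_inv]
        exact orderOf_pow_dvd 3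
      exact Odd.of_dvd_nat hodd h1
    have hcc := Cfsg.Agent.H40.RootInv.sq_of_mem hD hcD
    have hu1 : ((ρ ^ 3)⁻¹) ^ 2 = 1 := by
      rcases hD.pair a ha _ hcD with hc1 | hc2 | ⟨hc3, -⟩
      · have h2 := sq_eq_one_of_comm haa hcc hc1
        rw [hac, hub.mul_pow, pow_two b, hbb, one_mul] at h2
        have h3 := Cfsg.Agent.H40.RootInv.odd_dvd_two hoddu (orderOf_dvd_of_pow_eq_one h2)
        exact orderOf_eq_one_iff.1 h3
      · rw [hac] at hc2
        exact absurd (hom hbb hub.eq hoddu hc2) hb1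
      · have h4' : (a * (ρ ^ 3 * (a * b) * (ρ ^ 3)⁻¹)) ^ 4 = 1 := by
          rw [← hc3]
          exact pow_orderOf_eq_one _
        rw [hac, hub.mul_pow] at h4'
        have hb4 : b ^ 4 = 1 := by
          rw [show (4 : ℕ) = 2 * 2 from rfl, pow_mul, pow_two b, hbb, one_pow]
        rw [hb4, one_mul] at h4'
        have h3 := Cfsg.Agent.H40.RootInv.odd_dvd_four hoddu (orderOf_dvd_of_pow_eq_one h4')
        exact orderOf_eq_one_iff.1 h3
    have h6 : ρ ^ 6 = 1 := by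
      rw [inv_pow, inv_eq_one, ← pow_mul] at hu1
      exact hu1
    have hdvd6 : orderOf ρ ∣ 3 * 2 := orderOf_dvd_of_pow_eq_one h6
    have hdvd3 : orderOf ρ ∣ 3 :=
      Nat.Coprime.dvd_of_dvd_mul_right (Nat.coprime_two_right.2 hodd) hdvd6
    rcases (Nat.dvd_prime Nat.prime_three).1 hdvd3 with h1 | h3
    · exfalso
      have hρ1 : ρ = 1 := orderOf_eq_one_iff.1 h1
      rw [hρ1, one_mul, mul_one] at R1
      exact hbnef R1
    · exact h3
  · exfalso
    rw [← hρ] at h4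
    have hρ4 : ρ ^ 4 = 1 := by
      rw [← h4]
      exact pow_orderOf_eq_one _
    rw [hρ4, one_mul, mul_one] at S4
    exact hbnef S4

end Cfsg.Agent.H54.RX

universe u in
example (hom : Cfsg.Agent.H85.RX.StOddMul.{u}) : Cfsg.Agent.H85.RX.StS4.{u} :=
  Cfsg.Agent.H54.RX.s4 hom
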