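import Mathlib
import Cfsg.Prelude
import Cfsg.Agent.H85.RXDefs
import Cfsg.Agent.H54.RXS4

set_option autoImplicit false

/-!
# S5047-INJB (team piece for helper85): `(g₁ x)² = (g₂ x)²` forces `g₁ = g₂`
-/

namespace Cfsg.Agent.H54.RX

open Cfsg.Agent.H85.RT Cfsg.Agent.H85.RX

universe u

/-- S5047-INJB. -/
theorem inj_b (hom : StOddMul.{u}) : StInjB.{u} := by
  intro G _ D hD a x g₁ g₂ ha hx' hg₁' hg₂' heq
  obtain ⟨hx, hxa, hoddax⟩ := hx'
  obtain ⟨hg₁, hg₁a, -, hg₁aD, ho₁⟩ := hg₁'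
  obtain ⟨hg₂, hg₂a, -, hg₂aD, ho₂⟩ := hg₂'
  have haa := Cfsg.Agent.H40.RootInv.sq_of_mem hD ha
  have hxx := Cfsg.Agent.H40.RootInv.sq_of_mem hD hx
  have h11 := Cfsg.Agent.H40.RootInv.sq_of_mem hD hg₁
  have h22 := Cfsg.Agent.H40.RootInv.sq_of_mem hD hg₂
  have ha1 := Cfsg.Agent.H40.RootInv.ne_one_of_mem hD ha
  have h2inv : g₂⁻¹ = g₂ := inv_eq_of_mul_eq_one_left h22
  have hn4 : ¬ Odd 4 := by decide
  -- (G3)
  have G3 : ∀ g : G, g ∈ D → g * a = a * g → g * a ∈ D → ¬ Odd (orderOf (g * x)) →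
      Odd (orderOf (g * a * x)) := by
    intro g hg hga hgaD hnodd
    have hgg := Cfsg.Agent.H40.RootInv.sq_of_mem hD hg
    have e : g * (g * a) = a := by rw [← mul_assoc, hgg, one_mul]
    have huv : g * (g * a) = g * a * g := by rw [e, hga, mul_assoc, hgg, mul_one]
    have hne : g ≠ g * a := by
      intro h
      apply ha1
      have h' : g * a = g * 1 := by
        rw [mul_one]
        exact h.symm
      exact mul_left_cancel h'
    have huvD : g * (g * a) ∈ D := by rw [e]; exact ha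
    have hxne : x ≠ g * (g * a) := by rw [e]; exact hxa
    have hodd' : Odd (orderOf (g * (g * a) * x)) := by rw [e]; exact hoddax
    rcases Cfsg.Agent.H85.RI.nsa hD (fun u v x hu hv huv hne huvD hx hxu hodd =>
      Cfsg.Agent.H85.RI.b1 hD hu hv huv hne huvD hx hxu hodd) hg hgaD huv hne huvD hx hxne hodd'
      with h | h
    · exact absurd h.2 hnodd
    · exact h.2
  obtain ⟨c₁, hc₁, hc₁D, hc₁c₁, -, -, -, hc₁x, -, -, -, -, -⟩ := d8_pack hD hg₁ hx ho₁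
  obtain ⟨c₂, hc₂, -, -, -, -, -, hc₂x, -, -, -, -, -⟩ := d8_pack hD hg₂ hx ho₂
  have hc12 : c₁ = c₂ := by rw [hc₁, hc₂, heq]
  have K : g₁ * x * g₁ = g₂ * x * g₂ := by rw [← hc₁x, ← hc₂x, hc12]
  have hwx : g₁ * g₂ * x = x * (g₁ * g₂) := by
    calc g₁ * g₂ * x = g₁ * (g₂ * x * g₂) * g₂ := by simp only [mul_assoc, h22, mul_one]
      _ = g₁ * (g₁ * x * g₁) * g₂ := by rw [K]
      _ = (g₁ * g₁) * x * g₁ * g₂ := by simp only [mul_assoc]
      _ = x * (g₁ * g₂) := by rw [h11, one_mul, mul_assoc]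
  have hG1 : Odd (orderOf (g₁ * a * x)) := G3 g₁ hg₁ hg₁a hg₁aD (by rw [ho₁]; exact hn4)
  have hG2 : Odd (orderOf (g₂ * a * x)) := G3 g₂ hg₂ hg₂a hg₂aD (by rw [ho₂]; exact hn4)
  have hfin : g₁ * g₂ = 1 → g₁ = g₂ := fun h =>
    (eq_inv_of_mul_eq_one_left h).trans h2inv
  have hca1 : Commute g₁ a := hg₁a
  have hca2 : Commute g₂ a := hg₂a
  have hcwa : Commute (g₁ * g₂) a := hca1.mul_left hca2
  have hcwx : Commute (g₁ * g₂) x := hwx
  rcases hD.pair g₁ hg₁ g₂ hg₂ with hcomm | hodd | ⟨h4, -⟩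
  · -- (1)
    apply hfin
    have hww : g₁ * g₂ * (g₁ * g₂) = 1 := by
      calc g₁ * g₂ * (g₁ * g₂) = g₁ * g₂ * (g₂ * g₁) := by rw [hcomm]
        _ = g₁ * (g₂ * g₂) * g₁ := by simp only [mul_assoc]
        _ = 1 := by rw [h22, mul_one, h11]
    have hcw1 : Commute (g₁ * g₂) g₁ := by
      show g₁ * g₂ * g₁ = g₁ * (g₁ * g₂)
      rw [mul_assoc, hcomm]
    have hcwu : Commute (g₁ * g₂) (g₁ * a * x) := (hcw1.mul_right hcwa).mul_right hcwx
    have e : g₁ * g₂ * (g₁ * a * x) = g₂ * a * x := by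
      calc g₁ * g₂ * (g₁ * a * x) = (g₁ * g₂) * g₁ * a * x := by simp only [mul_assoc]
        _ = (g₂ * g₁) * g₁ * a * x := by rw [hcomm]
        _ = g₂ * (g₁ * g₁) * a * x := by simp only [mul_assoc]
        _ = g₂ * a * x := by rw [h11, mul_one]
    exact hom hww hcwu.eq hG1 (by rw [e]; exact hG2)
  · -- (2)
    apply hfin
    have e : g₁ * (g₂ * a) = g₁ * g₂ * a := (mul_assoc _ _ _).symm
    have ha2 : a ^ 2 = 1 := by rw [pow_two, haa]
    rcases hD.pair g₁ hg₁ (g₂ * a) hg₂aD with hc | ho | ⟨ho4, -⟩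
    · have h2 := sq_eq_one_of_comm h11 (Cfsg.Agent.H40.RootInv.sq_of_mem hD hg₂aD) hc
      rw [e, hcwa.mul_pow, ha2, mul_one] at h2
      have h3 := Cfsg.Agent.H40.RootInv.odd_dvd_two hodd (orderOf_dvd_of_pow_eq_one h2)
      exact orderOf_eq_one_iff.1 h3
    · exfalso
      rw [e, hcwa.eq] at ho
      exact ha1 (hom haa hcwa.symm.eq hodd ho)
    · have h4' : (g₁ * (g₂ * a)) ^ 4 = 1 := by
        rw [← ho4]
        exact pow_orderOf_eq_one _
      have ha4 : a ^ 4 = 1 := by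
        rw [show (4 : ℕ) = 2 * 2 from rfl, pow_mul, ha2, one_pow]
      rw [e, hcwa.mul_pow, ha4, mul_one] at h4'
      have h3 := Cfsg.Agent.H40.RootInv.odd_dvd_four hodd (orderOf_dvd_of_pow_eq_one h4')
      exact orderOf_eq_one_iff.1 h3
  · -- (3)
    exfalso
    obtain ⟨z, hz, hzD, hzz, hzg₁, -, hg₁z, -, -, -, -, hg₁zD, -⟩ := d8_pack hD hg₁ hg₂ h4
    have hcza : Commute z a := by
      rw [hz]
      exact hcwa.pow_left 2
    have hczx : Commute z x := by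
      rw [hz]
      exact hcwx.pow_left 2
    have hcz1 : Commute z g₁ := hzg₁
    have hg₃a : g₁ * z * a = a * (g₁ * z) := (hca1.mul_left hcza).eq
    have hg₃aD : g₁ * z * a ∈ D := by
      have e : g₁ * z * a = g₂ * (g₁ * a) * g₂⁻¹ := by
        rw [hg₁z, h2inv]
        calc g₂ * g₁ * g₂ * a = g₂ * g₁ * (g₂ * a) := by simp only [mul_assoc]
          _ = g₂ * g₁ * (a * g₂) := by rw [hg₂a]
          _ = g₂ * (g₁ * a) * g₂ := by simp only [mul_assoc]
      rw [e]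
      exact hD.conj_mem _ hg₁aD g₂
    have ho3 : orderOf (g₁ * z * x) = 4 := by
      have e : g₁ * z * x = z * (g₁ * x) := by
        rw [← hzg₁, mul_assoc]
      have hc : Commute z (g₁ * x) := hcz1.mul_right hczx
      have hsq : (g₁ * z * x) ^ 2 = c₁ := by
        rw [e, hc.mul_pow, pow_two z, hzz, one_mul, hc₁]
      exact orderOf_eq_four_of_sq _ _ hsq (Cfsg.Agent.H40.RootInv.ne_one_of_mem hD hc₁D) hc₁c₁
    have hG3 : Odd (orderOf (g₁ * z * a * x)) :=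
      G3 (g₁ * z) hg₁zD hg₃a hg₃aD (by rw [ho3]; exact hn4)
    have e : g₁ * z * a * x = z * (g₁ * a * x) := by
      rw [← hzg₁]
      simp only [mul_assoc]
    have hczu : Commute z (g₁ * a * x) := (hcz1.mul_right hcza).mul_right hczx
    rw [e] at hG3
    exact Cfsg.Agent.H40.RootInv.ne_one_of_mem hD hzD (hom hzz hczu.eq hG1 hG3)

end Cfsg.Agent.H54.RX

universe u in
example (hom : Cfsg.Agent.H85.RX.StOddMul.{u}) : Cfsg.Agent.H85.RX.StInjB.{u} :=
  Cfsg.Agent.H54.RX.inj_b hom
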