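/-
helper54 library (S5965-C2, for helper99): an element `x` with `x ^ r = 1` that is conjugate to a
scalar multiple of a matrix over the subfield `F₀` has `rank (x - 1)` divisible by the order of
`|F₀|` modulo `r` (when the order of `|F|` modulo `r` is at least `2`).
-/
import Mathlib
import Cfsg.Agent.H53.TenFIN

set_option autoImplicit false

open scoped MatrixGroups

namespace Cfsg.Agent.H54.Sub

variable {F : Type*} [Field F] [Fintype F]

/-- The `r`-th power map is injective on a finite field with `r ∤ q - 1`. -/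
theorem pow_inj_of_not_dvd (r : ℕ) (hr : r.Prime) (hrq : ¬ r ∣ Fintype.card F - 1) (a b : F)
    (hab : a ^ r = b ^ r) : a = b := by
  by_cases hb : b = 0
  · rw [hb, zero_pow hr.ne_zero] at hab
    rw [hb]
    exact pow_eq_zero_iff hr.ne_zero |>.mp hab
  · have ha : a ≠ 0 := by
      intro ha
      rw [ha, zero_pow hr.ne_zero] at hab
      exact hb (pow_eq_zero_iff hr.ne_zero |>.mp hab.symm)
    have hc0 : a / b ≠ 0 := div_ne_zero ha hb
    have h1 : (a / b) ^ r = 1 := by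
      rw [div_pow, hab, div_self (pow_ne_zero r hb)]
    have h2 : (a / b) ^ (Fintype.card F - 1) = 1 := FiniteField.pow_card_sub_one_eq_one _ hc0
    have h3 : orderOf (a / b) ∣ Nat.gcd r (Fintype.card F - 1) :=
      Nat.dvd_gcd (orderOf_dvd_of_pow_eq_one h1) (orderOf_dvd_of_pow_eq_one h2)
    have h4 : Nat.gcd r (Fintype.card F - 1) = 1 := (Nat.Prime.coprime_iff_not_dvd hr).mpr hrq
    rw [h4, Nat.dvd_one, orderOf_eq_one_iff] at h3
    exact (div_eq_one_iff_eq hb).mp h3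

/-- **S5965-C2**. -/
theorem order_dvd_of_conj_subfield (F₀ : Subfield F) (n r : ℕ) (hn : 0 < n) (hr : r.Prime)
    (hrF : (r : F) ≠ 0) (hc : 2 ≤ orderOf (Fintype.card F : ZMod r))
    (hrank : ∀ M : Matrix (Fin n) (Fin n) ↥F₀, (M.map F₀.subtype).rank = M.rank)
    (x P : Matrix (Fin n) (Fin n) F) (hP : IsUnit P.det) (Y₀ : Matrix (Fin n) (Fin n) ↥F₀)
    (l : F) (hl : l ≠ 0) (hxr : x ^ r = 1) (h : x * P = P * (l • Y₀.map F₀.subtype)) :
    orderOf (Nat.card ↥F₀ : ZMod r) ∣ (x - 1).rank := by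
  classical
  have : Fintype ↥F₀ := Fintype.ofFinite _
  -- `r ∤ q - 1`
  have hrq : ¬ r ∣ Fintype.card F - 1 := by
    intro hdvd
    have hpos : 0 < Fintype.card F := Fintype.card_pos
    have h1 : ((Fintype.card F : ℕ) : ZMod r) = 1 := by
      have h2 : Fintype.card F = (Fintype.card F - 1) + 1 := by omega
      rw [h2, Nat.cast_add, (ZMod.natCast_eq_zero_iff _ _).mpr hdvd, zero_add, Nat.cast_one]
    rw [h1, orderOf_one] at hc
    omega
  -- `(l • Y) ^ r = 1`
  have hpow : ∀ k : ℕ, x ^ k * P = P * (l • Y₀.map F₀.subtype) ^ k := by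
    intro k
    induction k with
    | zero => simp
    | succ k ih => rw [pow_succ, mul_assoc, h, ← mul_assoc, ih, mul_assoc, ← pow_succ]
  have hZr : (l • Y₀.map F₀.subtype) ^ r = 1 := by
    have h1 := hpow r
    rw [hxr, one_mul] at h1
    calc (l • Y₀.map F₀.subtype) ^ r = P⁻¹ * P * (l • Y₀.map F₀.subtype) ^ r := by
          rw [Matrix.nonsing_inv_mul P hP, one_mul]
      _ = P⁻¹ * (P * (l • Y₀.map F₀.subtype) ^ r) := by rw [mul_assoc]
      _ = 1 := by rw [← h1, Matrix.nonsing_inv_mul P hP]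
  -- `l ^ r ∈ F₀`
  have hmap_pow : ∀ (M : Matrix (Fin n) (Fin n) ↥F₀) (k : ℕ),
      (M ^ k).map F₀.subtype = (M.map F₀.subtype) ^ k := by
    intro M k
    exact map_pow (F₀.subtype.mapMatrix (m := Fin n)) M k
  have hlr : l ^ r * (((Y₀ ^ r) ⟨0, hn⟩ ⟨0, hn⟩ : ↥F₀) : F) = 1 := by
    have h1 := congrFun (congrFun hZr ⟨0, hn⟩) ⟨0, hn⟩
    rw [smul_pow, ← hmap_pow] at h1
    simpa using h1
  have hlr' : l ^ r = (((Y₀ ^ r) ⟨0, hn⟩ ⟨0, hn⟩)⁻¹ : ↥F₀) := by
    rw [Subfield.coe_inv]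
    exact eq_inv_of_mul_eq_one_left hlr
  -- the `r`-th power map on `F₀` is a bijection
  have hinj₀ : Function.Injective (fun a : ↥F₀ => a ^ r) := by
    intro a b hab
    apply Subtype.ext
    apply pow_inj_of_not_dvd r hr hrq
    have := congrArg (Subtype.val) hab
    simpa using this
  obtain ⟨l₀, hl₀⟩ := (Finite.injective_iff_surjective.mp hinj₀) (((Y₀ ^ r) ⟨0, hn⟩ ⟨0, hn⟩)⁻¹)
  have hl₀' : (l₀ : F) = l := by
    apply pow_inj_of_not_dvd r hr hrq
    rw [hlr', ← hl₀]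
    simp
  -- the matrix `X₀ = l₀ • Y₀` over `F₀`
  have hX₀map : (l₀ • Y₀).map F₀.subtype = l • Y₀.map F₀.subtype := by
    rw [← hl₀']
    ext i j
    simp
  have hX₀r : (l₀ • Y₀) ^ r = 1 := by
    apply Matrix.map_injective F₀.subtype_injective
    show ((l₀ • Y₀) ^ r).map F₀.subtype = (1 : Matrix (Fin n) (Fin n) ↥F₀).map F₀.subtype
    rw [hmap_pow, hX₀map, hZr, Matrix.map_one _ (map_zero _) (map_one _)]
  have hrF₀ : ((r : ℕ) : ↥F₀) ≠ 0 := by
    intro h0
    apply hrF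
    have := congrArg (Subtype.val) h0
    simpa using this
  have hdvd := Cfsg.Agent.H53.Ten.order_dvd_rank_sub_one (F := ↥F₀) r hr hrF₀ (l₀ • Y₀) hX₀r
  rw [← Nat.card_eq_fintype_card] at hdvd
  -- ranks
  have hr1 : ((l₀ • Y₀) - 1).rank = (l • Y₀.map F₀.subtype - 1).rank := by
    rw [← hrank, ← hX₀map]
    congr 1
    rw [Matrix.map_sub _ (map_sub _), Matrix.map_one _ (map_zero _) (map_one _)]
  have hr2 : (x - 1).rank = (l • Y₀.map F₀.subtype - 1).rank := by
    have h1 : (x - 1) * P = P * (l • Y₀.map F₀.subtype - 1) := by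
      rw [sub_mul, mul_sub, h, one_mul, mul_one]
    rw [← Matrix.rank_mul_eq_left_of_isUnit_det P (x - 1) hP, h1,
      Matrix.rank_mul_eq_right_of_isUnit_det P _ hP]
  rw [hr2, ← hr1]
  exact hdvd

end Cfsg.Agent.H54.Sub

section Check

variable {F : Type*} [Field F] [Fintype F]

example (F₀ : Subfield F) (n r : ℕ) (hn : 0 < n) (hr : r.Prime)
    (hrF : (r : F) ≠ 0) (hc : 2 ≤ orderOf (Fintype.card F : ZMod r))
    (hrank : ∀ M : Matrix (Fin n) (Fin n) ↥F₀, (M.map F₀.subtype).rank = M.rank)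
    (x P : Matrix (Fin n) (Fin n) F) (hP : IsUnit P.det) (Y₀ : Matrix (Fin n) (Fin n) ↥F₀)
    (l : F) (hl : l ≠ 0) (hxr : x ^ r = 1) (h : x * P = P * (l • Y₀.map F₀.subtype)) :
    orderOf (Nat.card ↥F₀ : ZMod r) ∣ (x - 1).rank :=
  Cfsg.Agent.H54.Sub.order_dvd_of_conj_subfield F₀ n r hn hr hrF hc hrank x P hP Y₀ l hl hxr h

end Check
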