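import Cfsg.Agent.H21.SimpleTools
import Cfsg.Agent.H21.OrderCount
import Cfsg.Agent.H24.O459SYLH

/-!
# Sylow-counting tools for "no simple group of order N" arguments (helper54)

* `syl_data`: the numerical data of a Sylow `p`-subgroup of order `p` in a non-abelian simple group.
* `exists_sylow_le_centralizer` (F3): a prime `q ‖ |G|` dividing `|C(A)|` gives a Sylow
  `q`-subgroup centralizing `A`.
* `normalizer_le_of_unique` (F4): if `C(A)` has only one Sylow `q`-subgroup, `Q` say, then
  `N(A) ≤ N(Q)`.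
* `card_eq_mul_of_normalizer_le`: `|L| = t |N(P)|`, `t ≡ 1 (p)`, for `N(P) ≤ L`.
* `card_orderOf_ge`: counting elements of order `d` through centralizers of Sylow subgroups.
-/

set_option autoImplicit false

namespace Cfsg.Agent.H54.ST

open Subgroup Cfsg.Agent.H21

/-- A subgroup of prime order is contained in its centralizer. -/
theorem le_centralizer_self {G : Type*} [Group G] (P : Subgroup G) (p : ℕ)
    [Fact p.Prime] (hP : Nat.card P = p) : P ≤ centralizer (P : Set G) := by
  have : IsCyclic P := isCyclic_of_prime_card hP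
  intro x hx
  rw [mem_centralizer_iff]
  intro y hy
  have h1 := (IsCyclic.commGroup (α := P)).mul_comm ⟨y, hy⟩ ⟨x, hx⟩
  exact congrArg Subtype.val h1

/-- Sylow data for a prime `p ‖ |G|` in a non-abelian simple group. -/
theorem syl_data {G : Type*} [Group G] [Finite G] [IsSimpleGroup G] (hG : ¬ IsMulCommutative G)
    {p m : ℕ} [Fact p.Prime] (hN : Nat.card G = p * m) (hm : ¬ p ∣ m) (P : Sylow p G) :
    Nat.card (P : Subgroup G) = p ∧
    Nat.card (Sylow p G) ∣ m ∧ Nat.card (Sylow p G) % p = 1 ∧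
    2 * Nat.card G ∣ (Nat.card (Sylow p G)).factorial ∧
    Nat.card (normalizer ((P : Subgroup G) : Set G)) * Nat.card (Sylow p G) = Nat.card G ∧
    ∃ e c, Nat.card (centralizer ((P : Subgroup G) : Set G)) = p * c ∧
      p * c * e = Nat.card (normalizer ((P : Subgroup G) : Set G)) ∧ e ≠ 1 ∧ e ∣ p - 1 := by
  obtain ⟨hPc, -, -, hdvd, hmod, -, hfac, hNn, -⟩ := simple_sylow_facts hG (p := p) (k := 1)
    (m := m) (by rw [hN, pow_one]) hm one_ne_zero P
  rw [pow_one] at hPc
  obtain ⟨d, hd, hd1, hdr, -⟩ := simple_sylow_prime_card_NC hG P hPc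
  have hcardN := card_centralizer_mul_relIndex_normalizer (P : Subgroup G)
  rw [← hd] at hcardN
  have hPle := le_centralizer_self (P : Subgroup G) p hPc
  obtain ⟨c, hc⟩ : p ∣ Nat.card (centralizer ((P : Subgroup G) : Set G)) := by
    have h0 := Subgroup.card_dvd_of_le hPle
    rwa [hPc] at h0
  exact ⟨hPc, hdvd, hmod, hfac, hNn, d, c, hc, by rw [← hc]; exact hcardN, hd1, hdr⟩

/-- (F3) If a prime `q ‖ |G|` divides `|C(A)|`, some Sylow `q`-subgroup centralizes `A`. -/
theorem exists_sylow_le_centralizer {G : Type*} [Group G] [Finite G] (A : Subgroup G) {q m : ℕ}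
    [Fact q.Prime] (hN : Nat.card G = q * m) (hm : ¬ q ∣ m)
    (hq : q ∣ Nat.card (centralizer (A : Set G))) :
    ∃ Q : Sylow q G, (Q : Subgroup G) ≤ centralizer (A : Set G) ∧
      A ≤ centralizer ((Q : Subgroup G) : Set G) := by
  have hqp : q.Prime := Fact.out
  obtain ⟨y, hyC, hy⟩ := exists_mem_orderOf_eq_prime _ q hq
  have hm0 : m ≠ 0 := by rintro rfl; exact hm (dvd_zero q)
  have hcard : Nat.card (zpowers y) = q ^ (Nat.card G).factorization q := by
    rw [Nat.card_zpowers, hy, hN, Nat.factorization_mul hqp.ne_zero hm0]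
    simp [hqp.factorization_self, Nat.factorization_eq_zero_of_not_dvd hm]
  refine ⟨Sylow.ofCard (zpowers y) hcard, ?_, ?_⟩
  · rw [Sylow.coe_ofCard, zpowers_le]; exact hyC
  · intro a ha
    rw [Sylow.coe_ofCard, mem_centralizer_iff]
    intro z hz
    obtain ⟨k, rfl⟩ := mem_zpowers_iff.mp hz
    have h1 : Commute y a := (mem_centralizer_iff.mp hyC a ha).symm
    exact (h1.zpow_left k).eq

/-- In a finite group, `n Q n⁻¹ ⊆ Q` puts `n` in the normalizer of `Q`. -/
theorem mem_normalizer_of_forall {G : Type*} [Group G] [Finite G] (Q : Subgroup G) (n : G)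
    (h : ∀ y ∈ Q, n * y * n⁻¹ ∈ Q) : n ∈ normalizer (Q : Set G) := by
  have hle : Q.map (MulAut.conj n).toMonoidHom ≤ Q := by
    rintro _ ⟨y, hy, rfl⟩
    exact h y hy
  have hcard : Nat.card (Q.map (MulAut.conj n).toMonoidHom) = Nat.card Q :=
    Subgroup.card_map_of_injective (MulAut.conj n).injective
  have heq : Q.map (MulAut.conj n).toMonoidHom = Q :=
    Subgroup.eq_of_le_of_card_ge hle (by rw [hcard])
  rw [mem_normalizer_iff]
  intro y
  constructor
  · exact h y
  · intro hy
    rw [← heq] at hy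
    obtain ⟨y', hy', he⟩ := hy
    have h1 : n * y' * n⁻¹ = n * y * n⁻¹ := he
    have h2 : y' = y := by
      have h3 : n⁻¹ * (n * y' * n⁻¹) * n = n⁻¹ * (n * y * n⁻¹) * n := by rw [h1]
      simpa [mul_assoc] using h3
    rw [← h2]; exact hy'

/-- (F4) If `C(A)` has a unique Sylow `q`-subgroup (numerically) and the Sylow `q`-subgroup `Q`
of `G` lies in `C(A)`, then `N(A) ≤ N(Q)`. -/
theorem normalizer_le_of_unique {G : Type*} [Group G] [Finite G] (A : Subgroup G) {q : ℕ}
    [Fact q.Prime] (Q : Sylow q G) (hQ : (Q : Subgroup G) ≤ centralizer (A : Set G))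
    (huniq : ∀ k : ℕ, k ∣ Nat.card (centralizer (A : Set G)) → k % q = 1 → k = 1) :
    normalizer (A : Set G) ≤ normalizer ((Q : Subgroup G) : Set G) := by
  classical
  obtain ⟨C, hC⟩ : ∃ C : Subgroup G, C = centralizer (A : Set G) := ⟨_, rfl⟩
  rw [← hC] at hQ huniq
  have hn1 : Nat.card (Sylow q C) = 1 := by
    apply huniq
    · exact (Sylow.card_dvd_index (Q.subtype hQ)).trans (Subgroup.index_dvd_card _)
    · have h := card_sylow_modEq_one q C
      unfold Nat.ModEq at h
      rw [h, Nat.mod_eq_of_lt (Fact.out : q.Prime).one_lt]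
  have hsub : ∀ S : Sylow q C, S = Q.subtype hQ := by
    intro S
    have : Subsingleton (Sylow q C) := (Nat.card_eq_one_iff_unique.mp hn1).1
    exact Subsingleton.elim _ _
  intro n hn
  apply mem_normalizer_of_forall
  intro y hy
  have hzC : n * y * n⁻¹ ∈ C := by
    rw [hC, mem_centralizer_iff]
    intro x hx
    have hx' : n⁻¹ * x * n ∈ A := by
      have h1 := (mem_normalizer_iff'.mp hn (n⁻¹ * x)).mpr (by simpa [mul_assoc] using hx)
      exact h1
    have hcomm := mem_centralizer_iff.mp (hC ▸ hQ hy) _ hx'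
    calc x * (n * y * n⁻¹) = n * ((n⁻¹ * x * n) * y) * n⁻¹ := by group
      _ = n * (y * (n⁻¹ * x * n)) * n⁻¹ := by rw [hcomm]
      _ = n * y * n⁻¹ * x := by group
  obtain ⟨k, hk⟩ := Q.isPGroup' ⟨y, hy⟩
  have hyk : y ^ q ^ k = 1 := by simpa using congrArg Subtype.val hk
  have hzk : (n * y * n⁻¹) ^ q ^ k = 1 := by rw [conj_pow, hyk]; group
  have hpg : IsPGroup q (zpowers (⟨n * y * n⁻¹, hzC⟩ : C)) := by
    rintro ⟨w, hw⟩
    obtain ⟨j, rfl⟩ := mem_zpowers_iff.mp hw
    refine ⟨k, Subtype.ext ?_⟩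
    have h2 : (⟨n * y * n⁻¹, hzC⟩ : C) ^ q ^ k = 1 := Subtype.ext (by simpa using hzk)
    show ((⟨n * y * n⁻¹, hzC⟩ : C) ^ j) ^ q ^ k = 1
    rw [← zpow_natCast, ← zpow_mul, mul_comm, zpow_mul, zpow_natCast, h2, one_zpow]
  obtain ⟨S, hS⟩ := hpg.exists_le_sylow
  rw [hsub S] at hS
  have h3 : (⟨n * y * n⁻¹, hzC⟩ : C) ∈ ((Q.subtype hQ : Sylow q C) : Subgroup C) :=
    hS (mem_zpowers _)
  rw [Sylow.coe_subtype] at h3
  exact Subgroup.mem_subgroupOf.mp h3

/-- If `N(P) ≤ L` for a Sylow `p`-subgroup `P`, then `|L| = t |N(P)|` with `t ≡ 1 (mod p)`. -/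
theorem card_eq_mul_of_normalizer_le {G : Type*} [Group G] [Finite G] (p : ℕ) [Fact p.Prime]
    (P : Sylow p G) (L : Subgroup G) (h : normalizer ((P : Subgroup G) : Set G) ≤ L) :
    ∃ t : ℕ, t % p = 1 ∧ Nat.card L = t * Nat.card (normalizer ((P : Subgroup G) : Set G)) := by
  obtain ⟨t, ht, hc⟩ := Cfsg.Agent.H24.O459.card_eq_mul_of_sylow_le p P L
    (le_normalizer.trans h)
  refine ⟨t, ht, ?_⟩
  rw [hc, inf_of_le_left h]

/-- An element of order `p * q` in the centralizer of a Sylow `p`-subgroup of order `p`. -/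
theorem exists_orderOf_mul {G : Type*} [Group G] [Finite G] (p q : ℕ) [Fact p.Prime]
    [Fact q.Prime] (hpq : p ≠ q) (P : Sylow p G) (hP : Nat.card (P : Subgroup G) = p)
    (hq : q ∣ Nat.card (centralizer ((P : Subgroup G) : Set G))) :
    ∃ z ∈ centralizer ((P : Subgroup G) : Set G), orderOf z = p * q := by
  have hp : p.Prime := Fact.out
  have hqp : q.Prime := Fact.out
  obtain ⟨x, hxP, hx⟩ := exists_mem_orderOf_eq_prime (P : Subgroup G) p (by rw [hP])
  obtain ⟨y, hyC, hy⟩ := exists_mem_orderOf_eq_prime _ q hq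
  have hcomm : Commute x y := (mem_centralizer_iff.mp hyC x hxP)
  have hcop : Nat.Coprime (orderOf x) (orderOf y) := by
    rw [hx, hy]; exact (Nat.coprime_primes hp hqp).2 hpq
  refine ⟨x * y, mul_mem (le_centralizer_self (P : Subgroup G) p hP hxP) hyC, ?_⟩
  rw [hcomm.orderOf_mul_eq_mul_orderOf_of_coprime hcop, hx, hy]

/-- Counting elements of order `d` (`p ∣ d`) through the centralizers of the Sylow
`p`-subgroups (all of order `p`). -/
theorem card_orderOf_ge {G : Type*} [Group G] [Finite G] (p d : ℕ) [Fact p.Prime] (hpd : p ∣ d)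
    (hP : ∀ P : Sylow p G, Nat.card (P : Subgroup G) = p)
    (hz : ∀ P : Sylow p G, ∃ z ∈ centralizer ((P : Subgroup G) : Set G), orderOf z = d) :
    Nat.card (Sylow p G) * Nat.totient d ≤ Nat.card {g : G // orderOf g = d} := by
  classical
  have hp : p.Prime := Fact.out
  have := Fintype.ofFinite (Sylow p G)
  -- the fibres
  have hfib : ∀ P : Sylow p G, Nat.totient d ≤
      Nat.card {g : G // g ∈ centralizer ((P : Subgroup G) : Set G) ∧ orderOf g = d} := by
    intro P
    obtain ⟨z, hzC, hzd⟩ := hz P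
    have h1 : Nat.totient d = Nat.card {k : ℕ // k ∈ (Finset.range d).filter (Nat.Coprime d)} := by
      rw [Nat.totient_eq_card_coprime, Nat.card_eq_fintype_card, Fintype.card_coe]
    rw [h1]
    refine Nat.card_le_card_of_injective (fun k => ⟨z ^ (k : ℕ), pow_mem hzC _, ?_⟩) ?_
    · have hk := (Finset.mem_filter.mp k.2).2
      have h3 : orderOf (z ^ (k : ℕ)) = orderOf z :=
        Nat.Coprime.orderOf_pow (by rw [hzd]; exact hk)
      rw [h3, hzd]
    · intro k k' hkk
      have h2 : z ^ (k : ℕ) = z ^ (k' : ℕ) := congrArg (fun t : {g : G // g ∈ centralizer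
        ((P : Subgroup G) : Set G) ∧ orderOf g = d} => (t : G)) hkk
      have hk := Finset.mem_range.mp (Finset.mem_filter.mp k.2).1
      have hk' := Finset.mem_range.mp (Finset.mem_filter.mp k'.2).1
      exact Subtype.ext (pow_injOn_Iio_orderOf (by rw [Set.mem_Iio, hzd]; exact hk)
        (by rw [Set.mem_Iio, hzd]; exact hk') h2)
  -- `P` is determined by any element of its fibre
  have hdet : ∀ (P : Sylow p G) (g : G), g ∈ centralizer ((P : Subgroup G) : Set G) →
      orderOf g = d → (P : Subgroup G) = zpowers (g ^ (d / p)) := by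
    intro P g hgC hgd
    have hd0 : orderOf g ≠ 0 := (orderOf_pos g).ne'
    have ho : orderOf (g ^ (d / p)) = p := by
      rw [← hgd]; exact orderOf_pow_orderOf_div hd0 (hgd ▸ hpd)
    have hhC : g ^ (d / p) ∈ centralizer ((P : Subgroup G) : Set G) := pow_mem hgC _
    have hpz : IsPGroup p (zpowers (g ^ (d / p))) :=
      IsPGroup.of_card (n := 1) (by rw [Nat.card_zpowers, ho, pow_one])
    have hsup : IsPGroup p (zpowers (g ^ (d / p)) ⊔ (P : Subgroup G) : Subgroup G) :=
      IsPGroup.to_sup_of_normal_right' hpz P.2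
        ((zpowers_le.mpr hhC).trans (centralizer_le_normalizer _))
    have h1 := P.is_maximal' hsup le_sup_right
    have hle : zpowers (g ^ (d / p)) ≤ (P : Subgroup G) := by
      rw [← h1]; exact le_sup_left
    exact (Subgroup.eq_of_le_of_card_ge hle (by rw [hP P, Nat.card_zpowers, ho])).symm
  have hinj : Nat.card (Σ P : Sylow p G,
      {g : G // g ∈ centralizer ((P : Subgroup G) : Set G) ∧ orderOf g = d}) ≤
      Nat.card {g : G // orderOf g = d} := by
    refine Nat.card_le_card_of_injective (fun x => ⟨x.2.1, x.2.2.2⟩) ?_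
    rintro ⟨P, g, hg1, hg2⟩ ⟨P', g', hg1', hg2'⟩ hxy
    have hgg : g = g' := congrArg (fun t : {g : G // orderOf g = d} => (t : G)) hxy
    subst hgg
    have hPP : P = P' := Sylow.ext ((hdet P g hg1 hg2).trans (hdet P' g hg1' hg2').symm)
    subst hPP
    rfl
  refine le_trans ?_ hinj
  rw [Nat.card_sigma]
  calc Nat.card (Sylow p G) * Nat.totient d = ∑ _P : Sylow p G, Nat.totient d := by
        rw [Finset.sum_const, Finset.card_univ, Nat.card_eq_fintype_card, smul_eq_mul]
    _ ≤ _ := Finset.sum_le_sum (fun P _ => hfib P)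

end Cfsg.Agent.H54.ST
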