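import Mathlib
import Cfsg.Agent.H42.TiDefs
import Cfsg.Agent.H54.SpnHyp
import Cfsg.Agent.H84.SpnInvOdd
import Cfsg.Agent.H75.SpnCompl
import Cfsg.Agent.H75.SpnSum

set_option autoImplicit false

/-!
# SPI-INVNS (S5955 team piece for helper42): `T ^ 2 = -1`, `-1` a non-square

Inside two orthogonal invariant nondegenerate planes `P₁ ⊥ P₂` there is a nonzero vector `u`
with `B u (T u) = 0` (every element of a finite field of odd order is a sum of two squares);
`span {u, T u}` is then an invariant totally isotropic plane, and TI-PEEL does the rest.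
-/

namespace Cfsg.Agent.H54.Ti

open Cfsg.Agent.H45 Cfsg.Agent.H42.Spd Cfsg.Agent.H42.Spn Cfsg.Agent.H42.Ti Module Polynomial

universe u v

/-- In a finite field of odd characteristic every element is a sum of two squares. -/
theorem exists_sq_add_sq {F : Type u} [Field F] [Fintype F] (h2 : (2 : F) ≠ 0) (c : F) :
    ∃ a b : F, a * a + b * b = c := by
  have hchar : ringChar F ≠ 2 := by
    intro h
    apply h2
    have h0 := ringChar.Nat.cast_ringChar (R := F)
    rw [h] at h0
    exact_mod_cast h0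
  have hodd : Fintype.card F % 2 = 1 := FiniteField.odd_card_of_char_ne_two hchar
  obtain ⟨a, b, hab⟩ := FiniteField.exists_root_sum_quadratic (f := (X : F[X]) ^ 2)
    (g := (X : F[X]) ^ 2 - C c) (degree_X_pow 2) (degree_X_pow_sub_C (by decide) c) hodd
  refine ⟨a, b, ?_⟩
  simp only [eval_pow, eval_X, eval_sub, eval_C] at hab
  linear_combination hab

/-- The hyperbolic pair of rank 2 inside an invariant nondegenerate subspace of dimension at
least 4. -/
theorem hypPair_of_invNs {F : Type u} [Field F] [Fintype F] {V : Type v} [AddCommGroup V]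
    [Module F V] [FiniteDimensional F V] (B : V →ₗ[F] V →ₗ[F] F) (T : Module.End F V)
    (h2 : (2 : F) ≠ 0) (hI : Iso B T) (hns : ¬ IsSquare (-1 : F))
    (hTT : T * T = (-1 : F) • (1 : Module.End F V))
    (W : Submodule F V) (hW : Nd B T W) (hdim : 2 < Module.finrank F W) : HypPair B T 2 W := by
  have hskew := Cfsg.Agent.H54.Spn.skew_of_alt B hI.alt
  have hTTv : ∀ v, T (T v) = -v := by
    intro v
    have := congrArg (fun f : Module.End F V => f v) hTT
    simpa using this
  have hW0 : W ≠ ⊥ := by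
    rintro rfl
    rw [finrank_bot] at hdim
    omega
  have hz : (-1 : F) * (-1) = 1 := by ring
  obtain ⟨P₁, hP₁W, hP₁, hP₁2⟩ := Cfsg.Agent.H84.Spn.invOdd Cfsg.Agent.H54.Spn.isoHyp F V B T h2
    hI (-1) hz hTT W hW hW0
  obtain ⟨hC, -, hCdim⟩ := Cfsg.Agent.H75.Spn.isoCompl F V B T hI P₁ W hP₁ hW hP₁W
  have hC0 : W ⊓ perp B P₁ ≠ ⊥ := by
    intro h
    rw [h, finrank_bot] at hCdim
    omega
  obtain ⟨P₂, hP₂C, hP₂, hP₂2⟩ := Cfsg.Agent.H84.Spn.invOdd Cfsg.Agent.H54.Spn.isoHyp F V B T h2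
    hI (-1) hz hTT _ hC hC0
  have hP₂W : P₂ ≤ W := hP₂C.trans inf_le_left
  have hP₂perp : P₂ ≤ perp B P₁ := hP₂C.trans inf_le_right
  obtain ⟨hH, hHdim⟩ := Cfsg.Agent.H75.Spn.isoSum F V B T hI P₁ P₂ hP₁ hP₂ hP₂perp
  have hP₁0 : P₁ ≠ ⊥ := by
    rintro rfl
    rw [finrank_bot] at hP₁2
    omega
  have hP₂0 : P₂ ≠ ⊥ := by
    rintro rfl
    rw [finrank_bot] at hP₂2
    omega
  obtain ⟨u₁, hu₁, hu₁0⟩ := Submodule.exists_mem_ne_zero_of_ne_bot hP₁0
  obtain ⟨u₂, hu₂, hu₂0⟩ := Submodule.exists_mem_ne_zero_of_ne_bot hP₂0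
  have hTu₁ : T u₁ ∈ P₁ := (Module.End.mem_invtSubmodule T).mp hP₁.1 hu₁
  have hTu₂ : T u₂ ∈ P₂ := (Module.End.mem_invtSubmodule T).mp hP₂.1 hu₂
  have hex : ∃ u ∈ P₁ ⊔ P₂, u ≠ 0 ∧ B u (T u) = 0 := by
    by_cases hq : B u₂ (T u₂) = 0
    · exact ⟨u₂, Submodule.mem_sup_right hu₂, hu₂0, hq⟩
    · obtain ⟨a, b, hab⟩ := exists_sq_add_sq h2 (-(B u₁ (T u₁)) / B u₂ (T u₂))
      have hab' : (a * a + b * b) * B u₂ (T u₂) = -(B u₁ (T u₁)) := by
        rw [hab]
        field_simp
      have hmem₂ : a • u₂ + b • T u₂ ∈ P₂ := P₂.add_mem (P₂.smul_mem _ hu₂) (P₂.smul_mem _ hTu₂)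
      refine ⟨u₁ + (a • u₂ + b • T u₂), Submodule.add_mem_sup hu₁ hmem₂, ?_, ?_⟩
      · intro h0
        have hu₁' : u₁ = -(a • u₂ + b • T u₂) := eq_neg_of_add_eq_zero_left h0
        have hmem : u₁ ∈ P₁ ⊓ perp B P₁ := by
          refine ⟨hu₁, ?_⟩
          rw [hu₁']
          exact hP₂perp (P₂.neg_mem hmem₂)
        rw [hP₁.2] at hmem
        exact hu₁0 ((Submodule.mem_bot F).1 hmem)
      · have e1 : B u₁ u₂ = 0 := hP₂perp hu₂ u₁ hu₁
        have e2 : B u₁ (T u₂) = 0 := hP₂perp hTu₂ u₁ hu₁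
        have e3 : B (T u₁) u₂ = 0 := hP₂perp hu₂ _ hTu₁
        have e4 : B (T u₁) (T u₂) = 0 := hP₂perp hTu₂ _ hTu₁
        have e1' : B u₂ u₁ = 0 := by rw [hskew, e1, neg_zero]
        have e2' : B (T u₂) u₁ = 0 := by rw [hskew, e2, neg_zero]
        have e3' : B u₂ (T u₁) = 0 := by rw [hskew, e3, neg_zero]
        have e4' : B (T u₂) (T u₁) = 0 := by rw [hskew, e4, neg_zero]
        have e5 : B (T u₂) u₂ = -B u₂ (T u₂) := hskew _ _
        simp only [map_add, map_smul, LinearMap.add_apply, LinearMap.smul_apply, smul_eq_mul,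
          hTTv, map_neg, LinearMap.neg_apply, hI.alt, e1, e2, e3, e4, e1', e2', e3', e4', e5]
        linear_combination hab'
  obtain ⟨u, huH, hu0, hQ⟩ := hex
  have hQ' : B (T u) u = 0 := by rw [hskew, hQ, neg_zero]
  have hTu : T u ∈ P₁ ⊔ P₂ := (Module.End.mem_invtSubmodule T).mp hH.1 huH
  refine ⟨P₁ ⊔ P₂, Submodule.span F {u, T u}, sup_le hP₁W hP₂W, hH, by rw [hHdim, hP₁2, hP₂2],
    ?_, ?_, ?_, ?_⟩
  · rw [Submodule.span_le]
    intro x hx
    rcases hx with rfl | rfl
    · exact huH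
    · exact hTu
  · rw [Module.End.mem_invtSubmodule]
    intro y hy
    obtain ⟨s, t, rfl⟩ := Submodule.mem_span_pair.1 hy
    show T (s • u + t • T u) ∈ Submodule.span F {u, T u}
    rw [map_add, map_smul, map_smul, hTTv]
    exact Submodule.add_mem _ (Submodule.smul_mem _ _ (Submodule.subset_span (by simp)))
      (Submodule.smul_mem _ _ (Submodule.neg_mem _ (Submodule.subset_span (by simp))))
  · intro x hx y hy
    obtain ⟨s, t, rfl⟩ := Submodule.mem_span_pair.1 hx
    obtain ⟨s', t', rfl⟩ := Submodule.mem_span_pair.1 hy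
    simp only [map_add, map_smul, LinearMap.add_apply, LinearMap.smul_apply, smul_eq_mul,
      hI.alt, hQ, hQ']
    ring
  · have hli : LinearIndependent F ![u, T u] := by
      rw [LinearIndependent.pair_iff]
      intro s t hst
      have h1 : s • T u - t • u = 0 := by
        have h := congrArg T hst
        rw [map_add, map_smul, map_smul, hTTv, map_zero, smul_neg] at h
        rw [sub_eq_add_neg]
        exact h
      have h2 : (s * s + t * t) • u = 0 := by
        have h : (s * s + t * t) • u = s • (s • u + t • T u) - t • (s • T u - t • u) := by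
          simp only [smul_add, smul_sub, smul_smul, add_smul]
          rw [mul_comm t s]
          abel
        rw [h, hst, h1, smul_zero, smul_zero, sub_zero]
      have h3 : s * s + t * t = 0 := by
        rcases smul_eq_zero.1 h2 with h | h
        · exact h
        · exact absurd h hu0
      by_cases ht : t = 0
      · subst ht
        simp only [mul_zero, add_zero, mul_self_eq_zero] at h3
        exact ⟨h3, rfl⟩
      · exfalso
        apply hns
        refine ⟨s / t, ?_⟩
        field_simp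
        linear_combination -h3
    have h3 := finrank_span_eq_card hli
    have hrange : Set.range ![u, T u] = {u, T u} := by
      ext x
      simp only [Matrix.range_cons, Matrix.range_empty, Set.union_empty, Set.mem_union,
        Set.mem_singleton_iff, Set.mem_insert_iff]
    rw [hrange] at h3
    simpa using h3

/-- SPI-INVNS. -/
theorem tiInvNs (hP : StTiPeel.{u, v}) : StTiInvNs.{u, v} := by
  intro F _ _ V _ _ _ B T h2 hI hns hTT k hk
  have hskew : ∀ x y, B x y = 0 → B y x = 0 := by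
    intro x y h
    rw [Cfsg.Agent.H54.Spn.skew_of_alt B hI.alt, h, neg_zero]
  have htop : Nd B T ⊤ := nd_top B T hI.nondeg hskew
  have hstep : ∀ W : Submodule F V, W ≤ ⊤ → Nd B T W → 2 < Module.finrank F W →
      HypPair B T 2 W := fun W _ hW hdim => hypPair_of_invNs B T h2 hI hns hTT W hW hdim
  have hj : k = 0 ∨ 2 + 2 * 2 * (k - 1) < Module.finrank F ↥(⊤ : Submodule F V) := by
    rw [finrank_top]
    omega
  obtain ⟨U, -, hU1, hU2, hU3⟩ := hP F V B T hI 2 2 ⊤ htop hstep k hj
  exact ⟨U, hU1, hU2, hU3⟩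

end Cfsg.Agent.H54.Ti

universe u v in
example (hP : Cfsg.Agent.H42.Ti.StTiPeel.{u, v}) : Cfsg.Agent.H42.Ti.StTiInvNs.{u, v} :=
  Cfsg.Agent.H54.Ti.tiInvNs hP
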