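import Mathlib
import Cfsg.Agent.H77.TmDefs2
import Cfsg.Agent.H49.InvOmega

/-!
# Shared lemmas for the S5987 / S5973 pieces MEVEN (helper54)
-/

set_option autoImplicit false
open scoped MatrixGroups
open scoped Matrix

namespace Cfsg.Agent.H54.TmC

open Cfsg.Agent.H45 Cfsg.Agent.H42.Spd Cfsg.Agent.H42.Ti Cfsg.Agent.H77.Tq Cfsg.Agent.H77.Tm
  Module Polynomial

universe u v

section Gen

variable {F : Type u} [Field F] {V : Type v} [AddCommGroup V] [Module F V]

/-- The orthogonal sum of totally singular subspaces is totally singular. -/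
theorem ts_sup (Q : QuadraticForm F V) (C U J L : Submodule F V)
    (hperp : ∀ c ∈ C, ∀ u ∈ U, QuadraticMap.polar ⇑Q c u = 0)
    (hJ : J ≤ C) (hL : L ≤ U) (hJts : TS Q J) (hLts : TS Q L) : TS Q (J ⊔ L) := by
  intro x hx
  obtain ⟨c, hc, u, hu, rfl⟩ := Submodule.mem_sup.mp hx
  have h := hperp c (hJ hc) u (hL hu)
  rw [QuadraticMap.polar, hJts c hc, hLts u hu, sub_zero, sub_zero] at h
  exact h

/-- A totally singular subspace is totally isotropic for the polar form. -/
theorem ti_of_ts (Q : QuadraticForm F V) (J : Submodule F V) (hJ : TS Q J) : TI (pol Q) J := by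
  intro x hx z hz
  show QuadraticMap.polar ⇑Q x z = 0
  rw [QuadraticMap.polar, hJ x hx, hJ z hz, hJ (x + z) (J.add_mem hx hz), sub_zero, sub_zero]

theorem finrank_sup_disj [FiniteDimensional F V] (C U J L : Submodule F V) (hCU : C ⊓ U = ⊥)
    (hJ : J ≤ C) (hL : L ≤ U) : finrank F ↥(J ⊔ L) = finrank F ↥J + finrank F ↥L := by
  have h := Submodule.finrank_sup_add_finrank_inf_eq J L
  have h0 : J ⊓ L = ⊥ := by
    rw [eq_bot_iff, ← hCU]
    exact inf_le_inf hJ hL
  rw [h0, finrank_bot, add_zero] at h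
  exact h

/-- The sum of a subspace of fixed vectors and an invariant subspace is invariant. -/
theorem invt_sup (T : Module.End F V) (J W : Submodule F V) (hJ : J ≤ LinearMap.ker (T - 1))
    (hW : W ∈ T.invtSubmodule) : (J ⊔ W).map T ≤ J ⊔ W := by
  rintro _ ⟨x, hx, rfl⟩
  obtain ⟨c, hc, u, hu, rfl⟩ := Submodule.mem_sup.mp hx
  have h1 : T c = c := by
    have := hJ hc
    rw [LinearMap.mem_ker, LinearMap.sub_apply, Module.End.one_apply, sub_eq_zero] at this
    exact this
  rw [map_add, h1]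
  exact Submodule.add_mem_sup hc ((Module.End.mem_invtSubmodule T).mp hW hu)

theorem invt_of_map_le (T : Module.End F V) (W : Submodule F V) (h : W.map T ≤ W) :
    W ∈ T.invtSubmodule := by
  rw [Module.End.mem_invtSubmodule]
  exact Submodule.map_le_iff_le_comap.mp h

end Gen

/-- The quadratic context of an isometry `y` with `y ^ r = 1` of a standard space. -/
theorem qctx_toLin' {F : Type u} [Field F] [Fintype F] (p : ℕ) [Fact p.Prime] [CharP F p]
    {ι : Type} [Fintype ι] [DecidableEq ι] (Q : QuadraticForm F (ι → F))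
    (hQ : (QuadraticMap.polarBilin Q).Nondegenerate) (r : ℕ) (hr : r.Prime) (hr2 : r ≠ 2)
    (hrp : r ≠ p) (y : GL ι F) (hy : y ∈ Cfsg.isometryGroup F ⇑Q) (hyr : y ^ r = 1) :
    QCtx r Q (Matrix.toLin' (y : Matrix ι ι F)) := by
  refine ⟨hr, hr2, ?_, ?_, ?_, ?_⟩
  · intro h
    rw [CharP.cast_eq_zero_iff F p r] at h
    exact hrp ((Nat.prime_dvd_prime_iff_eq (Fact.out) hr).mp h).symm
  · intro x hx
    exact hQ.1 x (fun z => by rw [QuadraticMap.polarBilin_apply_apply]; exact hx z)
  · intro x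
    rw [Matrix.toLin'_apply]
    exact Cfsg.Agent.H49.mem_isometryGroup_iff.mp hy x
  · have h1 : ((y ^ r : GL ι F) : Matrix ι ι F) = 1 := by rw [hyr]; rfl
    rw [Units.val_pow_eq_pow_val] at h1
    rw [← Matrix.toLin'_pow, h1, Matrix.toLin'_one]
    rfl

theorem cc_eq_ii {F : Type u} [Fintype F] (r : ℕ) (h : Even (ii F r)) : cc F r = ii F r := by
  have h' : Even (orderOf (Fintype.card F : ZMod r)) := h
  unfold cc
  rw [if_pos h']
  rfl

end Cfsg.Agent.H54.TmC
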