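import Mathlib
import Cfsg.Agent.H77.TmDefs2
import Cfsg.Agent.H49.InvOmega
import Cfsg.Agent.H14.OtDefs
import Cfsg.Agent.H54.TmCommon

/-!
# S5987-MEVEN (helper54, for helper77's S5987 project)
-/

set_option autoImplicit false
open scoped MatrixGroups
open scoped Matrix

namespace Cfsg.Agent.H54.Tm

open Cfsg.Agent.H45 Cfsg.Agent.H42.Spd Cfsg.Agent.H42.Ti Cfsg.Agent.H77.Tq Cfsg.Agent.H77.Tm
  Cfsg.Agent.H54.TmC Module Polynomial

universe u

/-- S5987-MEVEN. -/
theorem mEven (hQS : StQStruct.{u, u}) (hW : StQWitt.{u, u}) (hTU : StTypeU.{u, u})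
    (hMS : StMinusSum.{u, u}) (hHalf : Cfsg.Agent.H14.Ot.StOHalf.{u, u}) : StMEven.{u} := by
  intro F _ _ p _ _ k a b r hAn hr hr2 hrp hev Φs hΦ y hy hyr
  have hd : a ^ 2 - 4 * b ≠ 0 := Cfsg.Agent.H49.disc_ne_zero_of_aniso a b hAn
  obtain ⟨Q, hQdef⟩ : ∃ Q : QuadraticForm F (MI k → F), Q = Cfsg.Agent.H49.QMin k F a b :=
    ⟨_, rfl⟩
  obtain ⟨T, hTdef⟩ : ∃ T : Module.End F (MI k → F),
      T = Matrix.toLin' (y : Matrix (MI k) (MI k) F) := ⟨_, rfl⟩
  have hctx : QCtx r Q T := by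
    rw [hQdef, hTdef]
    exact qctx_toLin' p _ (Cfsg.Agent.H49.QMin_nondeg k a b hd) r hr hr2 hrp y hy hyr
  have hts_le : ∀ M : Submodule F (MI k → F), TS Q M → finrank F ↥M ≤ k := by
    intro M hM
    rw [hQdef] at hM
    exact Cfsg.Agent.H49.QMin_ts_le k a b hAn hd M hM
  obtain ⟨⟨hCU, -, hperp, hCnd, hUnd⟩, ⟨A, hA⟩, hUp, hEx⟩ := hQS F (MI k → F) r Q T hctx
  rw [cc_eq_ii r hev] at hA
  obtain ⟨hTUe, hTUo⟩ := hTU F (MI k → F) r Q T hctx hev A hA
  obtain ⟨h, hh⟩ := hev
  have hi2 : ii F r / 2 = h := by omega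
  have hiA : ii F r * A = h * A + h * A := by rw [hh]; ring
  have hdim : finrank F (MI k → F) = 2 * (k + 1) := Cfsg.Agent.H49.finrank_minus k
  have hrn := LinearMap.finrank_range_add_finrank_ker (T - 1)
  have hfix : fixDim k y = finrank F ↥(LinearMap.ker (T - 1)) := by rw [hTdef]; rfl
  refine ⟨A, ?_, ?_, ?_, ?_⟩
  · rw [hfix]
    omega
  · intro hAe
    obtain ⟨L, -, hLts, hL2⟩ := hTUe hAe
    have h1 := hts_le L hLts
    rw [hi2]
    omega
  · -- existence
    intro j w hj hw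
    rw [hi2] at hw
    obtain ⟨WU, hWUle, hWUinv, hWUts, hWUdim⟩ := hEx j
      (fun ho => absurd (⟨h, hh⟩ : Even (ii F r)) (Nat.not_even_iff_odd.mpr ho))
      (fun _ => by
        rcases hj with hj | hj
        · left; exact hj
        · right
          rw [hA]
          exact Nat.mul_le_mul_left _ (by omega))
    have hJ : ∃ J : Submodule F (MI k → F), J ≤ LinearMap.ker (T - 1) ∧ TS Q J ∧
        finrank F ↥J = w := by
      by_cases hAe : Even A
      · rw [if_pos hAe] at hw
        exact hW F (MI k → F) Q (LinearMap.ker (T - 1)) w hCnd (by omega)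
      · rw [if_neg hAe] at hw
        have hAo : Odd A := Nat.not_even_iff_odd.mp hAe
        by_contra hcon
        push Not at hcon
        have h1 : ∀ U' : Submodule F (MI k → F), U' ≤ LinearMap.ker (T - 1) → TS Q U' →
            finrank F ↥U' < k + 1 - h * A := by
          intro U' hU'C hU'ts
          by_contra hlt
          push Not at hlt
          obtain ⟨J, hJle, hJdim⟩ := Cfsg.Agent.H49.exists_le_finrank_eq' U' w (by omega)
          exact hcon J (hJle.trans hU'C) (fun x hx => hU'ts x (hJle hx)) hJdim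
        have h2 : ∀ U' : Submodule F (MI k → F), U' ≤ LinearMap.range (T - 1) → TS Q U' →
            finrank F ↥U' < h * A := by
          intro U' hU'U hU'ts
          have := hTUo hAo U' hU'U hU'ts
          omega
        obtain ⟨M, -, hMts, hMdim⟩ := hMS F (MI k → F) Q (LinearMap.ker (T - 1))
          (LinearMap.range (T - 1)) (k + 1 - h * A) (h * A) hCnd hUnd hperp (by omega)
          (by omega) h1 h2
        have := hts_le M hMts
        omega
    obtain ⟨J, hJC, hJts, hJdim⟩ := hJ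
    refine ⟨J ⊔ WU, ⟨?_, ?_⟩, ?_⟩
    · rw [finrank_sup_disj _ _ J WU hCU hJC hWUle, hJdim, hWUdim]
      omega
    · have h1 := ts_sup Q _ _ J WU hperp hJC hWUle hJts hWUts
      rw [hQdef] at h1
      exact h1
    · have h1 := invt_sup T J WU hJC hWUinv
      rw [hTdef] at h1
      exact h1
  · -- upper bound
    intro W hWts hWinv
    have hWts' : TS Q W := by rw [hQdef]; exact hWts
    have hWinv' : W ∈ T.invtSubmodule := by
      apply invt_of_map_le
      rw [hTdef]
      exact hWinv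
    obtain ⟨s, hs1, -, hs3⟩ := hUp W hWinv' hWts'
    refine ⟨s, finrank F ↥(W ⊓ LinearMap.ker (T - 1)), ?_, ?_, ?_⟩
    · rw [hs1]
      omega
    · have h1 := hs3 ⟨h, hh⟩ Φs hΦ
      rw [hTdef] at h1
      exact h1
    · rw [hi2]
      have hWCts : TS Q (W ⊓ LinearMap.ker (T - 1)) := fun x hx => hWts' x hx.1
      by_cases hAe : Even A
      · rw [if_pos hAe]
        obtain ⟨L, hLU, hLts, hL2⟩ := hTUe hAe
        have h1 := hts_le _ (ts_sup Q _ _ (W ⊓ LinearMap.ker (T - 1)) L hperp inf_le_right hLU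
          hWCts hLts)
        rw [finrank_sup_disj _ _ (W ⊓ LinearMap.ker (T - 1)) L hCU inf_le_right hLU] at h1
        omega
      · rw [if_neg hAe]
        have h1 := hHalf F (MI k → F) (pol Q) (fun x z => QuadraticMap.polar_comm _ x z)
          (LinearMap.ker (T - 1)) (W ⊓ LinearMap.ker (T - 1)) hCnd inf_le_right
          (ti_of_ts Q _ hWCts)
        omega

example (hQS : StQStruct.{u, u}) (hW : StQWitt.{u, u}) (hTU : StTypeU.{u, u})
    (hMS : StMinusSum.{u, u}) (hHalf : Cfsg.Agent.H14.Ot.StOHalf.{u, u}) :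
    Cfsg.Agent.H77.Tm.StMEven.{u} := mEven hQS hW hTU hMS hHalf

end Cfsg.Agent.H54.Tm
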