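import Cfsg.Agent.H91.U62Defs
import Cfsg.Agent.H17.GUBlock

/-!
# S5452-WITT (helper54, for helper91): every involution of `SU₆(2)` is conjugate to some
`xmat M`, `M` Hermitian.
-/

set_option autoImplicit false

namespace Cfsg.Agent.H54.U62

open Matrix Cfsg.Agent.H91.U62 Cfsg.Agent.H17

universe u

variable {K : Type u} [Field K] [Fintype K]

theorem w_card_sq (hK : Fintype.card K = 4) : Fintype.card K = 2 ^ 2 := by rw [hK]; norm_num

theorem w_two (hK : Fintype.card K = 4) : (2 : K) = 0 := by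
  have h4 : ((4 : ℕ) : K) = 0 := by
    rw [← hK]; exact FiniteField.cast_card_eq_zero K
  have h22 : (2 : K) * 2 = 0 := by
    have h5 : ((4 : ℕ) : K) = 2 * 2 := by norm_num
    rw [← h5]; exact h4
  exact mul_self_eq_zero.mp h22

theorem w_add_self (hK : Fintype.card K = 4) (x : K) : x + x = 0 := by
  rw [← two_mul, w_two hK, zero_mul]

theorem w_eq_of_add (hK : Fintype.card K = 4) {x y : K} (h : x + y = 0) : x = y := by
  have h1 := w_add_self hK y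
  have h2 : x = x + y + y - (y + y) := by ring
  rw [h2, h, h1]; ring

theorem w_cube (hK : Fintype.card K = 4) (x : K) (hx : x ≠ 0) : x ^ 3 = 1 := by
  have h := FiniteField.pow_card_sub_one_eq_one x hx
  rwa [hK] at h

theorem w_mat_add_self (hK : Fintype.card K = 4) {m n : Type*} (A : Matrix m n K) :
    A + A = 0 := by
  ext i j
  simp [w_add_self hK]

/-- Unitary `6 × 6` matrices. -/
def IsU (A : Matrix (Fin 6) (Fin 6) K) : Prop :=
  ∀ u v, Cfsg.hermForm 6 K 2 (A *ᵥ u) (A *ᵥ v) = Cfsg.hermForm 6 K 2 u v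

/-- The totally isotropic subspace `{(a, a)}`. -/
def Wsp (K : Type u) [Field K] : Submodule K (Fin 6 → K) :=
  LinearMap.range (LinearMap.funLeft K K r3)

theorem mem_Wsp (w : Fin 6 → K) : w ∈ Wsp K ↔ ∃ a : Fin 3 → K, w = a ∘ r3 := by
  unfold Wsp
  rw [LinearMap.mem_range]
  constructor
  · rintro ⟨a, rfl⟩; exact ⟨a, rfl⟩
  · rintro ⟨a, rfl⟩; exact ⟨a, rfl⟩

theorem r3_surj : Function.Surjective r3 := by
  intro k
  fin_cases k
  · exact ⟨0, rfl⟩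
  · exact ⟨1, rfl⟩
  · exact ⟨2, rfl⟩

theorem finrank_Wsp : Module.finrank K (Wsp K) = 3 := by
  unfold Wsp
  rw [LinearMap.finrank_range_of_inj (LinearMap.funLeft_injective_of_surjective K K r3 r3_surj)]
  simp

theorem Wsp_iso (hK : Fintype.card K = 4) (a b : Fin 3 → K) :
    Cfsg.hermForm 6 K 2 (a ∘ r3) (b ∘ r3) = 0 := by
  unfold Cfsg.hermForm
  rw [Fin.sum_univ_six]
  have h := w_add_self hK (a 0 * b 0 ^ 2 + a 1 * b 1 ^ 2 + a 2 * b 2 ^ 2)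
  simp only [Function.comp_apply, r3]
  simp
  linear_combination h

/-- Lifts of the indices of `Fin 3` to `Fin 6`. -/
def c3 : Fin 3 → Fin 6 := ![0, 1, 2]

/-- The second lifts. -/
def d3 : Fin 3 → Fin 6 := ![3, 4, 5]

theorem r3_c3 : ∀ k : Fin 3, r3 (c3 k) = k := by decide

theorem c3_or_d3 : ∀ j : Fin 6, j = c3 (r3 j) ∨ j = d3 (r3 j) := by decide

omit [Fintype K] in
theorem sum_r3 (f : Fin 6 → K) (k : Fin 3) :
    ∑ j, f j * (Pi.single k 1 : Fin 3 → K) (r3 j) = f (c3 k) + f (d3 k) := by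
  fin_cases k <;> simp [Fin.sum_univ_six, r3, c3, d3, Pi.single_apply]

theorem w_core (hK : Fintype.card K = 4) (S : Matrix (Fin 6) (Fin 6) K) (hS2 : S * S = 1)
    (hSu : IsU S) :
    ∃ H : Matrix (Fin 6) (Fin 6) K, H.det = 1 ∧ IsU H ∧
      ∃ M : Matrix (Fin 3) (Fin 3) K, cj M = M ∧ xmat M * H = H * S := by
  classical
  have hF := w_card_sq hK
  obtain ⟨N, hN⟩ : ∃ N : Matrix (Fin 6) (Fin 6) K, N = S + 1 := ⟨_, rfl⟩
  have hNN : N * N = 0 := by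
    have h1 : N * N = (S * S + 1) + (S + S) := by
      rw [hN]; simp only [add_mul, mul_add, mul_one, one_mul]; abel
    rw [h1, hS2, w_mat_add_self hK, w_mat_add_self hK, add_zero]
  have hSN : S = N + 1 := by
    rw [hN, add_assoc, w_mat_add_self hK, add_zero]
  have hSa : ∀ u v, Cfsg.hermForm 6 K 2 (S *ᵥ u) v = Cfsg.hermForm 6 K 2 u (S *ᵥ v) := by
    intro u v
    have h1 := hSu (S *ᵥ u) v
    rw [Matrix.mulVec_mulVec, hS2, Matrix.one_mulVec] at h1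
    exact h1.symm
  have hNa : ∀ u v, Cfsg.hermForm 6 K 2 (N *ᵥ u) v = Cfsg.hermForm 6 K 2 u (N *ᵥ v) := by
    intro u v
    rw [hN, Matrix.add_mulVec, Matrix.add_mulVec, Matrix.one_mulVec, Matrix.one_mulVec,
      hermForm_add_left, hermForm_add_right 6 hF, hSa]
  have hNiso : ∀ u v, Cfsg.hermForm 6 K 2 (N *ᵥ u) (N *ᵥ v) = 0 := by
    intro u v
    rw [hNa, Matrix.mulVec_mulVec, hNN, Matrix.zero_mulVec, hermForm_zero_right 6 hF]
  -- the image of `N`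
  obtain ⟨U, hU⟩ : ∃ U : Submodule K (Fin 6 → K), U = LinearMap.range (Matrix.mulVecLin N) :=
    ⟨_, rfl⟩
  have hUmem : ∀ x, x ∈ U ↔ ∃ y, N *ᵥ y = x := by
    intro x; rw [hU, LinearMap.mem_range]; rfl
  have hUrank : Module.finrank K U ≤ 3 := by
    have h1 : U ≤ LinearMap.ker (Matrix.mulVecLin N) := by
      intro x hx
      obtain ⟨y, rfl⟩ := (hUmem x).mp hx
      rw [LinearMap.mem_ker, Matrix.mulVecLin_apply, Matrix.mulVec_mulVec, hNN,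
        Matrix.zero_mulVec]
    have h2 := LinearMap.finrank_range_add_finrank_ker (Matrix.mulVecLin N)
    have h3 := Submodule.finrank_mono h1
    rw [Module.finrank_fin_fun, ← hU] at h2
    omega
  -- an injective map `U → W`
  obtain ⟨ψ, hψ⟩ := (finrank_le_iff_exists_linearMap (R := K) (M := U)
    (M' := Wsp K)).mp (by rw [finrank_Wsp]; exact hUrank)
  obtain ⟨φ, hφ⟩ := LinearMap.exists_extend ((Wsp K).subtype ∘ₗ ψ)
  have hφU : ∀ x (hx : x ∈ U), φ x = (ψ ⟨x, hx⟩ : Fin 6 → K) := by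
    intro x hx
    have h1 := congrArg (fun f => f ⟨x, hx⟩) hφ
    simpa using h1
  have hφW : ∀ x ∈ U, φ x ∈ Wsp K := by
    intro x hx
    rw [hφU x hx]; exact (ψ ⟨x, hx⟩).2
  have hφinj : ∀ x ∈ U, φ x = 0 → x = 0 := by
    intro x hx h0
    rw [hφU x hx] at h0
    have h1 : ψ ⟨x, hx⟩ = 0 := Subtype.ext h0
    have h2 : (⟨x, hx⟩ : U) = 0 := hψ (by rw [h1, map_zero])
    exact congrArg Subtype.val h2
  have hWiso : ∀ w ∈ Wsp K, ∀ w' ∈ Wsp K, Cfsg.hermForm 6 K 2 w w' = 0 := by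
    intro w hw w' hw'
    obtain ⟨a, rfl⟩ := (mem_Wsp w).mp hw
    obtain ⟨b, rfl⟩ := (mem_Wsp w').mp hw'
    exact Wsp_iso hK a b
  have hφiso : ∀ x ∈ U, ∀ x' ∈ U, hermSesq hF 6 (φ x) (φ x') = hermSesq hF 6 x x' := by
    intro x hx x' hx'
    rw [hermSesq_apply, hermSesq_apply, hWiso _ (hφW x' hx') _ (hφW x hx)]
    obtain ⟨y, rfl⟩ := (hUmem x).mp hx
    obtain ⟨y', rfl⟩ := (hUmem x').mp hx'
    rw [hNiso]
  obtain ⟨g, hg, hgU⟩ := witt_herm (frobHom hF) (frobHom_ne_id hF) (frobHom_invol hF)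
    (hermSesq hF 6) (hermSesq_isSymm hF 6) (hermSesq_nondegenerate hF 6) U φ hφiso hφinj
  -- the matrix of `g`
  obtain ⟨G, hG⟩ : ∃ G : Matrix (Fin 6) (Fin 6) K,
      G = LinearMap.toMatrix' (g : (Fin 6 → K) →ₗ[K] (Fin 6 → K)) := ⟨_, rfl⟩
  have hGv : ∀ v, G *ᵥ v = g v := by
    intro v; rw [hG, LinearMap.toMatrix'_mulVec]; rfl
  have hGu : IsU G := by
    intro u v
    rw [hGv, hGv]
    have h1 := hg v u
    rwa [hermSesq_apply, hermSesq_apply] at h1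
  have hGW : ∀ x ∈ U, G *ᵥ x ∈ Wsp K := by
    intro x hx
    rw [hGv, hgU x hx]; exact hφW x hx
  have hd0 : G.det ≠ 0 := by
    have h1 : G * LinearMap.toMatrix' (g.symm : (Fin 6 → K) →ₗ[K] (Fin 6 → K)) = 1 := by
      rw [hG, ← LinearMap.toMatrix'_comp]
      have h2 : (g : (Fin 6 → K) →ₗ[K] (Fin 6 → K)) ∘ₗ
          (g.symm : (Fin 6 → K) →ₗ[K] (Fin 6 → K)) = LinearMap.id := by
        ext x; simp
      rw [h2, LinearMap.toMatrix'_id]
    intro h0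
    have h3 := congrArg Matrix.det h1
    rw [Matrix.det_mul, h0, zero_mul, Matrix.det_one] at h3
    exact zero_ne_one h3
  obtain ⟨d, hd⟩ : ∃ d : K, d = G.det := ⟨_, rfl⟩
  have hd3 : d ^ 3 = 1 := w_cube hK d (hd ▸ hd0)
  -- the correcting diagonal matrix
  obtain ⟨δ, hδ⟩ : ∃ δ : Fin 3 → K, δ = ![d, 1, 1] := ⟨_, rfl⟩
  obtain ⟨T, hT⟩ : ∃ T : Matrix (Fin 6) (Fin 6) K, T = Matrix.diagonal (δ ∘ r3) := ⟨_, rfl⟩
  have hδ3 : ∀ k, δ k ^ 3 = 1 := by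
    intro k; rw [hδ]; fin_cases k <;> simp [hd3]
  have hTdet : T.det = d ^ 2 := by
    rw [hT, Matrix.det_diagonal, Fin.prod_univ_six, hδ]
    simp [r3]; ring
  have hTu : IsU T := by
    intro u v
    unfold Cfsg.hermForm
    apply Finset.sum_congr rfl
    intro i _
    rw [hT, Matrix.mulVec_diagonal, Matrix.mulVec_diagonal]
    have h1 := hδ3 (r3 i)
    simp only [Function.comp_apply]
    linear_combination (u i * v i ^ 2) * h1
  have hTW : ∀ w ∈ Wsp K, T *ᵥ w ∈ Wsp K := by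
    intro w hw
    obtain ⟨a, rfl⟩ := (mem_Wsp w).mp hw
    rw [mem_Wsp]
    refine ⟨fun k => δ k * a k, ?_⟩
    ext i
    rw [hT, Matrix.mulVec_diagonal]
    rfl
  obtain ⟨H, hH⟩ : ∃ H : Matrix (Fin 6) (Fin 6) K, H = T * G := ⟨_, rfl⟩
  have hHdet : H.det = 1 := by
    rw [hH, Matrix.det_mul, hTdet, ← hd, ← pow_succ]; exact hd3
  have hHu : IsU H := by
    intro u v
    rw [hH, ← Matrix.mulVec_mulVec, ← Matrix.mulVec_mulVec, hTu, hGu]
  have hHW : ∀ x ∈ U, H *ᵥ x ∈ Wsp K := by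
    intro x hx
    rw [hH, ← Matrix.mulVec_mulVec]
    exact hTW _ (hGW x hx)
  -- the inverse of `H`
  have hunit : IsUnit H.det := by rw [hHdet]; exact isUnit_one
  have hHi1 : H * H⁻¹ = 1 := Matrix.mul_nonsing_inv H hunit
  have hHi2 : H⁻¹ * H = 1 := Matrix.nonsing_inv_mul H hunit
  obtain ⟨N', hN'⟩ : ∃ N' : Matrix (Fin 6) (Fin 6) K, N' = H * N * H⁻¹ := ⟨_, rfl⟩
  have hN'v : ∀ x, N' *ᵥ x = H *ᵥ (N *ᵥ (H⁻¹ *ᵥ x)) := by
    intro x; rw [hN', Matrix.mulVec_mulVec, Matrix.mulVec_mulVec]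
  have hN'W : ∀ x, N' *ᵥ x ∈ Wsp K := by
    intro x
    rw [hN'v]
    exact hHW _ ((hUmem _).mpr ⟨_, rfl⟩)
  have hN'a : ∀ x y, Cfsg.hermForm 6 K 2 (N' *ᵥ x) y = Cfsg.hermForm 6 K 2 x (N' *ᵥ y) := by
    intro x y
    have e1 : H *ᵥ (H⁻¹ *ᵥ y) = y := by rw [Matrix.mulVec_mulVec, hHi1, Matrix.one_mulVec]
    have e2 : H *ᵥ (H⁻¹ *ᵥ x) = x := by rw [Matrix.mulVec_mulVec, hHi1, Matrix.one_mulVec]
    calc Cfsg.hermForm 6 K 2 (N' *ᵥ x) y
        = Cfsg.hermForm 6 K 2 (H *ᵥ (N *ᵥ (H⁻¹ *ᵥ x))) (H *ᵥ (H⁻¹ *ᵥ y)) := by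
          rw [hN'v, e1]
      _ = Cfsg.hermForm 6 K 2 (N *ᵥ (H⁻¹ *ᵥ x)) (H⁻¹ *ᵥ y) := hHu _ _
      _ = Cfsg.hermForm 6 K 2 (H⁻¹ *ᵥ x) (N *ᵥ (H⁻¹ *ᵥ y)) := hNa _ _
      _ = Cfsg.hermForm 6 K 2 (H *ᵥ (H⁻¹ *ᵥ x)) (H *ᵥ (N *ᵥ (H⁻¹ *ᵥ y))) := (hHu _ _).symm
      _ = Cfsg.hermForm 6 K 2 x (N' *ᵥ y) := by rw [hN'v, e2]
  have hN'k : ∀ w ∈ Wsp K, N' *ᵥ w = 0 := by
    intro w hw
    apply hermForm_nd_left hF 6
    intro c
    rw [← hN'a]
    exact hWiso _ (hN'W c) _ hw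
  -- the shape of `N'`
  have hrow : ∀ i j : Fin 6, N' i j = N' (c3 (r3 i)) j := by
    intro i j
    obtain ⟨a, ha⟩ := (mem_Wsp _).mp (hN'W (Pi.single j 1))
    have h1 : ∀ i', N' i' j = a (r3 i') := by
      intro i'
      have h2 := congrFun ha i'
      rw [Matrix.mulVec_single_one] at h2
      exact h2
    rw [h1, h1, r3_c3]
  have hk : ∀ (i : Fin 6) (k : Fin 3), N' i (d3 k) = N' i (c3 k) := by
    intro i k
    have h1 : N' *ᵥ ((Pi.single k 1 : Fin 3 → K) ∘ r3) = 0 :=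
      hN'k _ ((mem_Wsp _).mpr ⟨_, rfl⟩)
    have h2 := congrFun h1 i
    have h3 : (N' *ᵥ ((Pi.single k 1 : Fin 3 → K) ∘ r3)) i
        = ∑ j, N' i j * (Pi.single k 1 : Fin 3 → K) (r3 j) := rfl
    rw [h3, sum_r3] at h2
    exact (w_eq_of_add hK h2).symm
  have hcol : ∀ i j : Fin 6, N' i j = N' i (c3 (r3 j)) := by
    intro i j
    rcases c3_or_d3 j with h | h
    · conv_lhs => rw [h]
    · conv_lhs => rw [h]
      exact hk i (r3 j)
  refine ⟨H, hHdet, hHu, Matrix.of fun a b => N' (c3 a) (c3 b), ?_, ?_⟩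
  · ext a b
    have h1 := hN'a (Pi.single (c3 b) 1) (Pi.single (c3 a) 1)
    rw [hermForm_single_right 6 hF, hermForm_single_left, Matrix.mulVec_single_one,
      Matrix.mulVec_single_one] at h1
    simp only [cj, Matrix.of_apply]
    exact h1.symm
  · have h1 : (Matrix.of fun a b => N' (c3 a) (c3 b)).submatrix r3 r3 = N' := by
      ext i j
      simp only [Matrix.submatrix_apply, Matrix.of_apply]
      rw [hrow i j, hcol _ j]
    unfold xmat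
    rw [h1, add_mul, one_mul, hN', Matrix.mul_assoc, hHi2, Matrix.mul_one, hSN, mul_add,
      mul_one, add_comm]

theorem witt : WittStmt.{u} := by
  intro K _ _ hK s hs
  have hS2 : (s.1.1 : Matrix (Fin 6) (Fin 6) K) * s.1.1 = 1 := by
    have h1 := congrArg (fun x : ↥(Cfsg.SU 6 K 2) => (x.1.1 : Matrix (Fin 6) (Fin 6) K)) hs
    simpa using h1
  have hSu : IsU (s.1.1 : Matrix (Fin 6) (Fin 6) K) := fun u v => s.2 u v
  obtain ⟨H, hHdet, hHu, M, hM, hMH⟩ := w_core hK _ hS2 hSu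
  have hg : (⟨H, hHdet⟩ : Matrix.SpecialLinearGroup (Fin 6) K) ∈ Cfsg.SU 6 K 2 :=
    fun u v => hHu u v
  refine ⟨⟨⟨H, hHdet⟩, hg⟩, M, hM, ?_⟩
  have h1 : ((⟨⟨H, hHdet⟩, hg⟩ : ↥(Cfsg.SU 6 K 2)) * s *
      (⟨⟨H, hHdet⟩, hg⟩ : ↥(Cfsg.SU 6 K 2))⁻¹) * ⟨⟨H, hHdet⟩, hg⟩ = ⟨⟨H, hHdet⟩, hg⟩ * s := by
    group
  have h2 : (((⟨⟨H, hHdet⟩, hg⟩ : ↥(Cfsg.SU 6 K 2)) * s *
      (⟨⟨H, hHdet⟩, hg⟩ : ↥(Cfsg.SU 6 K 2))⁻¹).1.1 : Matrix (Fin 6) (Fin 6) K) * H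
      = H * s.1.1 :=
    congrArg (fun x : ↥(Cfsg.SU 6 K 2) => (x.1.1 : Matrix (Fin 6) (Fin 6) K)) h1
  have hunit : IsUnit H.det := by rw [hHdet]; exact isUnit_one
  have hHi1 : H * H⁻¹ = 1 := Matrix.mul_nonsing_inv H hunit
  have h3 := congrArg (· * H⁻¹) (h2.trans hMH.symm)
  simp only [Matrix.mul_assoc, hHi1, Matrix.mul_one] at h3
  exact h3

example : Cfsg.Agent.H91.U62.WittStmt.{u} := witt

end Cfsg.Agent.H54.U62
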