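import Mathlib
import Cfsg.Agent.H83.UPDefs

/-!
# S6001-W3 (helper54, for helper83's S6001 project)

A witness of order 3 in `SU_4(p)`, `p ≡ 11 (mod 12)`: `diag(ω, ω, ω, 1)`.
-/

set_option autoImplicit false

namespace Cfsg.Agent.H54.UP

open Cfsg.Agent.H83.UP Matrix

universe u

/-- A field with `p ^ 2` elements has characteristic `p`. -/
theorem charP_of_card_sq {F : Type u} [Field F] [Fintype F] {p : ℕ} (hp : p.Prime)
    (hc : Fintype.card F = p ^ 2) : CharP F p := by
  obtain ⟨n, hq, hn⟩ := FiniteField.card F (ringChar F)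
  have h1 : ringChar F ∣ p ^ 2 := by
    rw [← hc, hn]
    exact dvd_pow_self _ n.ne_zero
  have h2 : ringChar F ∣ p := hq.dvd_of_dvd_pow h1
  have h3 : ringChar F = p := (Nat.prime_dvd_prime_iff_eq hq hp).mp h2
  rw [← h3]
  exact ringChar.charP F

/-- A primitive cube root of unity in a field with `p ^ 2` elements, `p ≠ 3`. -/
theorem exists_cube_root {F : Type u} [Field F] [Fintype F] {p : ℕ}
    (hc : Fintype.card F = p ^ 2) (h3 : 3 ∣ p ^ 2 - 1) :
    ∃ ω : F, ω ^ 3 = 1 ∧ ω ≠ 1 ∧ ω ^ 2 + ω + 1 = 0 := by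
  classical
  have hcard : Fintype.card Fˣ = p ^ 2 - 1 := by rw [Fintype.card_units, hc]
  have : Fact (Nat.Prime 3) := ⟨Nat.prime_three⟩
  obtain ⟨u, hu⟩ := exists_prime_orderOf_dvd_card 3 (by rw [hcard]; exact h3)
  have hu3 : u ^ 3 = 1 := by rw [← hu]; exact pow_orderOf_eq_one u
  have hu1 : u ≠ 1 := by
    intro h
    rw [h, orderOf_one] at hu
    norm_num at hu
  have hv3 : (u : F) ^ 3 = 1 := by
    have := congrArg Units.val hu3
    simpa using this
  have hv1 : (u : F) ≠ 1 := fun h => hu1 (Units.ext h)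
  refine ⟨(u : F), hv3, hv1, ?_⟩
  have h1 : ((u : F) - 1) * ((u : F) ^ 2 + u + 1) = 0 := by linear_combination hv3
  rcases mul_eq_zero.mp h1 with h | h
  · exact absurd (sub_eq_zero.mp h) hv1
  · exact h

theorem natCast_ne_zero_of_not_dvd {F : Type u} [Field F] {p : ℕ} [CharP F p] {n : ℕ}
    (h : ¬ p ∣ n) : (n : F) ≠ 0 := by
  intro h0
  exact h ((CharP.cast_eq_zero_iff F p n).mp h0)

theorem w3 : StW3.{u} := by
  intro F _ _ p hp hc hp4 hp3
  have hchar : CharP F p := charP_of_card_sq hp hc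
  have hp1 : 1 ≤ p := hp.one_lt.le
  have h3 : 3 ∣ p ^ 2 - 1 := by
    have e : p ^ 2 - 1 = (p - 1) * (p + 1) := by
      obtain ⟨k, rfl⟩ : ∃ k, p = k + 1 := ⟨p - 1, by omega⟩
      simp only [Nat.add_sub_cancel]
      have : (k + 1) ^ 2 = k * (k + 1 + 1) + 1 := by ring
      rw [this, Nat.add_sub_cancel]
    rw [e]
    exact Dvd.dvd.mul_left (by omega) _
  obtain ⟨ω, hω3, hω1, hω⟩ := exists_cube_root hc h3
  have hωp : ω ^ p * ω = 1 := by
    obtain ⟨k, hk⟩ : 3 ∣ p + 1 := by omega
    rw [← pow_succ, hk, pow_mul, hω3, one_pow]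
  have hp0 : p ≠ 0 := hp.ne_zero
  have h3F : (3 : F) ≠ 0 := by
    have : ((3 : ℕ) : F) ≠ 0 := natCast_ne_zero_of_not_dvd (p := p) (by
      intro h
      have := (Nat.prime_dvd_prime_iff_eq hp Nat.prime_three).mp h
      omega)
    exact_mod_cast this
  have h2F : (2 : F) ≠ 0 := by
    have : ((2 : ℕ) : F) ≠ 0 := natCast_ne_zero_of_not_dvd (p := p) (by
      intro h
      have := (Nat.prime_dvd_prime_iff_eq hp Nat.prime_two).mp h
      omega)
    exact_mod_cast this
  refine ⟨Matrix.diagonal ![ω, ω, ω, 1], ?_, ?_, ?_, ?_, ?_⟩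
  · rw [Matrix.det_diagonal, Fin.prod_univ_four]
    simp
    linear_combination hω3
  · unfold IsU
    rw [Matrix.diagonal_transpose, Matrix.diagonal_map (by simp [hp0]),
      Matrix.diagonal_mul_diagonal, ← Matrix.diagonal_one]
    congr 1
    funext i
    fin_cases i <;> simp <;> linear_combination hωp
  · rw [Matrix.diagonal_pow, ← Matrix.diagonal_one]
    congr 1
    funext i
    fin_cases i <;> simp [hω3]
  · intro c hc'
    have h0 := congrFun (congrFun hc' 0) 0
    have h3' := congrFun (congrFun hc' 3) 3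
    simp at h0 h3'
    exact hω1 (h0.trans h3'.symm)
  · have hinv : (Matrix.diagonal ![ω, ω, ω, 1])⁻¹ = Matrix.diagonal ![ω ^ 2, ω ^ 2, ω ^ 2, 1] := by
      apply Matrix.inv_eq_right_inv
      rw [Matrix.diagonal_mul_diagonal, ← Matrix.diagonal_one]
      congr 1
      funext i
      fin_cases i <;> simp <;> linear_combination hω3
    rw [hinv, Matrix.trace_diagonal, Matrix.trace_diagonal, Fin.sum_univ_four, Fin.sum_univ_four]
    have h7 : (ω + ω + ω + 1) * (ω ^ 2 + ω ^ 2 + ω ^ 2 + 1) = 7 := by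
      linear_combination 9 * hω3 + 3 * hω
    simp only [Matrix.cons_val_zero, Matrix.cons_val_one, Matrix.cons_val_two,
      Matrix.cons_val_three, Matrix.head_cons, Matrix.tail_cons]
    refine ⟨?_, ?_⟩
    · intro h
      rw [h7] at h
      have : (2 : F) * 3 = 0 := by linear_combination h
      rcases mul_eq_zero.mp this with h' | h'
      · exact h2F h'
      · exact h3F h'
    · intro h
      rw [h7] at h
      exact h3F (by linear_combination h)

example : StW3.{u} := w3

end Cfsg.Agent.H54.UP
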