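import Mathlib
import Cfsg.Agent.H83.UPDefs
import Cfsg.Agent.H54.UPW3

/-!
# S6001-ROOTS (helper54, for helper83's S6001 project)

Roots of `t^2 + t + 1` (fixed by Frobenius, `p ≡ 1 mod 3`) and of `t^2 + t - 1` in a field with
`p^2` elements.
-/

set_option autoImplicit false

namespace Cfsg.Agent.H54.UP

open Cfsg.Agent.H83.UP Matrix

universe u

/-- Natural numbers are fixed by the Frobenius map. -/
theorem natCast_pow_char {F : Type u} [Field F] (p : ℕ) [Fact p.Prime] [CharP F p] (n : ℕ) :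
    (n : F) ^ p = n := by
  induction n with
  | zero => simp [(Fact.out : p.Prime).ne_zero]
  | succ k ih =>
    push_cast
    rw [add_pow_char, ih, one_pow]

/-- Every element of the prime field is a square in a field with `p ^ 2` elements. -/
theorem isSquare_natCast {F : Type u} [Field F] [Fintype F] {p : ℕ} (hp : p.Prime)
    (hc : Fintype.card F = p ^ 2) (hp2 : p % 2 = 1) (n : ℕ) : IsSquare (n : F) := by
  have hchar : CharP F p := charP_of_card_sq hp hc
  have : Fact p.Prime := ⟨hp⟩
  by_cases h0 : (n : F) = 0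
  · rw [h0]; exact IsSquare.zero
  have hF2 : ringChar F ≠ 2 := by
    rw [ringChar.eq F p]
    intro h
    omega
  rw [FiniteField.isSquare_iff hF2 h0, hc]
  have h1 : (n : F) ^ (p - 1) = 1 := by
    have h2 := natCast_pow_char (F := F) p n
    have h3 : (n : F) ^ (p - 1) * (n : F) = 1 * (n : F) := by
      rw [← pow_succ, Nat.sub_add_cancel hp.one_lt.le, h2, one_mul]
    exact mul_right_cancel₀ h0 h3
  have h4 : p ^ 2 / 2 = (p - 1) * ((p + 1) / 2) := by
    obtain ⟨k, rfl⟩ : ∃ k, p = 2 * k + 1 := ⟨p / 2, by omega⟩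
    have e1 : (2 * k + 1) ^ 2 = 2 * (2 * k * (k + 1)) + 1 := by ring
    have e2 : (2 * k + 1 + 1) / 2 = k + 1 := by omega
    have e3 : 2 * k + 1 - 1 = 2 * k := by omega
    rw [e1, e2, e3]
    omega
  rw [h4, pow_mul, h1, one_pow]

theorem roots : StRoots.{u} := by
  intro F _ _ p hp hc hp4
  have hchar : CharP F p := charP_of_card_sq hp hc
  have hp1 : 1 ≤ p := hp.one_lt.le
  refine ⟨?_, ?_⟩
  · intro hp3
    have h3 : 3 ∣ p ^ 2 - 1 := by
      have e : p ^ 2 - 1 = (p - 1) * (p + 1) := by
        obtain ⟨k, rfl⟩ : ∃ k, p = k + 1 := ⟨p - 1, by omega⟩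
        simp only [Nat.add_sub_cancel]
        have : (k + 1) ^ 2 = k * (k + 1 + 1) + 1 := by ring
        rw [this, Nat.add_sub_cancel]
      rw [e]
      exact Dvd.dvd.mul_right (by omega) _
    obtain ⟨ω, hω3, hω1, hω⟩ := exists_cube_root hc h3
    refine ⟨ω, hω, ?_⟩
    obtain ⟨k, hk⟩ : 3 ∣ p - 1 := by omega
    have : p = 3 * k + 1 := by omega
    rw [this, pow_succ, pow_mul, hω3, one_pow, one_mul]
  · have h2F : (2 : F) ≠ 0 := by
      have : ((2 : ℕ) : F) ≠ 0 := natCast_ne_zero_of_not_dvd (p := p) (by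
        intro h
        have := (Nat.prime_dvd_prime_iff_eq hp Nat.prime_two).mp h
        omega)
      exact_mod_cast this
    obtain ⟨r, hr⟩ := isSquare_natCast hp hc (by omega) 5
    refine ⟨(-1 + r) / 2, ?_⟩
    have hr' : r * r = 5 := by
      rw [← hr]
      norm_num
    field_simp
    linear_combination hr'

example : StRoots.{u} := roots

end Cfsg.Agent.H54.UP
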