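import Mathlib
import Cfsg.Agent.H83.UPDefs
import Cfsg.Agent.H99.HeisU
import Cfsg.Agent.H50.GUFix

/-!
# S6001-UINVA (helper54, for helper83's S6001 project)

A unitary involution of `F^4` has an orthonormal eigenbasis of determinant `1`.
(`exists_su_of_onb4`, `unitary_eigen_onb4`: the `Fin 4` versions of helper99's
`exists_su_of_onb`, `unitary_eigen_onb`.)
-/

set_option autoImplicit false

namespace Cfsg.Agent.H54.UP

open Cfsg.Agent.H83.UP Cfsg.Agent.H99 Matrix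
open scoped MatrixGroups

universe u

section
variable {F : Type*} [Field F] [Fintype F] {q : ℕ}

/-- Two orthonormal bases are related by a unitary matrix of determinant one, up to rescaling. -/
theorem exists_su_of_onb4 (hF : Fintype.card F = q ^ 2)
    (u v : Module.Basis (Fin 4) F (Fin 4 → F))
    (hu : ∀ i j, Cfsg.hermForm 4 F q (u i) (u j) = if i = j then 1 else 0)
    (hv : ∀ i j, Cfsg.hermForm 4 F q (v i) (v j) = if i = j then 1 else 0) :
    ∃ g : GL (Fin 4) F, g ∈ Cfsg.GU 4 F q ∧ g ∈ Cfsg.Geo.specialLinear (Fin 4) F ∧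
      ∃ w : Fin 4 → F, (∀ k, w k ≠ 0) ∧
        ∀ k, (g : Matrix (Fin 4) (Fin 4) F) *ᵥ u k = w k • v k := by
  have hq := Cfsg.Agent.H17.two_le_of_card_sq hF
  have hq0 : q ≠ 0 := by omega
  obtain ⟨M₁, hM₁⟩ : ∃ M₁ : Matrix (Fin 4) (Fin 4) F, ∀ k, M₁ *ᵥ u k = (1 : F) • v k := by
    refine ⟨LinearMap.toMatrix' (u.constr F (fun k => v k)), fun k => ?_⟩
    rw [LinearMap.toMatrix'_mulVec, Module.Basis.constr_basis, one_smul]
  have pres₁ := preserves_of_onb hF u v hu hv M₁ (fun _ => 1) (fun _ => one_pow _) hM₁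
  obtain ⟨g₁, hg₁, hg₁U⟩ := Cfsg.Agent.H7.exists_GUI_of_preserves q hq0 M₁ pres₁
  obtain ⟨δ, hδ⟩ : ∃ δ : F, δ = (g₁ : Matrix (Fin 4) (Fin 4) F).det := ⟨_, rfl⟩
  have hδ1 : δ ^ (q + 1) = 1 := by
    rw [hδ]
    exact Cfsg.Agent.H7.GUI_det_pow hF g₁ hg₁U
  have hδ0 : δ ≠ 0 := by
    intro h
    rw [h, zero_pow (by omega)] at hδ1
    exact zero_ne_one hδ1
  have hw : ∀ k : Fin 4, (![δ⁻¹, 1, 1, 1] : Fin 4 → F) k ^ (q + 1) = 1 := by
    intro k
    fin_cases k
    · show δ⁻¹ ^ (q + 1) = 1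
      rw [inv_pow, hδ1, inv_one]
    · exact one_pow _
    · exact one_pow _
    · exact one_pow _
  have hw0 : ∀ k : Fin 4, (![δ⁻¹, 1, 1, 1] : Fin 4 → F) k ≠ 0 := by
    intro k h0
    have := hw k
    rw [h0, zero_pow (by omega)] at this
    exact zero_ne_one this
  obtain ⟨M₂, hM₂⟩ : ∃ M₂ : Matrix (Fin 4) (Fin 4) F,
      ∀ k, M₂ *ᵥ u k = (![δ⁻¹, 1, 1, 1] : Fin 4 → F) k • u k := by
    refine ⟨LinearMap.toMatrix' (u.constr F (fun k => (![δ⁻¹, 1, 1, 1] : Fin 4 → F) k • u k)),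
      fun k => ?_⟩
    rw [LinearMap.toMatrix'_mulVec, Module.Basis.constr_basis]
  have pres₂ := preserves_of_onb hF u u hu hu M₂ _ hw hM₂
  obtain ⟨g₂, hg₂, hg₂U⟩ := Cfsg.Agent.H7.exists_GUI_of_preserves q hq0 M₂ pres₂
  have hdet₂ : M₂.det = δ⁻¹ := by
    rw [det_of_basis u]
    have hM : LinearMap.toMatrix u u (Matrix.toLin' M₂) =
        Matrix.diagonal (![δ⁻¹, 1, 1, 1] : Fin 4 → F) := by
      ext i j
      rw [LinearMap.toMatrix_apply, Matrix.toLin'_apply, hM₂, map_smul, Module.Basis.repr_self,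
        Finsupp.smul_apply, Finsupp.single_apply, Matrix.diagonal_apply]
      by_cases hij : i = j
      · subst hij
        simp
      · rw [if_neg hij, if_neg (fun h => hij h.symm), smul_zero]
    rw [hM, Matrix.det_diagonal, Fin.prod_univ_four]
    simp
  refine ⟨g₁ * g₂, Subgroup.mul_mem _ hg₁U hg₂U, ?_, ![δ⁻¹, 1, 1, 1], hw0, ?_⟩
  · rw [mem_sl_iff, Units.val_mul, Matrix.det_mul, ← hδ, hg₂, hdet₂, mul_inv_cancel₀ hδ0]
  · intro k
    rw [Units.val_mul, ← Matrix.mulVec_mulVec, hg₂, hM₂, Matrix.mulVec_smul, hg₁, hM₁, one_smul]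

/-- An isometry of the standard Hermitian space whose eigenvectors span has an orthonormal
eigenbasis. -/
theorem unitary_eigen_onb4 (hF : Fintype.card F = q ^ 2) (x : GL (Fin 4) F)
    (hx : x ∈ Cfsg.GU 4 F q) (P : F → Prop)
    (hP : ∀ l l', P l → P l' → l ≠ l' → l ^ q * l' ≠ 1)
    (hspan : Submodule.span F {w : Fin 4 → F |
      ∃ l, P l ∧ (x : Matrix (Fin 4) (Fin 4) F) *ᵥ w = l • w} = ⊤) :
    ∃ (u : Module.Basis (Fin 4) F (Fin 4 → F)) (l : Fin 4 → F),
      (∀ i j, Cfsg.hermForm 4 F q (u i) (u j) = if i = j then 1 else 0) ∧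
      ∀ k, P (l k) ∧ (x : Matrix (Fin 4) (Fin 4) F) *ᵥ u k = l k • u k := by
  have hX : ∀ u w : Fin 4 → F,
      Cfsg.Agent.H17.hermSesq hF 4 (Matrix.toLin' (x : Matrix (Fin 4) (Fin 4) F) u)
        (Matrix.toLin' (x : Matrix (Fin 4) (Fin 4) F) w) = Cfsg.Agent.H17.hermSesq hF 4 u w := by
    intro u w
    rw [Cfsg.Agent.H17.hermSesq_apply, Cfsg.Agent.H17.hermSesq_apply, Matrix.toLin'_apply,
      Matrix.toLin'_apply]
    exact hx w u
  obtain ⟨b, l, hb, hl⟩ := herm_eigen_onb (Cfsg.Agent.H17.frobHom hF)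
    (Cfsg.Agent.H17.frobHom_ne_id hF) (Cfsg.Agent.H17.frobHom_invol hF) P hP 4 (Fin 4 → F)
    (Cfsg.Agent.H17.hermSesq hF 4) (Cfsg.Agent.H17.hermSesq_isSymm hF 4)
    (Cfsg.Agent.H17.hermSesq_nondegenerate hF 4) (Matrix.toLin' (x : Matrix (Fin 4) (Fin 4) F))
    hX hspan (by simp)
  refine ⟨b, l, ?_, hl⟩
  intro i j
  have h1 := hb j i
  rw [Cfsg.Agent.H17.hermSesq_apply] at h1
  rw [h1]
  by_cases hij : i = j
  · rw [if_pos hij, if_pos hij.symm]
  · rw [if_neg hij, if_neg (fun h => hij h.symm)]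

end

theorem uInvA : StUInvA.{u} := by
  intro F _ _ p y hp hc h2 hU hyy
  classical
  have hq := Cfsg.Agent.H17.two_le_of_card_sq hc
  have hp0 : p ≠ 0 := by omega
  obtain ⟨yG, hyG⟩ : ∃ yG : GL (Fin 4) F, (yG : Matrix (Fin 4) (Fin 4) F) = y :=
    ⟨⟨y, y, hyy, hyy⟩, rfl⟩
  have hyU : yG ∈ Cfsg.GU 4 F p := by
    have : yG ∈ Cfsg.Agent.H7.GUI (Fin 4) F p := by
      rw [Cfsg.Agent.H50.GUFix.mem_GUI_iff_isU hc yG]
      show (yG : Matrix (Fin 4) (Fin 4) F)ᵀ * (yG : Matrix (Fin 4) (Fin 4) F).map (fun x => x ^ p) = 1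
      rw [hyG]
      exact hU
    exact this
  have h2' : (2 : F)⁻¹ * 2 = 1 := inv_mul_cancel₀ h2
  have hspan : Submodule.span F {w : Fin 4 → F |
      ∃ l : F, (l = 1 ∨ l = -1) ∧ (yG : Matrix (Fin 4) (Fin 4) F) *ᵥ w = l • w} = ⊤ := by
    rw [eq_top_iff]
    intro v _
    have hv : v = (2 : F)⁻¹ • (v + y *ᵥ v) + (2 : F)⁻¹ • (v - y *ᵥ v) := by
      rw [← smul_add]
      have : v + y *ᵥ v + (v - y *ᵥ v) = (2 : F) • v := by
        rw [two_smul]; abel
      rw [this, smul_smul, h2', one_smul]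
    rw [hv]
    refine Submodule.add_mem _ (Submodule.smul_mem _ _ (Submodule.subset_span ⟨1, Or.inl rfl, ?_⟩))
      (Submodule.smul_mem _ _ (Submodule.subset_span ⟨-1, Or.inr rfl, ?_⟩))
    · rw [hyG, Matrix.mulVec_add, Matrix.mulVec_mulVec, hyy, Matrix.one_mulVec, one_smul,
        add_comm]
    · rw [hyG, Matrix.mulVec_sub, Matrix.mulVec_mulVec, hyy, Matrix.one_mulVec, neg_one_smul,
        neg_sub]
  have hP : ∀ l l' : F, (l = 1 ∨ l = -1) → (l' = 1 ∨ l' = -1) → l ≠ l' → l ^ p * l' ≠ 1 := by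
    have hodd : Odd p := by
      rcases hp.eq_two_or_odd' with h | h
      · exfalso
        have hchar : (2 : F) = 0 := by
          obtain ⟨n, hq', hn⟩ := FiniteField.card F (ringChar F)
          have h1 : ringChar F ∣ p ^ 2 := by
            rw [← hc, hn]
            exact dvd_pow_self _ n.ne_zero
          have h3 : ringChar F = p := (Nat.prime_dvd_prime_iff_eq hq' hp).mp (hq'.dvd_of_dvd_pow h1)
          have : ((ringChar F : ℕ) : F) = 0 := ringChar.Nat.cast_ringChar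
          rw [h3, h] at this
          exact_mod_cast this
        exact h2 hchar
      · exact h
    rintro l l' (rfl | rfl) (rfl | rfl) hne
    · exact absurd rfl hne
    · rw [one_pow, one_mul]
      intro h
      apply h2
      linear_combination -h
    · rw [hodd.neg_one_pow, mul_one]
      intro h
      apply h2
      linear_combination -h
    · exact absurd rfl hne
  obtain ⟨b, l, hb, hl⟩ := unitary_eigen_onb4 hc yG hyU (fun l : F => l = 1 ∨ l = -1) hP hspan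
  have he : ∀ i j, Cfsg.hermForm 4 F p (Pi.basisFun F (Fin 4) i) (Pi.basisFun F (Fin 4) j) =
      if i = j then 1 else 0 := by
    intro i j
    unfold Cfsg.hermForm
    simp only [Pi.basisFun_apply, Pi.single_apply]
    by_cases hij : i = j
    · subst hij
      simp [hp0]
    · rw [if_neg hij]
      apply Finset.sum_eq_zero
      intro k _
      by_cases hk : k = i
      · subst hk
        simp [hij, hp0]
      · simp [hk]
  obtain ⟨g, hgU, hgS, w, hw0, hgw⟩ := exists_su_of_onb4 hc (Pi.basisFun F (Fin 4)) b he hb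
  refine ⟨(g : Matrix (Fin 4) (Fin 4) F), l, (mem_sl_iff g).mp hgS, ?_, fun i => (hl i).1, ?_⟩
  · have : g ∈ Cfsg.Agent.H7.GUI (Fin 4) F p := hgU
    rw [Cfsg.Agent.H50.GUFix.mem_GUI_iff_isU hc g] at this
    exact this
  · apply Matrix.ext_of_mulVec_single
    intro k
    have hgk : (g : Matrix (Fin 4) (Fin 4) F) *ᵥ Pi.single k 1 = w k • b k := by
      have := hgw k
      rw [Pi.basisFun_apply] at this
      exact this
    rw [← Matrix.mulVec_mulVec, ← Matrix.mulVec_mulVec, hgk, Matrix.mulVec_smul,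
      Matrix.diagonal_mulVec_single, mul_one]
    have h1 := (hl k).2
    rw [hyG] at h1
    rw [h1]
    have h3 : (Pi.single k (l k) : Fin 4 → F) = l k • Pi.single k (1 : F) := by
      ext i
      simp [Pi.single_apply]
    rw [h3, Matrix.mulVec_smul, hgk, smul_comm]

example : StUInvA.{u} := uInvA

end Cfsg.Agent.H54.UP
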