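import Mathlib
import Cfsg.Agent.H83.UPDefs
import Cfsg.Agent.H54.UPROOTS

/-!
# S6001-WTV (helper54, for helper83's S6001 project)

A unitary transvection in `SU_4(p)`, `p ≡ 3 (mod 4)`.
-/

set_option autoImplicit false

namespace Cfsg.Agent.H54.UP

open Cfsg.Agent.H83.UP Matrix

universe u

/-- Scalars for the unitary witnesses: `ι^2 = -1`, `ι^p = -ι`, and `c`, `c'` with `c^p = c'`,
`c'^p = c`, `c * c' = -1`. -/
theorem exists_iota_norm {F : Type u} [Field F] [Fintype F] {p : ℕ} (hp : p.Prime)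
    (hc : Fintype.card F = p ^ 2) (hp4 : p % 4 = 3) :
    ∃ ι c c' : F, ι * ι = -1 ∧ ι ^ p = -ι ∧ c ^ p = c' ∧ c' ^ p = c ∧ c * c' = -1 := by
  have hchar : CharP F p := charP_of_card_sq hp hc
  have : Fact p.Prime := ⟨hp⟩
  have hp1 : 1 ≤ p := hp.one_lt.le
  obtain ⟨ι, hι⟩ := isSquare_natCast hp hc (by omega) (p - 1)
  have hι' : ι * ι = -1 := by
    rw [← hι, Nat.cast_sub hp1, CharP.cast_eq_zero F p]
    simp
  have hιp : ι ^ p = -ι := by
    obtain ⟨m, hm⟩ : ∃ m, p = 2 * (2 * m + 1) + 1 := ⟨p / 4, by omega⟩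
    rw [hm, pow_succ, pow_mul, pow_two, hι', Odd.neg_one_pow ⟨m, rfl⟩]
    ring
  obtain ⟨a, b, hab⟩ := ZMod.sq_add_sq p (-1 : ZMod p)
  have hab' : ((a.val : F)) ^ 2 + ((b.val : F)) ^ 2 = -1 := by
    have h1 : ((a.val ^ 2 + b.val ^ 2 + 1 : ℕ) : ZMod p) = 0 := by
      push_cast
      rw [ZMod.natCast_zmod_val, ZMod.natCast_zmod_val, hab]
      ring
    have h2 : ((a.val ^ 2 + b.val ^ 2 + 1 : ℕ) : F) = 0 := by
      rw [CharP.cast_eq_zero_iff F p]
      exact (ZMod.natCast_eq_zero_iff _ _).mp h1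
    push_cast at h2
    linear_combination h2
  have ha := natCast_pow_char (F := F) p a.val
  have hb := natCast_pow_char (F := F) p b.val
  refine ⟨ι, (a.val : F) + (b.val : F) * ι, (a.val : F) - (b.val : F) * ι, hι', hιp, ?_, ?_, ?_⟩
  · rw [add_pow_char, mul_pow, ha, hb, hιp]
    ring
  · rw [sub_pow_char, mul_pow, ha, hb, hιp]
    ring
  · linear_combination hab' - (b.val : F) ^ 2 * hι'

theorem wtv : StWTV.{u} := by
  intro F _ _ p hp hc hp4
  have hchar : CharP F p := charP_of_card_sq hp hc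
  have : Fact p.Prime := ⟨hp⟩
  have hp0 : p ≠ 0 := hp.ne_zero
  obtain ⟨ι, c, c', hι, hιp, hcp, hc'p, hcc⟩ := exists_iota_norm hp hc hp4
  have hι0 : ι ≠ 0 := by
    intro h
    rw [h] at hι
    simp at hι
  set w : Fin 4 → F := ![ι, ι * c, 0, 0] with hw
  set v : Fin 4 → F := ![1, c', 0, 0] with hv
  have hvw : v ⬝ᵥ w = 0 := by
    simp [hw, hv, dotProduct, Fin.sum_univ_four]
    linear_combination ι * hcc
  have hx : (1 + Matrix.vecMulVec w v : Matrix (Fin 4) (Fin 4) F) =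
      !![1 + ι, ι * c', 0, 0; ι * c, 1 - ι, 0, 0; 0, 0, 1, 0; 0, 0, 0, 1] := by
    ext i j
    fin_cases i <;> fin_cases j <;> simp [hw, hv]
    linear_combination ι * hcc
  refine ⟨1 + Matrix.vecMulVec w v, ?_, ?_, ?_, ?_, ?_⟩
  · rw [Matrix.vecMulVec_eq (Fin 1), Matrix.det_one_add_replicateCol_mul_replicateRow, hvw,
      add_zero]
  · unfold IsU
    have h1 : (1 + ι) ^ p = 1 - ι := by rw [add_pow_char, one_pow, hιp]; ring
    have h2 : (1 - ι) ^ p = 1 + ι := by rw [sub_pow_char, one_pow, hιp]; ring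
    have h3 : (ι * c') ^ p = -(ι * c) := by rw [mul_pow, hιp, hc'p]; ring
    have h4 : (ι * c) ^ p = -(ι * c') := by rw [mul_pow, hιp, hcp]; ring
    have hmap : (!![1 + ι, ι * c', 0, 0; ι * c, 1 - ι, 0, 0; 0, 0, 1, 0; 0, 0, 0, 1] :
        Matrix (Fin 4) (Fin 4) F).map (fun a => a ^ p) =
        !![1 - ι, -(ι * c), 0, 0; -(ι * c'), 1 + ι, 0, 0; 0, 0, 1, 0; 0, 0, 0, 1] := by
      ext i j
      fin_cases i <;> fin_cases j <;> simp [h1, h2, h3, h4, hp0]
    rw [hx, hmap]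
    ext i j
    fin_cases i <;> fin_cases j <;>
      simp [Matrix.mul_apply, Fin.sum_univ_four]
    · linear_combination (-1 - c * c') * hι + hcc
    · ring
    · ring
    · linear_combination (-1 - c * c') * hι + hcc
  · rw [add_sub_cancel_left, Matrix.vecMulVec_mul_vecMulVec, hvw, zero_smul]
    ext i j
    simp [Matrix.vecMulVec_apply]
  · rw [add_sub_cancel_left]
    exact Matrix.rank_vecMulVec_le w v
  · intro h
    have h0 := congrFun (congrFun h 0) 0
    simp [hw, hv] at h0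
    exact hι0 h0

example : StWTV.{u} := wtv

end Cfsg.Agent.H54.UP
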