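import Mathlib
import Cfsg.Agent.H83.UPDefs
import Cfsg.Agent.H54.UPWTV

/-!
# S6001-W5 (helper54, for helper83's S6001 project)

A witness of order 5 in `SU_4(p)`, `p ≡ 3 (mod 4)`, `p ≡ ±1 (mod 5)`: an element of `SU_2` with
trace `2 t`, `4 t^2 + 2 t = 1`, extended by the identity.
-/

set_option autoImplicit false

namespace Cfsg.Agent.H54.UP

open Cfsg.Agent.H83.UP Matrix

universe u

theorem isSquare_zmod_five (a : ZMod 5) (h0 : a ≠ 0) (h4 : orderOf a ≠ 4) : IsSquare a := by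
  have h2 : orderOf (2 : ZMod 5) = 4 := by
    rw [orderOf_eq_iff (by norm_num)]
    refine ⟨by decide, ?_⟩
    intro m hm hm0
    interval_cases m <;> decide
  have h3 : orderOf (3 : ZMod 5) = 4 := by
    rw [orderOf_eq_iff (by norm_num)]
    refine ⟨by decide, ?_⟩
    intro m hm hm0
    interval_cases m <;> decide
  have hcases : ∀ a : ZMod 5, a = 0 ∨ a = 1 ∨ a = 2 ∨ a = 3 ∨ a = 4 := by decide
  rcases hcases a with rfl | rfl | rfl | rfl | rfl
  · exact absurd rfl h0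
  · exact ⟨1, by decide⟩
  · exact absurd h2 h4
  · exact absurd h3 h4
  · exact ⟨2, by decide⟩

/-- The scalars of the order-5 witness. -/
theorem exists_w5_scalars {F : Type u} [Field F] [Fintype F] {p : ℕ} (hp : p.Prime)
    (hc : Fintype.card F = p ^ 2) (hp4 : p % 4 = 3) (h5 : orderOf (p : ZMod 5) ≠ 4) :
    ∃ t b b' : F, 4 * t ^ 2 + 2 * t - 1 = 0 ∧ t ^ p = t ∧ b ^ p = b' ∧ b' ^ p = b ∧
      b * b' = 1 - t ^ 2 := by
  have hchar : CharP F p := charP_of_card_sq hp hc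
  have : Fact p.Prime := ⟨hp⟩
  have : Fact (Nat.Prime 5) := ⟨by norm_num⟩
  have hp5 : ((p : ℕ) : ZMod 5) ≠ 0 := by
    intro h
    rw [ZMod.natCast_eq_zero_iff] at h
    have := (Nat.prime_dvd_prime_iff_eq (by norm_num) hp).mp h
    omega
  have hsq5 : IsSquare ((5 : ℕ) : ZMod p) := by
    rw [← ZMod.exists_sq_eq_prime_iff_of_mod_four_eq_one (p := 5) (q := p) (by norm_num)
      (by intro h; omega)]
    exact isSquare_zmod_five _ hp5 h5
  obtain ⟨r, hr⟩ := hsq5
  have h4 : (4 : ZMod p) ≠ 0 := by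
    have h : ((4 : ℕ) : ZMod p) ≠ 0 := by
      rw [Ne, ZMod.natCast_eq_zero_iff]
      intro h
      have h' : p ∣ 2 ^ 2 := by norm_num; exact h
      have := (Nat.prime_dvd_prime_iff_eq hp Nat.prime_two).mp (hp.dvd_of_dvd_pow h')
      omega
    exact_mod_cast h
  have ht0 : 4 * ((-1 + r) / 4) ^ 2 + 2 * ((-1 + r) / 4) - 1 = 0 := by
    have hr' : r * r = 5 := by rw [← hr]; norm_num
    field_simp
    linear_combination hr'
  obtain ⟨e, g, heg⟩ := ZMod.sq_add_sq p (1 - ((-1 + r) / 4) ^ 2)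
  set φ : ZMod p →+* F := ZMod.castHom (dvd_refl p) F with hφ
  have hfix : ∀ a : ZMod p, φ a ^ p = φ a := by
    intro a
    rw [← map_pow, ZMod.pow_card]
  obtain ⟨ι, -, -, hι, hιp, -, -, -⟩ := exists_iota_norm hp hc hp4
  refine ⟨φ ((-1 + r) / 4), φ e + φ g * ι, φ e - φ g * ι, ?_, hfix _, ?_, ?_, ?_⟩
  · have := congrArg φ ht0
    simpa [map_sub, map_add, map_mul, map_pow, map_ofNat] using this
  · rw [add_pow_char, mul_pow, hfix, hfix, hιp]
    ring
  · rw [sub_pow_char, mul_pow, hfix, hfix, hιp]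
    ring
  · have h1 := congrArg φ heg
    simp only [map_sub, map_add, map_pow, map_one] at h1
    linear_combination h1 - φ g ^ 2 * hι

theorem w5 : StW5.{u} := by
  intro F _ _ p hp hc hp4 h5
  have hchar : CharP F p := charP_of_card_sq hp hc
  have : Fact p.Prime := ⟨hp⟩
  have hp0 : p ≠ 0 := hp.ne_zero
  obtain ⟨t, b, b', ht, htp, hbp, hb'p, hbb⟩ := exists_w5_scalars hp hc hp4 h5
  have h5F : (5 : F) ≠ 0 := by
    have : ((5 : ℕ) : F) ≠ 0 := natCast_ne_zero_of_not_dvd (p := p) (by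
      intro h
      have := (Nat.prime_dvd_prime_iff_eq hp (by norm_num)).mp h
      omega)
    exact_mod_cast this
  have hodd : Odd p := by
    rw [Nat.odd_iff]; omega
  -- the family `M α β`
  have hmul : ∀ α β α' β' : F,
      (!![α, β * b, 0, 0; -(β * b'), α, 0, 0; 0, 0, 1, 0; 0, 0, 0, 1] : Matrix (Fin 4) (Fin 4) F) *
        !![α', β' * b, 0, 0; -(β' * b'), α', 0, 0; 0, 0, 1, 0; 0, 0, 0, 1] =
      !![α * α' - β * β' * (1 - t ^ 2), (α * β' + β * α') * b, 0, 0;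
        -((α * β' + β * α') * b'), α * α' - β * β' * (1 - t ^ 2), 0, 0; 0, 0, 1, 0; 0, 0, 0, 1] := by
    intro α β α' β'
    ext i j
    fin_cases i <;> fin_cases j <;> simp [Matrix.mul_apply, Fin.sum_univ_four]
    · linear_combination (-β * β') * hbb
    · ring
    · ring
    · linear_combination (-β * β') * hbb
  have hMeq : ∀ α β α' β' : F, α = α' → β = β' →
      (!![α, β * b, 0, 0; -(β * b'), α, 0, 0; 0, 0, 1, 0; 0, 0, 0, 1] : Matrix (Fin 4) (Fin 4) F) =
        !![α', β' * b, 0, 0; -(β' * b'), α', 0, 0; 0, 0, 1, 0; 0, 0, 0, 1] := by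
    rintro α β α' β' rfl rfl
    rfl
  have hx : (!![t, b, 0, 0; -b', t, 0, 0; 0, 0, 1, 0; 0, 0, 0, 1] : Matrix (Fin 4) (Fin 4) F) =
      !![t, 1 * b, 0, 0; -(1 * b'), t, 0, 0; 0, 0, 1, 0; 0, 0, 0, 1] := by
    simp
  have hone : (1 : Matrix (Fin 4) (Fin 4) F) =
      !![1, 0 * b, 0, 0; -(0 * b'), 1, 0, 0; 0, 0, 1, 0; 0, 0, 0, 1] := by
    ext i j
    fin_cases i <;> fin_cases j <;> simp
  have hinv : (!![t, b, 0, 0; -b', t, 0, 0; 0, 0, 1, 0; 0, 0, 0, 1] : Matrix (Fin 4) (Fin 4) F)⁻¹ =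
      !![t, (-1) * b, 0, 0; -((-1) * b'), t, 0, 0; 0, 0, 1, 0; 0, 0, 0, 1] := by
    apply Matrix.inv_eq_right_inv
    rw [hx, hmul, hone]
    exact hMeq _ _ _ _ (by ring) (by ring)
  refine ⟨!![t, b, 0, 0; -b', t, 0, 0; 0, 0, 1, 0; 0, 0, 0, 1], ?_, ?_, ?_, ?_, ?_⟩
  · have hdet : (!![t, b, 0, 0; -b', t, 0, 0; 0, 0, 1, 0; 0, 0, 0, 1] :
        Matrix (Fin 4) (Fin 4) F).det = t * t + b * b' := by
      rw [Matrix.det_succ_row_zero]
      simp [Fin.sum_univ_succ, Matrix.det_fin_three, Fin.succAbove]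
    rw [hdet, hbb]
    ring
  · unfold IsU
    have hmap : (!![t, b, 0, 0; -b', t, 0, 0; 0, 0, 1, 0; 0, 0, 0, 1] :
        Matrix (Fin 4) (Fin 4) F).map (fun a => a ^ p) =
        !![t, b', 0, 0; -b, t, 0, 0; 0, 0, 1, 0; 0, 0, 0, 1] := by
      ext i j
      fin_cases i <;> fin_cases j <;> simp [htp, hbp, hb'p, hp0, hodd.neg_pow]
    rw [hmap]
    ext i j
    fin_cases i <;> fin_cases j <;> simp [Matrix.mul_apply, Fin.sum_univ_four]
    · linear_combination hbb
    · ring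
    · ring
    · linear_combination hbb
  · have h5 : ∀ X : Matrix (Fin 4) (Fin 4) F, X ^ 5 = X * X * (X * X) * X := by
      intro X
      simp only [pow_succ, pow_zero, one_mul, mul_assoc]
    rw [h5, hx, hmul, hmul, hmul, hone]
    refine hMeq _ _ _ _ ?_ ?_
    · linear_combination (4 * t ^ 3 - 2 * t ^ 2 - 3 * t + 1) * ht
    · linear_combination (4 * t ^ 2 - 2 * t - 1) * ht
  · intro c hc'
    have h0 := congrFun (congrFun hc' 0) 0
    have h2 := congrFun (congrFun hc' 2) 2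
    simp at h0 h2
    have ht1 : t = 1 := h0.trans h2.symm
    rw [ht1] at ht
    exact h5F (by linear_combination ht)
  · rw [hinv]
    simp [Matrix.trace, Fin.sum_univ_four]
    intro h
    exact h5F (by linear_combination (6 * t - 1) * h - (6 * t + 8) * ht)

example : StW5.{u} := w5

end Cfsg.Agent.H54.UP
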